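import Mathlib

set_option autoImplicit false

namespace Cfsg.Agent.Lib.OW.AltB

variable {D : Type*} [NonAssocRing D]

/-- The associator. -/
def A (x y z : D) : D := x * y * z - x * (y * z)

theorem A_add_left (x x' y z : D) : A (x + x') y z = A x y z + A x' y z := by
  simp only [A, add_mul]; abel

theorem A_add_mid (x y y' z : D) : A x (y + y') z = A x y z + A x y' z := by
  simp only [A, add_mul, mul_add]; abel

theorem A_add_right (x y z z' : D) : A x y (z + z') = A x y z + A x y z' := by
  simp only [A, mul_add]; abel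

theorem teich (w x y z : D) :
    A (w * x) y z - A w (x * y) z + A w x (y * z) = w * A x y z + A w x y * z := by
  simp only [A, mul_sub, sub_mul]; abel

theorem A_one_left (y z : D) : A 1 y z = 0 := by simp [A]
theorem A_one_mid (x z : D) : A x 1 z = 0 := by simp [A]
theorem A_one_right (x y : D) : A x y 1 = 0 := by simp [A]
theorem A_zero_left (y z : D) : A 0 y z = 0 := by simp [A]
theorem A_zero_mid (x z : D) : A x 0 z = 0 := by simp [A]
theorem A_zero_right (x y : D) : A x y 0 = 0 := by simp [A]
theorem A_neg_left (x y z : D) : A (-x) y z = - A x y z := by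
  have h := A_add_left x (-x) y z
  rw [add_neg_cancel, A_zero_left] at h
  exact (eq_neg_of_add_eq_zero_right h.symm)
theorem A_neg_mid (x y z : D) : A x (-y) z = - A x y z := by
  have h := A_add_mid x y (-y) z
  rw [add_neg_cancel, A_zero_mid] at h
  exact (eq_neg_of_add_eq_zero_right h.symm)
theorem A_neg_right (x y z : D) : A x y (-z) = - A x y z := by
  have h := A_add_right x y z (-z)
  rw [add_neg_cancel, A_zero_right] at h
  exact (eq_neg_of_add_eq_zero_right h.symm)

section Alt

variable (h1 : ∀ a x : D, x * a * a = x * (a * a)) (h2 : ∀ a x : D, a * (a * x) = a * a * x)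

include h1 in
theorem A_rr (x a : D) : A x a a = 0 := by simp [A, h1]

include h2 in
theorem A_ll (a x : D) : A a a x = 0 := by simp [A, h2]

include h2 in
theorem A_swap12 (a b c : D) : A a b c = - A b a c := by
  have h := A_ll h2 (a + b) c
  rw [A_add_left, A_add_mid, A_add_mid, A_ll h2, A_ll h2, zero_add, add_zero] at h
  exact eq_neg_of_add_eq_zero_left h

include h1 in
theorem A_swap23 (a b c : D) : A a b c = - A a c b := by
  have h := A_rr h1 a (b + c)
  rw [A_add_mid, A_add_right, A_add_right, A_rr h1, A_rr h1, zero_add, add_zero] at h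
  exact eq_neg_of_add_eq_zero_left h

include h1 h2 in
theorem A_cyc (a b c : D) : A a b c = A b c a := by
  rw [A_swap12 h2 a b c, A_swap23 h1 b a c, neg_neg]

include h1 h2 in
theorem A_flex (a b : D) : A a b a = 0 := by
  rw [A_swap12 h2, A_rr h1, neg_zero]

include h2 in
theorem sqid1 (x y z : D) : A (x * x) y z = A x (x * y) z + x * A x y z := by
  have h := teich x x y z
  rw [A_ll h2 x (y * z), A_ll h2 x y, zero_mul, add_zero, add_zero, sub_eq_iff_eq_add] at h
  rw [h]
  abel

include h1 h2 in
theorem mid_skew (x y z : D) : A x (x * y) z = - A x (x * z) y := by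
  have h3 := sqid1 h2 x y z
  have h4 := sqid1 h2 x z y
  have h5 : A (x * x) y z = - A (x * x) z y := A_swap23 h1 _ _ _
  have h6 : A x z y = - A x y z := A_swap23 h1 _ _ _
  rw [h3, h4, h6, mul_neg] at h5
  have h7 : A x (x * y) z = (A x (x * y) z + x * A x y z) - x * A x y z := by abel
  rw [h7, h5]
  abel

include h1 h2 in
/-- `[yx, x, z] = x [y, x, z]`. -/
theorem N_eq (x y z : D) : A (y * x) x z = x * A y x z := by
  have hc := teich x y x z
  rw [A_flex h1 h2, zero_mul, add_zero] at hc
  have e1 : A (x * y) x z = - A x (x * y) z := A_swap12 h2 _ _ _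
  have e2 : A x (y * x) z = - A (y * x) x z := A_swap12 h2 _ _ _
  have e3 : A x y (x * z) = A x (x * y) z := by
    rw [A_cyc h1 h2 x y (x * z), A_cyc h1 h2 y (x * z) x, A_swap12 h2 (x * z) x y, ← mid_skew h1 h2]
  rw [e1, e2, e3] at hc
  rw [← hc]
  abel

include h1 h2 in
/-- Moufang: `[x, xy, z] = [x, y, z] x`. -/
theorem mid_eq (x y z : D) : A x (x * y) z = A x y z * x := by
  have hd := teich x y z x
  rw [A_flex h1 h2 x (y * z)] at hd
  have e1 : A (x * y) z x = A x (x * y) z := by
    rw [A_swap23 h1, A_swap12 h2 (x * y) x z, neg_neg]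
  have e3 : A x y (z * x) = x * A z x y := by
    rw [A_cyc h1 h2 x y (z * x), A_cyc h1 h2 y (z * x) x, N_eq h1 h2]
  have e4 : A y z x = A z x y := A_cyc h1 h2 _ _ _
  rw [e1, e3, e4] at hd
  have h5 : A x (x * y) z + x * A z x y = x * A z x y + A x y z * x := by
    rw [← hd]
    abel
  rw [add_comm] at h5
  exact add_left_cancel h5

include h1 h2 in
theorem square_id (x y z : D) : A (x * x) y z = A x y z * x + x * A x y z := by
  rw [sqid1 h2, mid_eq h1 h2]

/-- Schafer's function. -/
def F (w x y z : D) : D := A (w * x) y z - x * A w y z - A x y z * w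

include h1 h2 in
theorem F_swap12 (u v y z : D) : F u v y z = - F v u y z := by
  have h0 : F (u + v) (u + v) y z = 0 := by
    simp only [F]
    rw [square_id h1 h2]
    abel
  have hu : F u u y z = 0 := by
    simp only [F]
    rw [square_id h1 h2]
    abel
  have hv : F v v y z = 0 := by
    simp only [F]
    rw [square_id h1 h2]
    abel
  have h3 : F (u + v) (u + v) y z = F u u y z + F u v y z + F v u y z + F v v y z := by
    simp only [F, mul_add, add_mul, A_add_left]
    abel
  rw [h0, hu, hv, zero_add, add_zero] at h3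
  exact eq_neg_of_add_eq_zero_left h3.symm

include h1 h2 in
theorem F_swap23 (w x y z : D) : F w x y z = - F w y x z := by
  have hxx : ∀ x : D, F w x x z = 0 := by
    intro x
    simp only [F]
    rw [N_eq h1 h2, A_ll h2, zero_mul]
    abel
  have h3 : F w (x + y) (x + y) z = F w x x z + F w x y z + F w y x z + F w y y z := by
    simp only [F, mul_add, add_mul, A_add_left, A_add_mid]
    abel
  rw [hxx, hxx, hxx, zero_add, add_zero] at h3
  exact eq_neg_of_add_eq_zero_left h3.symm

include h1 h2 in
theorem F_swap13 (w x y z : D) : F w x y z = - F y x w z := by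
  rw [F_swap12 h1 h2 w x y z, F_swap23 h1 h2 x w y z, neg_neg, F_swap12 h1 h2 x y w z]

/-- Monomials in two letters. -/
inductive Mon (a b : D) : ℕ → D → Prop
  | inl : Mon a b 1 a
  | inr : Mon a b 1 b
  | mul {m n : ℕ} {x y : D} : Mon a b m x → Mon a b n y → Mon a b (m + n) (x * y)

theorem Mon.pos {a b : D} {n : ℕ} {x : D} (h : Mon a b n x) : 1 ≤ n := by
  induction h with
  | inl => exact le_rfl
  | inr => exact le_rfl
  | mul _ _ ih _ => omega

/-- Begins with a letter. -/
def Begins (a b : D) (c : D) (d : ℕ) (u : D) : Prop :=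
  (d = 1 ∧ u = c) ∨ ∃ u' d', Mon a b d' u' ∧ d = d' + 1 ∧ u = c * u'

theorem exists_begins {a b : D} {T : ℕ}
    (IH : ∀ l m n p q r, Mon a b l p → Mon a b m q → Mon a b n r → l + m + n < T → A p q r = 0)
    {d : ℕ} {u : D} (hu : Mon a b d u) (hd : d < T) :
    ∃ c, Mon a b 1 c ∧ Begins a b c d u := by
  induction hu with
  | inl => exact ⟨a, Mon.inl, Or.inl ⟨rfl, rfl⟩⟩
  | inr => exact ⟨b, Mon.inr, Or.inl ⟨rfl, rfl⟩⟩
  | @mul m n x y hx hy ihx ihy =>
    have hm := hx.pos
    have hn := hy.pos
    obtain ⟨c, hc, hb⟩ := ihx (by omega)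
    refine ⟨c, hc, Or.inr ?_⟩
    rcases hb with ⟨h3, h4⟩ | ⟨x', m', hx', h3, h4⟩
    · refine ⟨y, n, hy, by omega, by rw [h4]⟩
    · refine ⟨x' * y, m' + n, Mon.mul hx' hy, by omega, ?_⟩
      have h5 := IH 1 m' n c x' y hc hx' hy (by omega)
      rw [h4]
      exact sub_eq_zero.mp h5

include h1 h2 in
/-- The key step of Artin's theorem. -/
theorem key_same {a b : D} {T : ℕ}
    (IH : ∀ l m n p q r, Mon a b l p → Mon a b m q → Mon a b n r → l + m + n < T → A p q r = 0)
    {c p q r : D} {l m n : ℕ} (hc : Mon a b 1 c) (hp : Begins a b c l p) (hq : Begins a b c m q)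
    (hr : Mon a b n r) (hT : l + m + n = T) : A p q r = 0 := by
  have hn := hr.pos
  rcases hp with ⟨h3, rfl⟩ | ⟨u, l', hu, h3, rfl⟩
  · rcases hq with ⟨h4, rfl⟩ | ⟨v, m', hv, h4, rfl⟩
    · exact A_ll h2 _ _
    · rw [mid_eq h1 h2, IH 1 m' n _ v r hc hv hr (by omega), zero_mul]
  · rcases hq with ⟨h4, rfl⟩ | ⟨v, m', hv, h4, rfl⟩
    · rw [A_swap12 h2, mid_eq h1 h2, IH 1 l' n _ u r hc hu hr (by omega), zero_mul, neg_zero]
    · have hl' := hu.pos
      have hm' := hv.pos
      have e1 : A c v r = 0 := IH 1 m' n c v r hc hv hr (by omega)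
      have e2 : A u (c * v) r = 0 := IH l' (1 + m') n u (c * v) r hu (Mon.mul hc hv) hr (by omega)
      have e3 : A u c r = 0 := IH l' 1 n u c r hu hc hr (by omega)
      have e4 : A c v u = 0 := IH 1 m' l' c v u hc hv hu (by omega)
      have e5 : A c (v * u) r = 0 := IH 1 (m' + l') n c (v * u) r hc (Mon.mul hv hu) hr (by omega)
      have e6 : c * v * u = c * (v * u) := sub_eq_zero.mp e4
      have h5 := F_swap13 h1 h2 c u (c * v) r
      simp only [F] at h5
      rw [mid_eq h1 h2 c v r, e1, zero_mul, mul_zero, sub_zero, e2, zero_mul, sub_zero, e3, zero_mul, sub_zero,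
        e6, A_swap12 h2 (c * (v * u)) c r, mid_eq h1 h2, e5, zero_mul, neg_zero, zero_sub,
        A_swap12 h2 (c * v) c r, mid_eq h1 h2, e1, zero_mul, neg_zero, mul_zero, neg_zero, neg_zero] at h5
      exact h5

include h1 h2 in
/-- Artin's theorem on monomials. -/
theorem artin_mon {a b : D} (T : ℕ) :
    ∀ l m n p q r, Mon a b l p → Mon a b m q → Mon a b n r → l + m + n = T → A p q r = 0 := by
  induction T using Nat.strong_induction_on with
  | _ T ih =>
    intro l m n p q r hp hq hr hT
    have IH : ∀ l m n p q r, Mon a b l p → Mon a b m q → Mon a b n r → l + m + n < T → A p q r = 0 :=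
      fun l m n p q r hp hq hr hlt => ih _ hlt l m n p q r hp hq hr rfl
    have hlp := hp.pos
    have hlq := hq.pos
    have hlr := hr.pos
    obtain ⟨c₁, hc₁, hb₁⟩ := exists_begins IH hp (by omega)
    obtain ⟨c₂, hc₂, hb₂⟩ := exists_begins IH hq (by omega)
    obtain ⟨c₃, hc₃, hb₃⟩ := exists_begins IH hr (by omega)
    have letter : ∀ {c : D}, Mon a b 1 c → c = a ∨ c = b := by
      intro c hc
      generalize hk : (1 : ℕ) = k at hc
      cases hc with
      | inl => exact Or.inl rfl
      | inr => exact Or.inr rfl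
      | mul h3 h4 =>
        have := h3.pos
        have := h4.pos
        omega
    have h12 : c₁ = c₂ → A p q r = 0 := fun h => key_same h1 h2 IH hc₁ hb₁ (h ▸ hb₂) hr hT
    have h23 : c₂ = c₃ → A p q r = 0 := fun h => by
      rw [A_cyc h1 h2]
      exact key_same h1 h2 IH hc₂ hb₂ (h ▸ hb₃) hp (by omega)
    have h13 : c₁ = c₃ → A p q r = 0 := fun h => by
      rw [A_swap23 h1, key_same h1 h2 IH hc₁ hb₁ (h ▸ hb₃) hq (by omega), neg_zero]
    rcases letter hc₁ with e1 | e1 <;> rcases letter hc₂ with e2 | e2 <;> rcases letter hc₃ with e3 | e3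
    · exact h12 (e1.trans e2.symm)
    · exact h12 (e1.trans e2.symm)
    · exact h13 (e1.trans e3.symm)
    · exact h23 (e2.trans e3.symm)
    · exact h23 (e2.trans e3.symm)
    · exact h13 (e1.trans e3.symm)
    · exact h12 (e1.trans e2.symm)
    · exact h12 (e1.trans e2.symm)

/-- Generators of the span. -/
def Gn (a b : D) : Set D := {x | x = 1 ∨ ∃ n, Mon a b n x}

/-- The additive span of `1` and the monomials. -/
def Sp (a b : D) : AddSubgroup D := AddSubgroup.closure (Gn a b)

theorem closure_ind {S : Set D} {P : D → Prop} (hS : ∀ x ∈ S, P x) (h0 : P 0)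
    (hadd : ∀ x y, P x → P y → P (x + y)) (hneg : ∀ x, P x → P (-x)) {x : D}
    (hx : x ∈ AddSubgroup.closure S) : P x := by
  induction hx using AddSubgroup.closure_induction with
  | mem x hx => exact hS x hx
  | zero => exact h0
  | add x y _ _ hx hy => exact hadd x y hx hy
  | neg x _ hx => exact hneg x hx

theorem Gn_mul {a b x y : D} (hx : x ∈ Gn a b) (hy : y ∈ Gn a b) : x * y ∈ Gn a b := by
  rcases hx with rfl | ⟨m, hx⟩
  · rwa [one_mul]
  rcases hy with rfl | ⟨n, hy⟩
  · rw [mul_one]
    exact Or.inr ⟨m, hx⟩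
  · exact Or.inr ⟨m + n, Mon.mul hx hy⟩

theorem Sp_mul {a b x y : D} (hx : x ∈ Sp a b) (hy : y ∈ Sp a b) : x * y ∈ Sp a b := by
  refine closure_ind (P := fun x => x * y ∈ Sp a b) ?_ ?_ ?_ ?_ hx
  · intro u hu
    refine closure_ind (P := fun y => u * y ∈ Sp a b) ?_ ?_ ?_ ?_ hy
    · intro v hv
      exact AddSubgroup.subset_closure (Gn_mul hu hv)
    · simp
    · intro v w hv hw
      rw [mul_add]
      exact (Sp a b).add_mem hv hw
    · intro v hv
      rw [mul_neg]
      exact (Sp a b).neg_mem hv
  · simp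
  · intro v w hv hw
    rw [add_mul]
    exact (Sp a b).add_mem hv hw
  · intro v hv
    rw [neg_mul]
    exact (Sp a b).neg_mem hv

include h1 h2 in
theorem Gn_assoc {a b p q r : D} (hp : p ∈ Gn a b) (hq : q ∈ Gn a b) (hr : r ∈ Gn a b) :
    A p q r = 0 := by
  rcases hp with rfl | ⟨l, hp⟩
  · exact A_one_left _ _
  rcases hq with rfl | ⟨m, hq⟩
  · exact A_one_mid _ _
  rcases hr with rfl | ⟨n, hr⟩
  · exact A_one_right _ _
  · exact artin_mon h1 h2 _ l m n p q r hp hq hr rfl

include h1 h2 in
theorem Sp_assoc {a b p q r : D} (hp : p ∈ Sp a b) (hq : q ∈ Sp a b) (hr : r ∈ Sp a b) :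
    A p q r = 0 := by
  refine closure_ind (P := fun p => A p q r = 0) ?_ (A_zero_left _ _) ?_ ?_ hp
  · intro p hp
    refine closure_ind (P := fun q => A p q r = 0) ?_ (A_zero_mid _ _) ?_ ?_ hq
    · intro q hq
      refine closure_ind (P := fun r => A p q r = 0) ?_ (A_zero_right _ _) ?_ ?_ hr
      · intro r hr
        exact Gn_assoc h1 h2 hp hq hr
      · intro u v hu hv
        rw [A_add_right, hu, hv, add_zero]
      · intro u hu
        rw [A_neg_right, hu, neg_zero]
    · intro u v hu hv
      rw [A_add_mid, hu, hv, add_zero]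
    · intro u hu
      rw [A_neg_mid, hu, neg_zero]
  · intro u v hu hv
    rw [A_add_left, hu, hv, add_zero]
  · intro u hu
    rw [A_neg_left, hu, neg_zero]

/-- The associative subring generated by two elements. -/
@[reducible] def spRing (a b : D) : Ring (Sp a b) :=
  { (inferInstance : AddCommGroup (Sp a b)) with
    mul := fun x y => ⟨x.1 * y.1, Sp_mul x.2 y.2⟩
    one := ⟨1, AddSubgroup.subset_closure (Or.inl rfl)⟩
    left_distrib := fun x y z => Subtype.ext (mul_add _ _ _)
    right_distrib := fun x y z => Subtype.ext (add_mul _ _ _)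
    zero_mul := fun x => Subtype.ext (zero_mul _)
    mul_zero := fun x => Subtype.ext (mul_zero _)
    mul_assoc := fun x y z => Subtype.ext (sub_eq_zero.mp (Sp_assoc h1 h2 x.2 y.2 z.2))
    one_mul := fun x => Subtype.ext (one_mul _)
    mul_one := fun x => Subtype.ext (mul_one _) }

include h1 h2 in
theorem comm_of [Finite D] [Nontrivial D] [NoZeroDivisors D] (a b : D) : a * b = b * a := by
  let _ := spRing h1 h2 a b
  have : Nontrivial (Sp a b) :=
    ⟨⟨0, 1, fun h => zero_ne_one (congrArg Subtype.val h)⟩⟩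
  have : NoZeroDivisors (Sp a b) :=
    ⟨fun {x y} h => by
      have h3 : x.1 * y.1 = 0 := congrArg Subtype.val h
      rcases mul_eq_zero.mp h3 with h4 | h4
      · exact Or.inl (Subtype.ext h4)
      · exact Or.inr (Subtype.ext h4)⟩
  have : IsDomain (Sp a b) := NoZeroDivisors.to_isDomain _
  have hF := Finite.isDomain_to_isField (Sp a b)
  have ha : a ∈ Sp a b := AddSubgroup.subset_closure (Or.inr ⟨1, Mon.inl⟩)
  have hb : b ∈ Sp a b := AddSubgroup.subset_closure (Or.inr ⟨1, Mon.inr⟩)
  have h3 := hF.mul_comm ⟨a, ha⟩ ⟨b, hb⟩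
  exact congrArg Subtype.val h3

include h1 h2 in
/-- A finite alternative ring without zero divisors is associative and commutative. -/
theorem assoc_comm [Finite D] [Nontrivial D] [NoZeroDivisors D] :
    (∀ a b c : D, a * b * c = a * (b * c)) ∧ (∀ a b : D, a * b = b * a) := by
  have hcomm : ∀ a b : D, a * b = b * a := comm_of h1 h2
  refine ⟨?_, hcomm⟩
  intro x y z
  refine sub_eq_zero.mp ?_
  show A x y z = 0
  have hsum : A x y z + A y z x + A z x y = 0 := by
    simp only [A]
    rw [hcomm x (y * z), hcomm y (z * x), hcomm z (x * y)]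
    abel
  have e1 : A y z x = A x y z := (A_cyc h1 h2 x y z).symm
  have e2 : A z x y = A x y z := by rw [← e1, ← A_cyc h1 h2 y z x]
  rw [e1, e2] at hsum
  have h3A : (3 : D) * A x y z = 0 := by
    have h4 : (3 : D) = 1 + 1 + 1 := by norm_num
    rw [h4, add_mul, add_mul, one_mul]
    exact hsum
  rcases mul_eq_zero.mp h3A with h3 | h3
  swap
  · exact h3
  -- characteristic three
  have hthree : ∀ t : D, t + t + t = 0 := by
    intro t
    have h4 : (3 : D) = 1 + 1 + 1 := by norm_num
    have h5 : (3 : D) * t = 0 := by rw [h3, zero_mul]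
    rw [h4, add_mul, add_mul, one_mul] at h5
    exact h5
  have h2ne : (2 : D) ≠ 0 := by
    intro h20
    have h4 : (3 : D) = 2 + 1 := by norm_num
    rw [h3, h20, zero_add] at h4
    exact one_ne_zero h4.symm
  have hsub : ∀ u v : D, (u - v) * ((u - v) * (u - v)) = u * (u * u) - v * (v * v) := by
    intro u v
    have h4 : (u - v) * ((u - v) * (u - v)) = u * (u * u) - v * (v * v)
        - (u * u * v + u * u * v + u * u * v) + (v * v * u + v * v * u + v * v * u) := by
      simp only [sub_mul, mul_sub]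
      have e3 : v * (u * v) = v * v * u := by rw [hcomm u v, h2]
      rw [hcomm v u, h2 u v, hcomm u (v * v), hcomm v (u * u), e3]
      abel
    rw [h4, hthree, hthree, sub_zero, add_zero]
  have hinj : Function.Injective (fun u : D => u * (u * u)) := by
    intro u v huv
    have h4 : (u - v) * ((u - v) * (u - v)) = 0 := by
      rw [hsub, sub_eq_zero]
      exact huv
    rcases mul_eq_zero.mp h4 with h5 | h5
    · exact sub_eq_zero.mp h5
    · rcases mul_eq_zero.mp h5 with h6 | h6 <;> exact sub_eq_zero.mp h6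
  obtain ⟨u, rfl⟩ := Finite.injective_iff_surjective.mp hinj x
  have hder : ∀ v w : D, A (v * w) y z = w * A v y z + v * A w y z := by
    intro v w
    have h4 := F_swap12 h1 h2 v w y z
    simp only [F] at h4
    rw [hcomm w v, hcomm (A w y z) v, hcomm (A v y z) w] at h4
    have h5 : (2 : D) * (A (v * w) y z - (w * A v y z + v * A w y z)) = 0 := by
      have h6 : (2 : D) = 1 + 1 := by norm_num
      rw [h6, add_mul, one_mul]
      have h7 := eq_neg_iff_add_eq_zero.mp h4
      rw [← h7]
      abel
    rcases mul_eq_zero.mp h5 with h6 | h6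
    · exact absurd h6 h2ne
    · exact sub_eq_zero.mp h6
  show A (u * (u * u)) y z = 0
  rw [hder, hder, mul_add, h2, ← add_assoc]
  exact hthree _

end Alt

end Cfsg.Agent.Lib.OW.AltB
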