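import Mathlib
import Cfsg.Agent.Lib.OW.AltB

/-! Ostrom-Wagner: abstract algebra piece (Hua + Artin + associativity). See forum 'S3732 notes', M11-M13. -/

set_option autoImplicit false

namespace Cfsg.Agent.Lib.OW


/-- From the inverse property on the right: the right alternative law. -/
theorem right_alt_aux {D : Type*} [NonAssocRing D] [Finite D]
    (hR : ∀ m : D, m ≠ 0 → ∃ m' : D, ∀ x, x * m * m' = x) (a x : D) : x * a * a = x * (a * a) := by
  classical
  by_cases h0 : a = 0
  · subst h0
    simp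
  by_cases h1 : a + 1 = 0
  · have ha : a = -1 := eq_neg_of_add_eq_zero_left h1
    subst ha
    simp
  -- inverses on both sides
  have hbij : ∀ m : D, m ≠ 0 → ∃ m' : D, (∀ x, x * m * m' = x) ∧ (∀ x, x * m' * m = x) := by
    intro m hm
    obtain ⟨m', hm'⟩ := hR m hm
    refine ⟨m', hm', fun y => ?_⟩
    have hinj : Function.Injective (fun x : D => x * m) := by
      intro u v huv
      have h2 := congrArg (fun z => z * m') huv
      simpa [hm'] using h2
    have hsurj := Finite.injective_iff_surjective.mp hinj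
    obtain ⟨u, rfl⟩ := hsurj y
    show u * m * m' * m = u * m
    rw [hm']
  obtain ⟨a', ha1, ha2⟩ := hbij a h0
  obtain ⟨b', hb1, hb2⟩ := hbij (a + 1) h1
  have hc0 : a' - b' ≠ 0 := by
    intro hc
    have hab : a' = b' := sub_eq_zero.mp hc
    have h3 := ha2 x
    have h4 := hb2 (x * a * 1)
    have h5 : ∀ y : D, y * a' * (a + 1) = y * a' * a + y * a' := fun y => by rw [mul_add, mul_one]
    have h6 : ∀ y : D, y * a' * a = y := ha2
    have h7 : ∀ y : D, y * a' * (a + 1) = y := by
      intro y
      rw [hab]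
      exact hb2 y
    have h8 : ∀ y : D, y * a' = 0 := by
      intro y
      have h9 := h7 y
      rw [h5, h6] at h9
      simpa using h9
    have h10 := h8 1
    have h11 := ha2 1
    rw [h10, zero_mul] at h11
    have h12 : (1 : D) = 0 := h11.symm
    apply h0
    have := mul_one a
    rw [h12, mul_zero] at this
    exact this.symm
  obtain ⟨c', hc1, hc2⟩ := hbij (a' - b') hc0
  -- `R_c = R_a⁻¹ R_b⁻¹`
  have hRc : ∀ y : D, y * (a' - b') = y * a' * b' := by
    intro y
    have h2 : y * a' = (y * a') * (a + 1) * b' := (hb1 _).symm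
    have h3 : (y * a') * (a + 1) = y + y * a' := by
      rw [mul_add, mul_one, ha2]
    rw [h3, add_mul] at h2
    have h4 : y * a' - y * a' * b' = y * b' := by
      rw [sub_eq_iff_eq_add]
      exact h2
    rw [mul_sub, ← h4]
    abel
  -- so `R_{c'} = R_b R_a`
  have hRc' : ∀ y : D, y * c' = y * (a + 1) * a := by
    intro y
    have h2 := hc2 y
    rw [hRc] at h2
    have h3 := hb2 (y * c' * a')
    rw [h2] at h3
    have h4 := ha2 (y * c')
    rw [← h3] at h4
    exact h4.symm
  have h5 : c' = (a + 1) * a := by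
    have h6 := hRc' 1
    simpa using h6
  have h7 := hRc' x
  rw [h5, add_mul, one_mul, mul_add, mul_add, mul_one, add_mul] at h7
  exact (add_right_cancel h7).symm

/-- [M11] Hua + distributivity give the alternative laws. `R_m⁻¹ = R_{m'}`, `L_x⁻¹ = L_{x'}`. -/
theorem alt_of_maps {D : Type*} [NonAssocRing D] [Finite D]
    (hR : ∀ m : D, m ≠ 0 → ∃ m' : D, ∀ x, x * m * m' = x)
    (hL : ∀ x : D, x ≠ 0 → ∃ x' : D, ∀ y, x' * (x * y) = y) :
    (∀ a x : D, x * a * a = x * (a * a)) ∧ (∀ a x : D, a * (a * x) = a * a * x) := by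
  refine ⟨right_alt_aux hR, ?_⟩
  intro a x
  have hR' : ∀ m : Dᵐᵒᵖ, m ≠ 0 → ∃ m' : Dᵐᵒᵖ, ∀ y, y * m * m' = y := by
    intro m hm
    have hm0 : m.unop ≠ 0 := fun h => hm (MulOpposite.unop_injective (by simpa using h))
    obtain ⟨m', hm'⟩ := hL m.unop hm0
    refine ⟨MulOpposite.op m', fun y => ?_⟩
    apply MulOpposite.unop_injective
    simpa using hm' y.unop
  have : Finite Dᵐᵒᵖ := Finite.of_equiv D MulOpposite.opEquiv
  have h := right_alt_aux hR' (MulOpposite.op a) (MulOpposite.op x)
  have h2 := congrArg MulOpposite.unop h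
  simpa using h2

/-- [M12+M13] Artin + associativity argument: a finite alternative ring without zero divisors is a field. -/
theorem assoc_comm_of_alt {D : Type*} [NonAssocRing D] [Finite D] [Nontrivial D] [NoZeroDivisors D]
    (h1 : ∀ a x : D, x * a * a = x * (a * a)) (h2 : ∀ a x : D, a * (a * x) = a * a * x) :
    (∀ a b c : D, a * b * c = a * (b * c)) ∧ (∀ a b : D, a * b = b * a) :=
  AltB.assoc_comm h1 h2

end Cfsg.Agent.Lib.OW
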