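import Cfsg.Agent.Lib.OW.Sub

/-! [O2b] Baer chain: the fixed plane of a 2-group has order `m` with `n = m ^ 2 ^ k`. -/

set_option autoImplicit false
set_option linter.unusedSectionVars false

namespace Cfsg.Agent.Lib.OW

open Configuration

universe u v

namespace BaerChain

/-- The counting: a set of fixed points inside a plane, each non-fixed point on one fixed line. -/
theorem count_step {Q R : Type*} [Finite Q] [Finite R] (on : Q → R → Prop) (fix : Q → Prop)
    (m0 m : ℕ) (hQ : Nat.card Q = m0 ^ 2 + m0 + 1) (hFx : Nat.card {q // fix q} = m ^ 2 + m + 1)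
    (hR : Nat.card R = m ^ 2 + m + 1) (h1 : ∀ q, ¬ fix q → ∃! l, on q l)
    (h2 : ∀ l, Nat.card {q // on q l} = m0 + 1) (h3 : ∀ l, Nat.card {q // on q l ∧ fix q} = m + 1)
    (hle : m ≤ m0) : m0 = m ∨ m0 = m ^ 2 := by
  classical
  haveI := Fintype.ofFinite Q
  haveI := Fintype.ofFinite R
  have c1 : ∀ p : Q → Prop, Nat.card {q // p q} = (Finset.univ.filter p).card := fun p => by
    rw [Nat.card_eq_fintype_card, Fintype.card_subtype]
  rw [Nat.card_eq_fintype_card] at hQ hR
  rw [c1] at hFx
  set Nf : Finset Q := Finset.univ.filter (fun q => ¬ fix q) with hNf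
  have hNfc : Nf.card + (m ^ 2 + m + 1) = m0 ^ 2 + m0 + 1 := by
    rw [← hFx, ← hQ, ← Finset.card_univ, add_comm, hNf]
    exact Finset.card_filter_add_card_filter_not _
  have hsum := Finset.sum_card_bipartiteAbove_eq_sum_card_bipartiteBelow (s := Nf)
    (t := (Finset.univ : Finset R)) on
  have hl : ∀ q ∈ Nf, (Finset.bipartiteAbove on (Finset.univ : Finset R) q).card = 1 := by
    intro q hq
    have hq' : ¬ fix q := by simpa [hNf] using hq
    obtain ⟨l, hl1, hl2⟩ := h1 q hq'
    rw [Finset.card_eq_one]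
    refine ⟨l, ?_⟩
    ext x
    simp only [Finset.bipartiteAbove, Finset.mem_filter, Finset.mem_univ, true_and, Finset.mem_singleton]
    exact ⟨fun h => hl2 x h, fun h => h ▸ hl1⟩
  have hr : ∀ l ∈ (Finset.univ : Finset R), (Finset.bipartiteBelow on Nf l).card = m0 - m := by
    intro l _
    have e1 : (Finset.univ.filter (fun q => on q l)).card = m0 + 1 := by
      have := h2 l
      rw [c1] at this
      convert this
    have e2 : (Finset.univ.filter (fun q => on q l ∧ fix q)).card = m + 1 := by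
      have := h3 l
      rw [c1] at this
      convert this
    have e3 : (Finset.bipartiteBelow on Nf l).card =
        (Finset.univ.filter (fun q => on q l ∧ ¬ fix q)).card := by
      congr 1
      ext x
      simp [Finset.bipartiteBelow, hNf, and_comm]
    have e4 : (Finset.univ.filter (fun q => on q l ∧ fix q)).card +
        (Finset.univ.filter (fun q => on q l ∧ ¬ fix q)).card =
        (Finset.univ.filter (fun q => on q l)).card := by
      rw [← Finset.card_filter_add_card_filter_not (s := Finset.univ.filter (fun q => on q l)) (fun q => fix q),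
        Finset.filter_filter, Finset.filter_filter]
    rw [e3]
    omega
  rw [Finset.sum_congr rfl hl, Finset.sum_congr rfl hr] at hsum
  simp only [Finset.sum_const, Finset.card_univ, smul_eq_mul, mul_one] at hsum
  rw [hR] at hsum
  obtain ⟨d, rfl⟩ := Nat.exists_eq_add_of_le hle
  have hd : m + d - m = d := by omega
  rw [hd] at hsum
  have key : d * (2 * m + d) = d * (m ^ 2 + m) := by
    have : (m ^ 2 + m + 1) * d + (m ^ 2 + m + 1) = (m + d) ^ 2 + (m + d) + 1 := by
      rw [← hsum]; exact hNfc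
    nlinarith
  rcases Nat.eq_zero_or_pos d with h0 | h0
  · left; omega
  · right
    have := Nat.eq_of_mul_eq_mul_left h0 key
    nlinarith

variable {P : Type u} {L : Type v} [Membership P L] [Fintype P] [Fintype L] [ProjectivePlane P L]

/-- Order of the fixed plane. -/
noncomputable def ordF (W : Subgroup (Coll P L)) (hQ : HasQuad W) : ℕ :=
  letI := fixPlane W hQ
  ProjectivePlane.order (FixP W) (FixL W)

theorem card_FixP (W : Subgroup (Coll P L)) (hQ : HasQuad W) :
    Nat.card (FixP W) = ordF W hQ ^ 2 + ordF W hQ + 1 := by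
  letI := fixPlane W hQ
  letI := Fintype.ofFinite (FixP W)
  rw [Nat.card_eq_fintype_card]
  exact ProjectivePlane.card_points (FixP W) (FixL W)

theorem card_FixL (W : Subgroup (Coll P L)) (hQ : HasQuad W) :
    Nat.card (FixL W) = ordF W hQ ^ 2 + ordF W hQ + 1 := by
  letI := fixPlane W hQ
  letI := Fintype.ofFinite (FixL W)
  rw [Nat.card_eq_fintype_card]
  exact ProjectivePlane.card_lines (FixP W) (FixL W)

theorem card_on (W : Subgroup (Coll P L)) (hQ : HasQuad W) (l : FixL W) :
    Nat.card {q : FixP W // q.1 ∈ l.1} = ordF W hQ + 1 := by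
  letI := fixPlane W hQ
  exact ProjectivePlane.pointCount_eq (FixP W) l

theorem quad_mono {W0 W : Subgroup (Coll P L)} (hle : W0 ≤ W) (hQ : HasQuad W) : HasQuad W0 := by
  obtain ⟨a, b, c, d, h1, h2, h3, h4, h5, h6, h7⟩ := hQ
  refine ⟨⟨a.1, fun w hw => a.2 w (hle hw)⟩, ⟨b.1, fun w hw => b.2 w (hle hw)⟩,
    ⟨c.1, fun w hw => c.2 w (hle hw)⟩, ⟨d.1, fun w hw => d.2 w (hle hw)⟩, ?_, ?_, ?_, ?_, ?_, ?_, h7⟩
  · exact fun e => h1 (Subtype.ext (congrArg (fun t : FixP W0 => t.1) e))
  · exact fun e => h2 (Subtype.ext (congrArg (fun t : FixP W0 => t.1) e))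
  · exact fun e => h3 (Subtype.ext (congrArg (fun t : FixP W0 => t.1) e))
  · exact fun e => h4 (Subtype.ext (congrArg (fun t : FixP W0 => t.1) e))
  · exact fun e => h5 (Subtype.ext (congrArg (fun t : FixP W0 => t.1) e))
  · exact fun e => h6 (Subtype.ext (congrArg (fun t : FixP W0 => t.1) e))

open Nondegenerate HasLines in
/-- One step of the chain. -/
theorem step {W0 W : Subgroup (Coll P L)} (hle : W0 ≤ W) (σ : Coll P L) (hσ : σ ∈ W)
    (hgen : ∀ w ∈ W, w ∈ W0 ∨ σ⁻¹ * w ∈ W0) (hsq : σ * σ ∈ W0)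
    (hconj : ∀ u ∈ W0, σ⁻¹ * u * σ ∈ W0) (hQ0 : HasQuad W0) (hQ : HasQuad W) :
    ordF W0 hQ0 = ordF W hQ ∨ ordF W0 hQ0 = ordF W hQ ^ 2 := by
  have hσσ : ∀ q : FixP W0, σ.pt (σ.pt q.1) = q.1 := fun q => q.2 _ hsq
  have hσ0 : ∀ (q : FixP W0), ∀ u ∈ W0, u.pt (σ.pt q.1) = σ.pt q.1 := by
    intro q u hu
    have h1 : (σ⁻¹ * u * σ).pt q.1 = q.1 := q.2 _ (hconj u hu)
    simp only [mul_pt, inv_pt, Equiv.Perm.mul_apply] at h1
    rw [Equiv.Perm.inv_eq_iff_eq] at h1
    exact h1
  have hfixW : ∀ (q : FixP W0), σ.pt q.1 = q.1 → ∀ w ∈ W, w.pt q.1 = q.1 := by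
    intro q hq w hw
    rcases hgen w hw with h | h
    · exact q.2 w h
    · have h1 : (σ⁻¹ * w).pt q.1 = q.1 := q.2 _ h
      simp only [mul_pt, inv_pt, Equiv.Perm.mul_apply] at h1
      rw [Equiv.Perm.inv_eq_iff_eq] at h1
      rw [h1, hq]
  have hle' : ordF W hQ ≤ ordF W0 hQ0 := by
    have h1 : Nat.card (FixP W) ≤ Nat.card (FixP W0) :=
      Nat.card_le_card_of_injective (fun r : FixP W => (⟨r.1, fun w hw => r.2 w (hle hw)⟩ : FixP W0))
        (fun a b e => Subtype.ext (congrArg (fun t : FixP W0 => t.1) e))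
    rw [card_FixP W hQ, card_FixP W0 hQ0] at h1
    by_contra hcon
    push Not at hcon
    nlinarith
  refine count_step (Q := FixP W0) (R := FixL W) (fun q l => q.1 ∈ l.1) (fun q => σ.pt q.1 = q.1)
    (ordF W0 hQ0) (ordF W hQ) (card_FixP W0 hQ0) ?_ (card_FixL W hQ) ?_ ?_ ?_ hle'
  · rw [← card_FixP W hQ]
    refine Nat.card_congr
      { toFun := fun q => ⟨q.1.1, hfixW q.1 q.2⟩
        invFun := fun r => ⟨⟨r.1, fun w hw => r.2 w (hle hw)⟩, r.2 σ hσ⟩
        left_inv := fun q => rfl
        right_inv := fun r => rfl }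
  · intro q hq
    have hne : q.1 ≠ σ.pt q.1 := fun e => hq e.symm
    obtain ⟨h1, h2⟩ := mkLine_ax (L := L) hne
    have hσl : σ.ln (mkLine hne) = (mkLine hne : L) := by
      have h3 : σ.pt q.1 ∈ σ.ln (mkLine hne) := (σ.inc _ _).mpr h1
      have h4 : q.1 ∈ σ.ln (mkLine hne) := by
        have := (σ.inc _ _).mpr h2
        rwa [hσσ] at this
      exact (eq_or_eq h4 h3 h1 h2).resolve_left hne
    have hu : ∀ u ∈ W0, u.ln (mkLine hne) = (mkLine hne : L) := by
      intro u hu
      exact BasicsAux.ln_fix u hne h1 h2 (q.2 u hu) (hσ0 q u hu)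
    have hw : ∀ w ∈ W, w.ln (mkLine hne) = (mkLine hne : L) := by
      intro w hw
      rcases hgen w hw with h | h
      · exact hu w h
      · have h5 : (σ⁻¹ * w).ln (mkLine hne) = (mkLine hne : L) := hu _ h
        simp only [mul_ln, inv_ln, Equiv.Perm.mul_apply] at h5
        rw [Equiv.Perm.inv_eq_iff_eq] at h5
        rw [h5, hσl]
    refine ⟨⟨mkLine hne, hw⟩, h1, ?_⟩
    intro y hy
    apply Subtype.ext
    have h6 : σ.pt q.1 ∈ y.1 := by
      have := (σ.inc q.1 y.1).mpr hy
      rwa [y.2 σ hσ] at this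
    exact (eq_or_eq hy h6 h1 h2).resolve_left hne
  · intro l
    exact card_on W0 hQ0 ⟨l.1, fun w hw => l.2 w (hle hw)⟩
  · intro l
    rw [← card_on W hQ l]
    refine Nat.card_congr
      { toFun := fun q => ⟨⟨q.1.1, hfixW q.1 q.2.2⟩, q.2.1⟩
        invFun := fun r => ⟨⟨r.1.1, fun w hw => r.1.2 w (hle hw)⟩, r.2, r.1.2 σ hσ⟩
        left_inv := fun q => rfl
        right_inv := fun r => rfl }

/-- THE CHAIN. -/
theorem chain : ∀ (n : ℕ) (W : Subgroup (Coll P L)), Nat.card W = n → IsPGroup 2 W → ∀ hQ : HasQuad W,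
    ∃ k : ℕ, ProjectivePlane.order P L = ordF W hQ ^ (2 ^ k) := by
  intro n
  induction n using Nat.strong_induction_on with
  | _ n ih =>
    intro W hn hW hQ
    by_cases hbot : W = ⊥
    · subst hbot
      refine ⟨0, ?_⟩
      rw [pow_zero, pow_one]
      have h1 : Nat.card (FixP (⊥ : Subgroup (Coll P L))) = Nat.card P := by
        refine Nat.card_congr
          { toFun := fun q => q.1
            invFun := fun p => ⟨p, fun w hw => by
              rw [Subgroup.mem_bot] at hw; subst hw; rfl⟩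
            left_inv := fun q => rfl
            right_inv := fun r => rfl }
      rw [card_FixP _ hQ, Nat.card_eq_fintype_card, ProjectivePlane.card_points P L] at h1
      by_contra hcon
      rcases Nat.lt_or_gt_of_ne hcon with h | h <;> nlinarith
    · classical
      haveI : Fact (Nat.Prime 2) := ⟨Nat.prime_two⟩
      obtain ⟨a, ha⟩ := IsPGroup.iff_card.mp hW
      have ha0 : a ≠ 0 := by
        rintro rfl
        apply hbot
        rw [pow_zero] at ha
        exact (Subgroup.eq_bot_of_card_eq W ha)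
      obtain ⟨b, rfl⟩ := Nat.exists_eq_succ_of_ne_zero ha0
      obtain ⟨K, hK, -⟩ := Sylow.exists_subgroup_card_pow_prime_le (G := W) 2 (n := 0) (m := b)
        (by rw [ha]; exact pow_dvd_pow 2 (Nat.le_succ b)) (⊥ : Subgroup W) (by simp) (Nat.zero_le b)
      have hidx : K.index = 2 := by
        have h1 := Subgroup.card_mul_index K
        rw [hK, ha, pow_succ] at h1
        exact Nat.eq_of_mul_eq_mul_left (by positivity) h1
      haveI hKn : K.Normal := Subgroup.normal_of_index_eq_two hidx
      have hKne : K ≠ ⊤ := by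
        rintro rfl
        simp at hidx
      obtain ⟨σ, hσ⟩ : ∃ σ : W, σ ∉ K := by
        by_contra hall
        push Not at hall
        exact hKne ((Subgroup.eq_top_iff' K).2 hall)
      set W0 : Subgroup (Coll P L) := K.map W.subtype with hW0
      have hle : W0 ≤ W := by
        rintro _ ⟨x, -, rfl⟩
        exact x.2
      have hcard0 : Nat.card W0 = 2 ^ b := by
        rw [hW0, ← hK]
        exact Nat.card_congr (K.equivMapOfInjective W.subtype Subtype.val_injective).toEquiv.symm
      have hQ0 := quad_mono hle hQ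
      have hW02 : IsPGroup 2 W0 := IsPGroup.iff_card.mpr ⟨b, hcard0⟩
      obtain ⟨k, hk⟩ := ih (2 ^ b) (by rw [← hn, ha]; exact Nat.pow_lt_pow_right (by norm_num) (Nat.lt_succ_self b))
        W0 hcard0 hW02 hQ0
      have hmem : ∀ x : W, x ∈ K → (x : Coll P L) ∈ W0 := fun x hx => ⟨x, hx, rfl⟩
      have hmem' : ∀ x : W, (x : Coll P L) ∈ W0 → x ∈ K := by
        rintro x ⟨y, hy, hyx⟩
        have : y = x := Subtype.ext hyx
        exact this ▸ hy
      have hst := step hle σ.1 σ.2
        (fun w hw => by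
          by_cases hwK : (⟨w, hw⟩ : W) ∈ K
          · exact Or.inl (hmem _ hwK)
          · right
            have h1 : σ⁻¹ * (⟨w, hw⟩ : W) ∈ K := by
              rw [Subgroup.mul_mem_iff_of_index_two hidx]
              constructor
              · intro h2; exact absurd (K.inv_mem_iff.mp h2) hσ
              · intro h2; exact absurd h2 hwK
            exact hmem _ h1)
        (hmem (σ * σ) (by
          rw [Subgroup.mul_mem_iff_of_index_two hidx]))
        (fun u hu => by
          have huK := hmem' ⟨u, hle hu⟩ hu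
          have := hKn.conj_mem _ huK σ⁻¹
          simp only [inv_inv] at this
          exact hmem _ this)
        hQ0 hQ
      rcases hst with h | h
      · exact ⟨k, by rw [hk, h]⟩
      · refine ⟨k + 1, ?_⟩
        rw [hk, h, ← pow_mul, pow_succ, mul_comm]

end BaerChain

/-- Baer chain in the form of `Tri.order_fix_pow`. -/
theorem baerChain_order_fix_pow {P : Type u} {L : Type v} [Membership P L] [Fintype P] [Fintype L]
    [ProjectivePlane P L] (W : Subgroup (Coll P L)) (hW : IsPGroup 2 W) (hQ : HasQuad W) :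
    letI := fixPlane W hQ
    ∃ k : ℕ, ProjectivePlane.order P L = (ProjectivePlane.order (FixP W) (FixL W)) ^ (2 ^ k) :=
  BaerChain.chain _ W rfl hW hQ

end Cfsg.Agent.Lib.OW
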