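import Cfsg.Agent.Lib.OW.Defs

/-! [M1] Basics on collineations. -/

set_option autoImplicit false
set_option linter.unusedSectionVars false

namespace Cfsg.Agent.Lib.OW

open Configuration

variable {P L : Type*} [Membership P L] [Fintype P] [Fintype L] [ProjectivePlane P L]

namespace BasicsAux

open Nondegenerate HasPoints HasLines

/-- A line has a point different from two given points. -/
theorem exists_third (l : L) (a b : P) : ∃ u : P, u ∈ l ∧ u ≠ a ∧ u ≠ b := by
  classical
  by_contra hno
  push Not at hno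
  have hcount := ProjectivePlane.pointCount_eq P l
  have h1 := ProjectivePlane.one_lt_order P L
  let f : {p : P // p ∈ l} → Bool := fun p => decide (p.1 = a)
  have hf : Function.Injective f := by
    rintro ⟨p, hp⟩ ⟨q, hq⟩ hpq
    apply Subtype.ext
    show p = q
    by_cases hpa : p = a
    · have : q = a := by
        have h2 : f ⟨q, hq⟩ = true := by
          rw [← hpq]
          simp [f, hpa]
        simpa [f] using h2
      rw [hpa, this]
    · have : q ≠ a := by
        have h2 : f ⟨q, hq⟩ = false := by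
          rw [← hpq]
          simp [f, hpa]
        simpa [f] using h2
      rw [hno p hp hpa, hno q hq this]
  have h2 := Nat.card_le_card_of_injective f hf
  rw [Nat.card_eq_fintype_card (α := Bool), Fintype.card_bool] at h2
  have h3 : pointCount P l = Nat.card {p : P // p ∈ l} := rfl
  omega

theorem ln_fix (g : Coll P L) {p q : P} {l : L} (hne : p ≠ q) (hp : p ∈ l) (hq : q ∈ l)
    (gp : g.pt p = p) (gq : g.pt q = q) : g.ln l = l := by
  have h1 : p ∈ g.ln l := by
    have := (g.inc p l).mpr hp
    rwa [gp] at this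
  have h2 : q ∈ g.ln l := by
    have := (g.inc q l).mpr hq
    rwa [gq] at this
  exact (eq_or_eq h1 h2 hp hq).resolve_left hne

theorem pt_fix (g : Coll P L) {p : P} {l m : L} (hne : l ≠ m) (hl : p ∈ l) (hm : p ∈ m)
    (gl : g.ln l = l) (gm : g.ln m = m) : g.pt p = p := by
  have h1 : g.pt p ∈ l := by
    have := (g.inc p l).mpr hl
    rwa [gl] at this
  have h2 : g.pt p ∈ m := by
    have := (g.inc p m).mpr hm
    rwa [gm] at this
  exact (eq_or_eq h1 hl h2 hm).resolve_right hne

/-- The dual collineation. -/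
def dualColl (g : Coll P L) : Coll (Dual L) (Dual P) := ⟨g.ln, g.pt, fun l p => g.inc p l⟩

theorem axis_unique (g : Coll P L) (hg : g ≠ 1) {A A' : L} (h : ∀ p : P, p ∈ A → g.pt p = p)
    (h' : ∀ p : P, p ∈ A' → g.pt p = p) : A = A' := by
  by_contra hAA'
  apply hg
  have hz := mkPoint_ax (P := P) hAA'
  set z : P := mkPoint hAA' with hzdef
  have hpt : ∀ x : P, g.pt x = x := by
    intro x
    by_cases hxA : x ∈ A
    · exact h x hxA
    by_cases hxA' : x ∈ A'
    · exact h' x hxA'
    have key : ∀ a : P, a ∈ A → a ≠ z → ∀ hax : a ≠ x, g.ln (mkLine hax) = mkLine hax := by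
      intro a ha haz hax
      have hn := mkLine_ax (L := L) hax
      have haA' : a ∉ A' := fun ha' => haz ((eq_or_eq ha hz.1 ha' hz.2).resolve_right hAA')
      have hne : (mkLine hax : L) ≠ A' := fun he => haA' (he ▸ hn.1)
      have hb := mkPoint_ax (P := P) hne
      have hab : a ≠ mkPoint hne := fun he => haA' (he ▸ hb.2)
      exact ln_fix g hab hn.1 hb.1 (h a ha) (h' _ hb.2)
    obtain ⟨a₁, ha₁, ha₁z, -⟩ := exists_third A z z
    have hax₁ : a₁ ≠ x := fun he => hxA (he ▸ ha₁)
    obtain ⟨a₂, ha₂, ha₂z, ha₂₁⟩ := exists_third A z a₁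
    have hax₂ : a₂ ≠ x := fun he => hxA (he ▸ ha₂)
    have hn₁ := mkLine_ax (L := L) hax₁
    have hn₂ := mkLine_ax (L := L) hax₂
    have hne : (mkLine hax₁ : L) ≠ mkLine hax₂ := by
      intro he
      have h2 : a₂ ∈ (mkLine hax₁ : L) := by
        rw [he]
        exact hn₂.1
      have h3 : (mkLine hax₁ : L) = A := (eq_or_eq hn₁.1 h2 ha₁ ha₂).resolve_left (Ne.symm ha₂₁)
      exact hxA (h3 ▸ hn₁.2)
    exact pt_fix g hne hn₁.2 hn₂.2 (key a₁ ha₁ ha₁z hax₁) (key a₂ ha₂ ha₂z hax₂)
  have hln : ∀ l : L, g.ln l = l := by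
    intro l
    obtain ⟨p, hp, -, -⟩ := exists_third (P := P) l z z
    obtain ⟨q, hq, hqp, -⟩ := exists_third (P := P) l p p
    exact ln_fix g (Ne.symm hqp) hp hq (hpt p) (hpt q)
  exact Coll.ext (Equiv.ext hpt) (Equiv.ext hln)

end BasicsAux

open Nondegenerate HasPoints HasLines BasicsAux

/-- line through two points is carried to the line through their images. -/
theorem ln_mkLine (g : Coll P L) {p q : P} (h : p ≠ q) :
    g.ln (HasLines.mkLine h) = HasLines.mkLine (fun e => h (g.pt.injective e)) := by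
  have h1 := mkLine_ax (L := L) h
  have h2 := mkLine_ax (L := L) (fun e => h (g.pt.injective e))
  exact (eq_or_eq ((g.inc p _).mpr h1.1) ((g.inc q _).mpr h1.2) h2.1 h2.2).resolve_left
    (fun e => h (g.pt.injective e))

/-- axis ⟹ centre. -/
theorem exists_centre (g : Coll P L) (A : L) (h : ∀ p : P, p ∈ A → g.pt p = p) :
    ∃ c : P, ∀ l : L, c ∈ l → g.ln l = l := by
  by_cases hx : ∃ x : P, x ∉ A ∧ g.pt x = x
  · obtain ⟨x, hxA, hgx⟩ := hx
    refine ⟨x, fun l hl => ?_⟩
    have hne : l ≠ A := by
      rintro rfl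
      exact hxA hl
    have hy := mkPoint_ax (P := P) hne
    have hyx : (mkPoint hne : P) ≠ x := fun h' => hxA (h' ▸ hy.2)
    exact ln_fix g hyx hy.1 hl (h _ hy.2) hgx
  · push Not at hx
    have hgA : ∀ x : P, x ∉ A → g.pt x ∉ A := by
      intro x hxA hg
      exact hx x hxA (g.pt.injective (h _ hg))
    have hm : ∀ x : P, x ∉ A → ∃ m : L, x ∈ m ∧ g.pt x ∈ m ∧ g.ln m = m := by
      intro x hxA
      have hne : x ≠ g.pt x := (hx x hxA).symm
      have hmx := mkLine_ax (L := L) hne
      refine ⟨mkLine hne, hmx.1, hmx.2, ?_⟩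
      have hmA : (mkLine hne : L) ≠ A := fun h' => hxA (h' ▸ hmx.1)
      have hy := mkPoint_ax (P := P) hmA
      have hgy := h _ hy.2
      have hyne : g.pt x ≠ mkPoint hmA := fun h' => hgA x hxA (h' ▸ hy.2)
      have h1 : g.pt x ∈ g.ln (mkLine hne) := (g.inc x _).mpr hmx.1
      have h2 : (mkPoint hmA : P) ∈ g.ln (mkLine hne) := by
        have := (g.inc (mkPoint hmA : P) (mkLine hne)).mpr hy.1
        rwa [hgy] at this
      exact (eq_or_eq h1 h2 hmx.2 hy.1).resolve_left hyne
    obtain ⟨x, hxA⟩ := exists_point (P := P) A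
    obtain ⟨m, hxm, hgxm, hgm⟩ := hm x hxA
    have hmA : m ≠ A := fun h' => hxA (h' ▸ hxm)
    have hc := mkPoint_ax (P := P) hmA
    refine ⟨mkPoint hmA, fun l hl => ?_⟩
    by_cases hlA : l = A
    · subst hlA
      obtain ⟨d, hd, hdc, -⟩ := exists_third l (mkPoint hmA : P) (mkPoint hmA : P)
      exact ln_fix g (Ne.symm hdc) hc.2 hd (h _ hc.2) (h d hd)
    by_cases hlm : l = m
    · rw [hlm]
      exact hgm
    obtain ⟨u, hu, huc, -⟩ := exists_third l (mkPoint hmA : P) (mkPoint hmA : P)
    have huA : u ∉ A := fun h' => hlA ((eq_or_eq hu hl h' hc.2).resolve_left huc)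
    have hum : u ∉ m := fun h' => hlm ((eq_or_eq hu hl h' hc.1).resolve_left huc)
    obtain ⟨m', hum', hgum', hgm'⟩ := hm u huA
    have hmm' : m ≠ m' := by
      rintro rfl
      exact hum hum'
    have hv := mkPoint_ax (P := P) hmm'
    have hgv : g.pt (mkPoint hmm') = mkPoint hmm' := pt_fix g hmm' hv.1 hv.2 hgm hgm'
    have hvA : (mkPoint hmm' : P) ∈ A := by
      by_contra hvA
      exact hx _ hvA hgv
    have hvc : (mkPoint hmm' : P) = mkPoint hmA := (eq_or_eq hv.1 hc.1 hvA hc.2).resolve_right hmA
    have hcm' : (mkPoint hmA : P) ∈ m' := hvc ▸ hv.2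
    have h4 : l = m' := (eq_or_eq hu hl hum' hcm').resolve_left huc
    rw [h4]
    exact hgm'

/-- centre ⟹ axis. -/
theorem exists_axis (g : Coll P L) (c : P) (h : ∀ l : L, c ∈ l → g.ln l = l) :
    ∃ A : L, ∀ p : P, p ∈ A → g.pt p = p :=
  exists_centre (P := Dual L) (L := Dual P) (dualColl g) c h

/-- a non-trivial perspectivity has a unique centre and a unique axis. -/
theorem persp_unique (g : Coll P L) (hg : g ≠ 1) {c c' : P} {A A' : L}
    (h : IsPersp g c A) (h' : IsPersp g c' A') : c = c' ∧ A = A' := by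
  refine ⟨?_, axis_unique g hg h.1 h'.1⟩
  have hd : dualColl g ≠ 1 := by
    intro h1
    apply hg
    exact Coll.ext (congrArg Coll.ln h1) (congrArg Coll.pt h1)
  exact axis_unique (P := Dual L) (L := Dual P) (dualColl g) hd (A := c) (A' := c') h.2 h'.2

/-- Sum of a two-valued function. -/
theorem sum_ite_aux {α : Type*} [Fintype α] (c : α → Prop) [DecidablePred c] (n : ℕ) :
    ∑ x : α, (if c x then n + 1 else 1) = Fintype.card α + n * Nat.card {x // c x} := by
  classical
  have h : ∀ x, (if c x then n + 1 else 1) = 1 + (if c x then n else 0) := by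
    intro x; split_ifs <;> omega
  simp only [h]
  rw [Finset.sum_add_distrib, Nat.card_eq_fintype_card, Fintype.card_subtype]
  simp [Finset.sum_ite, mul_comm]

open Classical in
/-- Lines through two points. -/
theorem count_lines (p q : P) :
    (∑ l : L, if p ∈ l ∧ q ∈ l then 1 else 0) = if q = p then ProjectivePlane.order P L + 1 else 1 := by
  split_ifs with h
  · subst h
    have h1 := ProjectivePlane.lineCount_eq (L := L) (P := P) q
    rw [lineCount, Nat.card_eq_fintype_card, Fintype.card_subtype] at h1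
    rw [← h1, Finset.card_filter]
    simp
  · have hne : p ≠ q := fun e => h e.symm
    rw [Finset.sum_eq_single (HasLines.mkLine (L := L) hne)]
    · rw [if_pos (HasLines.mkLine_ax (L := L) hne)]
    · intro l _ hl
      rw [if_neg]
      rintro ⟨h1, h2⟩
      have ax := HasLines.mkLine_ax (L := L) hne
      rcases Nondegenerate.eq_or_eq h1 h2 ax.1 ax.2 with e | e
      · exact hne e
      · exact hl e
    · intro hh; exact absurd (Finset.mem_univ _) hh

open Classical in
/-- Points on two lines. -/
theorem count_points (l m : L) :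
    (∑ p : P, if p ∈ l ∧ p ∈ m then 1 else 0) = if m = l then ProjectivePlane.order P L + 1 else 1 := by
  split_ifs with h
  · subst h
    have h1 := ProjectivePlane.pointCount_eq (L := L) (P := P) m
    rw [pointCount, Nat.card_eq_fintype_card, Fintype.card_subtype] at h1
    rw [← h1, Finset.card_filter]
    simp
  · have hne : l ≠ m := fun e => h e.symm
    rw [Finset.sum_eq_single (HasPoints.mkPoint (P := P) hne)]
    · rw [if_pos (HasPoints.mkPoint_ax (P := P) hne)]
    · intro p _ hp
      rw [if_neg]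
      rintro ⟨h1, h2⟩
      have ax := HasPoints.mkPoint_ax (P := P) hne
      rcases Nondegenerate.eq_or_eq h1 ax.1 h2 ax.2 with e | e
      · exact hp e
      · exact hne e
    · intro hh; exact absurd (Finset.mem_univ _) hh

/-- number of fixed points = number of fixed lines (incidence matrix invertible). -/
theorem card_fix_eq (g : Coll P L) :
    Nat.card {p : P // g.pt p = p} = Nat.card {l : L // g.ln l = l} := by
  classical
  have hn0 : 0 < ProjectivePlane.order P L := by
    have := ProjectivePlane.one_lt_order P L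
    omega
  have hcard : Fintype.card P = Fintype.card L := ProjectivePlane.card_points_eq_card_lines P L
  -- double count
  have h1 : (∑ p : P, ∑ l : L, if p ∈ l ∧ g.pt p ∈ l then 1 else 0) =
      Fintype.card P + ProjectivePlane.order P L * Nat.card {p : P // g.pt p = p} := by
    rw [← sum_ite_aux]
    refine Finset.sum_congr rfl (fun p _ => ?_)
    exact count_lines p (g.pt p)
  have h2 : (∑ l : L, ∑ p : P, if p ∈ l ∧ g.pt p ∈ l then 1 else 0) =
      Fintype.card L + ProjectivePlane.order P L * Nat.card {l : L // g.ln⁻¹ l = l} := by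
    rw [← sum_ite_aux]
    refine Finset.sum_congr rfl (fun l _ => ?_)
    have e : ∀ p : P, g.pt p ∈ l ↔ p ∈ g.ln⁻¹ l := by
      intro p
      rw [← g.inc p (g.ln⁻¹ l)]
      simp
    simp only [e]
    exact count_points l (g.ln⁻¹ l)
  have h3 : Nat.card {l : L // g.ln⁻¹ l = l} = Nat.card {l : L // g.ln l = l} := by
    refine Nat.card_congr (Equiv.subtypeEquivRight (fun l => ?_))
    rw [Equiv.Perm.inv_eq_iff_eq]
    exact eq_comm
  rw [Finset.sum_comm, h2, h3, hcard] at h1
  have h4 := Nat.add_left_cancel h1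
  exact (Nat.eq_of_mul_eq_mul_left hn0 h4).symm

/-- Flag-transitivity of a 2-transitive group. -/
theorem flag_trans {G : Subgroup (Coll P L)} (hG : TwoTrans G) (c c' : P) (A A' : L)
    (h : c ∈ A) (h' : c' ∈ A') : ∃ g ∈ G, g.pt c = c' ∧ g.ln A = A' := by
  obtain ⟨d, hd, hdc, -⟩ := exists_third A c c
  obtain ⟨d', hd', hdc', -⟩ := exists_third A' c' c'
  obtain ⟨g, hgG, hgc, hgd⟩ := hG c d c' d' (Ne.symm hdc) (Ne.symm hdc')
  refine ⟨g, hgG, hgc, ?_⟩
  have h1 : c' ∈ g.ln A := hgc ▸ (g.inc c A).mpr h
  have h2 : d' ∈ g.ln A := hgd ▸ (g.inc d A).mpr hd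
  exact (eq_or_eq h1 h2 h' hd').resolve_left (Ne.symm hdc')

namespace BasicsAux

/-- The action on points. -/
@[reducible] def actP : MulAction (Coll P L) P where
  smul g p := g.pt p
  one_smul _ := rfl
  mul_smul _ _ _ := rfl

/-- The action on lines. -/
@[reducible] def actL : MulAction (Coll P L) L where
  smul g l := g.ln l
  one_smul _ := rfl
  mul_smul _ _ _ := rfl

/-- The stabilizer of a point is transitive on the lines missing it. -/
theorem stab_trans {G : Subgroup (Coll P L)} (hG : TwoTrans G) (c : P) (A A' : L)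
    (h : c ∉ A) (h' : c ∉ A') : ∃ g ∈ G, g.pt c = c ∧ g.ln A = A' := by
  classical
  letI := actP (P := P) (L := L)
  letI := actL (P := P) (L := L)
  haveI : Fintype (Coll P L) := Fintype.ofFinite _
  let H : Subgroup (Coll P L) := G ⊓ MulAction.stabilizer (Coll P L) c
  have hH : ∀ k : H, (k : Coll P L) ∈ G ∧ (k : Coll P L).pt c = c := fun k => ⟨k.2.1, k.2.2⟩
  have bP := MulAction.sum_card_fixedBy_eq_card_orbits_mul_card_group H P
  have bL := MulAction.sum_card_fixedBy_eq_card_orbits_mul_card_group H L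
  have hsum : ∑ g : H, Fintype.card (MulAction.fixedBy P g) =
      ∑ g : H, Fintype.card (MulAction.fixedBy L g) := by
    refine Finset.sum_congr rfl fun g _ => ?_
    rw [← Nat.card_eq_fintype_card, ← Nat.card_eq_fintype_card]
    exact card_fix_eq (g : Coll P L)
  rw [hsum, bL] at bP
  have hcard : Fintype.card (MulAction.orbitRel.Quotient H L) =
      Fintype.card (MulAction.orbitRel.Quotient H P) :=
    Nat.eq_of_mul_eq_mul_right Fintype.card_pos bP
  -- at most two orbits on points
  obtain ⟨d, -, hdc, -⟩ := exists_third A c c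
  have hP2 : Fintype.card (MulAction.orbitRel.Quotient H P) ≤ 2 := by
    let f : Bool → MulAction.orbitRel.Quotient H P :=
      fun b => if b then Quotient.mk'' c else Quotient.mk'' d
    have hf : Function.Surjective f := by
      intro q
      induction q using Quotient.inductionOn' with
      | h p =>
        by_cases hp : p = c
        · exact ⟨true, by simp [f, hp]⟩
        · refine ⟨false, ?_⟩
          obtain ⟨g, hg, hgc, hgd⟩ := hG c d c p (Ne.symm hdc) (Ne.symm hp)
          have hgH : g ∈ H := ⟨hg, hgc⟩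
          simp only [f, Bool.false_eq_true, if_false]
          apply Quotient.sound'
          rw [MulAction.orbitRel_apply]
          exact ⟨⟨g⁻¹, H.inv_mem hgH⟩, by
            change (g⁻¹).pt p = d
            rw [← hgd]
            simp⟩
    have := Fintype.card_le_of_surjective f hf
    simpa using this
  by_contra hno
  push Not at hno
  -- a line through `c`
  obtain ⟨d', hd', hd'c, -⟩ := exists_third A c c
  have hb := mkLine_ax (L := L) (Ne.symm hd'c)
  let B : L := mkLine (Ne.symm hd'c)
  let x : MulAction.orbitRel.Quotient H L := Quotient.mk'' B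
  let y : MulAction.orbitRel.Quotient H L := Quotient.mk'' A
  let z : MulAction.orbitRel.Quotient H L := Quotient.mk'' A'
  have hmiss : ∀ (k : H) (l : L), c ∉ l → c ∉ (k : Coll P L).ln l := by
    intro k l hl hk
    apply hl
    have h2 := (hH k).2
    have h3 := ((k : Coll P L).inc c l)
    rw [h2] at h3
    exact h3.mp hk
  have hxy : x ≠ y := by
    intro e
    have e' := Quotient.exact' e
    rw [MulAction.orbitRel_apply] at e'
    obtain ⟨k, hk⟩ := e'
    have h2 : c ∉ (k : Coll P L).ln A := hmiss k A h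
    have h3 : (k : Coll P L).ln A = B := hk
    rw [h3] at h2
    exact h2 hb.1
  have hxz : x ≠ z := by
    intro e
    have e' := Quotient.exact' e
    rw [MulAction.orbitRel_apply] at e'
    obtain ⟨k, hk⟩ := e'
    have h2 : c ∉ (k : Coll P L).ln A' := hmiss k A' h'
    have h3 : (k : Coll P L).ln A' = B := hk
    rw [h3] at h2
    exact h2 hb.1
  have hyz : y ≠ z := by
    intro e
    have e' := Quotient.exact' e.symm
    rw [MulAction.orbitRel_apply] at e'
    obtain ⟨k, hk⟩ := e'
    exact hno k (hH k).1 (hH k).2 hk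
  have h3 : ({x, y, z} : Finset _).card = 3 := Finset.card_eq_three.mpr ⟨x, y, z, hxy, hxz, hyz, rfl⟩
  have h4 := Finset.card_le_univ ({x, y, z} : Finset (MulAction.orbitRel.Quotient H L))
  omega

end BasicsAux

/-- Line-transitivity + point-stabilizer transitive on lines missing the point etc. -/
theorem antiflag_trans {G : Subgroup (Coll P L)} (hG : TwoTrans G) (c c' : P) (A A' : L)
    (h : c ∉ A) (h' : c' ∉ A') : ∃ g ∈ G, g.pt c = c' ∧ g.ln A = A' := by
  obtain ⟨d, -, hdc, -⟩ := exists_third A c c
  obtain ⟨d', -, hdc', -⟩ := exists_third A' c' c'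
  obtain ⟨g₀, hg₀, hg₀c, -⟩ := hG c d c' d' (Ne.symm hdc) (Ne.symm hdc')
  have h1 : c' ∉ g₀.ln A := by
    intro h2
    rw [← hg₀c] at h2
    exact h ((g₀.inc c A).mp h2)
  obtain ⟨k, hk, hkc, hkA⟩ := stab_trans hG c' (g₀.ln A) A' h1 h'
  refine ⟨k * g₀, G.mul_mem hk hg₀, ?_, ?_⟩
  · change k.pt (g₀.pt c) = c'
    rw [hg₀c, hkc]
  · change k.ln (g₀.ln A) = A'
    exact hkA

end Cfsg.Agent.Lib.OW
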