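import Cfsg.Agent.Lib.OW.Basics

/-! [M7] Ostrom-Wagner, the even case: a Sylow 2-subgroup fixes a flag, a central involution of it is an elation.
See forum 'S3732 notes'. -/

set_option autoImplicit false

namespace Cfsg.Agent.Lib.OW.EvenCase

open Configuration Nondegenerate HasLines HasPoints

variable {P L : Type*} [Membership P L] [Fintype P] [Fintype L] [ProjectivePlane P L]

open Classical in
/-- number of fixed points on `l`. -/
noncomputable def fixOn (z : Coll P L) (l : L) : ℕ :=
  (Finset.univ.filter (fun p : P => p ∈ l ∧ z.pt p = p)).card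

open Classical in
/-- fixed points. -/
noncomputable def fixAll (z : Coll P L) : Finset P :=
  Finset.univ.filter (fun p : P => z.pt p = p)

lemma pt_mem_ln (g : Coll P L) {p : P} {l : L} (h : p ∈ l) : g.pt p ∈ g.ln l := (g.inc p l).mpr h

lemma pt_pt {z : Coll P L} (hz : z * z = 1) (p : P) : z.pt (z.pt p) = p := by
  have := congrArg (fun g : Coll P L => g.pt p) hz
  simpa using this

lemma ln_ln {z : Coll P L} (hz : z * z = 1) (l : L) : z.ln (z.ln l) = l := by
  have := congrArg (fun g : Coll P L => g.ln l) hz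
  simpa using this

lemma fixed_line_of_two (z : Coll P L) {p q : P} {l : L} (hp : z.pt p = p) (hq : z.pt q = q)
    (hpq : p ≠ q) (hpl : p ∈ l) (hql : q ∈ l) : z.ln l = l := by
  have h1 : p ∈ z.ln l := by have := pt_mem_ln z hpl; rwa [hp] at this
  have h2 : q ∈ z.ln l := by have := pt_mem_ln z hql; rwa [hq] at this
  exact (eq_or_eq h1 h2 hpl hql).resolve_left hpq

lemma fixed_pt_of_two (z : Coll P L) {p : P} {l m : L} (hl : z.ln l = l) (hm : z.ln m = m)
    (hlm : l ≠ m) (hpl : p ∈ l) (hpm : p ∈ m) : z.pt p = p := by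
  have h1 : z.pt p ∈ l := by have := pt_mem_ln z hpl; rwa [hl] at this
  have h2 : z.pt p ∈ m := by have := pt_mem_ln z hpm; rwa [hm] at this
  exact (eq_or_eq h1 hpl h2 hpm).resolve_right hlm

/-- A non-fixed line carries a fixed point. -/
lemma exists_fixed_on {z : Coll P L} (hz : z * z = 1) {l : L} (hl : z.ln l ≠ l) :
    ∃ w, w ∈ l ∧ z.pt w = w := by
  have hne : l ≠ z.ln l := hl.symm
  have h1 := mkPoint_ax (P := P) hne
  set w : P := mkPoint hne
  refine ⟨w, h1.1, ?_⟩
  have h2 : z.pt w ∈ z.ln l := pt_mem_ln z h1.1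
  have h3 : z.pt w ∈ l := by
    have := pt_mem_ln z h1.2
    rwa [ln_ln hz] at this
  exact (eq_or_eq h3 h1.1 h2 h1.2).resolve_right hne

/-- A third point on a line. -/
lemma third_point (m : L) (a b : P) : ∃ c, c ∈ m ∧ c ≠ a ∧ c ≠ b := by
  classical
  by_contra hcon
  push_neg at hcon
  have h1 : 2 < pointCount P m := by
    have h := ProjectivePlane.pointCount_eq (P := P) (L := L) m
    have h2 : 1 < ProjectivePlane.order P L := ProjectivePlane.one_lt_order P L
    omega
  have h2 : (Finset.univ.filter (fun p : P => p ∈ m)).card = pointCount P m := by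
    unfold pointCount
    rw [Nat.card_eq_fintype_card, Fintype.card_subtype]
  have h3 : (Finset.univ.filter (fun p : P => p ∈ m)) ⊆ ({a, b} : Finset P) := by
    intro x hx
    have hx' := (Finset.mem_filter.mp hx).2
    by_cases ha : x = a
    · simp [ha]
    · simp [hcon x hx' ha]
  have h4 := Finset.card_le_card h3
  have h5 : ({a, b} : Finset P).card ≤ 2 := Finset.card_le_two
  omega

open Classical in
/-- (P2) for a fixed line with a non-fixed point `u`, the fixed points off it number `n`. -/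
lemma card_fixed_off {z : Coll P L} (hz : z * z = 1) {l : L} (hl : z.ln l = l) {u : P} (hul : u ∈ l)
    (hu : z.pt u ≠ u) :
    (Finset.univ.filter (fun p : P => p ∉ l ∧ z.pt p = p)).card = ProjectivePlane.order P L := by
  classical
  have hA : (Finset.univ.filter (fun m : L => u ∈ m ∧ m ≠ l)).card = ProjectivePlane.order P L := by
    have h1 : (Finset.univ.filter (fun m : L => u ∈ m)).card = ProjectivePlane.order P L + 1 := by
      have h := ProjectivePlane.lineCount_eq (P := P) (L := L) u
      unfold lineCount at h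
      rw [Nat.card_eq_fintype_card, Fintype.card_subtype] at h
      exact h
    have h2 : (Finset.univ.filter (fun m : L => u ∈ m ∧ m ≠ l)) =
        (Finset.univ.filter (fun m : L => u ∈ m)).erase l := by
      ext m; simp [and_comm]
    rw [h2, Finset.card_erase_of_mem (by simp [hul]), h1]
    simp
  rw [← hA]
  have hne : ∀ p : P, p ∉ l → u ≠ p := fun p hp h => hp (h ▸ hul)
  -- nonfixed lines through u
  have hnf : ∀ m : L, u ∈ m → m ≠ l → z.ln m ≠ m := by
    intro m hum hml hfix
    exact hu (fixed_pt_of_two z hfix hl hml hum hul)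
  refine Finset.card_bij (fun p hp => mkLine (hne p (Finset.mem_filter.mp hp).2.1)) ?_ ?_ ?_
  · intro p hp
    have hp' := (Finset.mem_filter.mp hp).2
    have hax := mkLine_ax (L := L) (hne p hp'.1)
    simp only [Finset.mem_filter, Finset.mem_univ, true_and]
    refine ⟨hax.1, ?_⟩
    intro h
    exact hp'.1 (h ▸ hax.2)
  · intro p hp q hq hpq
    have hp' := (Finset.mem_filter.mp hp).2
    have hq' := (Finset.mem_filter.mp hq).2
    have hpq' : (mkLine (hne p hp'.1) : L) = mkLine (hne q hq'.1) := hpq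
    have hax := mkLine_ax (L := L) (hne p hp'.1)
    have hax' := mkLine_ax (L := L) (hne q hq'.1)
    by_contra hcon
    have hm : z.ln (mkLine (hne p hp'.1)) = mkLine (hne p hp'.1) := by
      refine fixed_line_of_two z hp'.2 hq'.2 hcon hax.2 ?_
      rw [hpq']; exact hax'.2
    refine hnf _ hax.1 ?_ hm
    intro h
    exact hp'.1 (h ▸ hax.2)
  · intro m hm
    have hm' := (Finset.mem_filter.mp hm).2
    obtain ⟨w, hwm, hw⟩ := exists_fixed_on hz (hnf m hm'.1 hm'.2)
    have hwl : w ∉ l := by
      intro h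
      have : w = u := (eq_or_eq hwm hm'.1 h hul).resolve_right hm'.2
      exact hu (this ▸ hw)
    refine ⟨w, by simp [hwl, hw], ?_⟩
    have hax := mkLine_ax (L := L) (hne w hwl)
    exact ((eq_or_eq hm'.1 hwm hax.1 hax.2).resolve_left (hne w hwl)).symm

/-- `f = k + n`. -/
lemma card_fixAll {z : Coll P L} (hz : z * z = 1) {l : L} (hl : z.ln l = l) {u : P} (hul : u ∈ l)
    (hu : z.pt u ≠ u) : (fixAll z).card = fixOn z l + ProjectivePlane.order P L := by
  classical
  rw [← card_fixed_off hz hl hul hu]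
  unfold fixAll fixOn
  rw [← Finset.card_union_of_disjoint]
  · congr 1
    ext p
    simp only [Finset.mem_filter, Finset.mem_univ, true_and, Finset.mem_union]
    tauto
  · rw [Finset.disjoint_left]
    intro p hp hp'
    simp only [Finset.mem_filter, Finset.mem_univ, true_and] at hp hp'
    exact hp'.1 hp.1

/-- (P4) Counting through a fixed point off a fixed line. -/
lemma card_through {z : Coll P L} (hz : z * z = 1) {l : L} (hl : z.ln l = l) {w : P}
    (hwl : w ∉ l) (hw : z.pt w = w) (hk : ∀ m : L, z.ln m = m → fixOn z m = fixOn z l) :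
    (fixAll z).card = fixOn z l * (fixOn z l - 1) + 1 := by
  classical
  set 𝓛 : Finset L := Finset.univ.filter (fun m : L => w ∈ m ∧ z.ln m = m) with h𝓛
  have hne : ∀ q : P, q ∈ l → w ≠ q := fun q hq h => hwl (h ▸ hq)
  have h1 : 𝓛.card = fixOn z l := by
    symm
    unfold fixOn
    refine Finset.card_bij (fun q hq => mkLine (hne q (Finset.mem_filter.mp hq).2.1)) ?_ ?_ ?_
    · intro q hq
      have hq' := (Finset.mem_filter.mp hq).2
      have hax := mkLine_ax (L := L) (hne q hq'.1)
      simp only [h𝓛, Finset.mem_filter, Finset.mem_univ, true_and]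
      exact ⟨hax.1, fixed_line_of_two z hw hq'.2 (hne q hq'.1) hax.1 hax.2⟩
    · intro q hq q' hq' hqq
      have h2 := (Finset.mem_filter.mp hq).2
      have h3 := (Finset.mem_filter.mp hq').2
      have hqq' : (mkLine (hne q h2.1) : L) = mkLine (hne q' h3.1) := hqq
      have hax := mkLine_ax (L := L) (hne q h2.1)
      have hax' := mkLine_ax (L := L) (hne q' h3.1)
      have hq'm : q' ∈ (mkLine (hne q h2.1) : L) := by rw [hqq']; exact hax'.2
      refine (eq_or_eq h2.1 h3.1 hax.2 hq'm).resolve_right ?_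
      intro h
      exact hwl (h ▸ hax.1)
    · intro m hm
      have hm' := (Finset.mem_filter.mp hm).2
      have hml : m ≠ l := fun h => hwl (h ▸ hm'.1)
      have hax := mkPoint_ax (P := P) hml
      set q : P := mkPoint hml
      have hq : z.pt q = q := fixed_pt_of_two z hm'.2 hl hml hax.1 hax.2
      refine ⟨q, by simp [hax.2, hq], ?_⟩
      have hax2 := mkLine_ax (L := L) (hne q hax.2)
      exact ((eq_or_eq hm'.1 hax.1 hax2.1 hax2.2).resolve_left (hne q hax.2)).symm
  -- union
  have h2 : (fixAll z).erase w = 𝓛.biUnion (fun m =>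
      (Finset.univ.filter (fun p : P => p ∈ m ∧ z.pt p = p)).erase w) := by
    ext x
    simp only [Finset.mem_erase, fixAll, Finset.mem_filter, Finset.mem_univ, true_and,
      Finset.mem_biUnion, h𝓛]
    constructor
    · rintro ⟨hxw, hx⟩
      have hax := mkLine_ax (L := L) (Ne.symm hxw)
      exact ⟨mkLine (Ne.symm hxw), ⟨hax.1, fixed_line_of_two z hw hx (Ne.symm hxw) hax.1 hax.2⟩,
        hxw, hax.2, hx⟩
    · rintro ⟨m, _, hxw, _, hx⟩
      exact ⟨hxw, hx⟩
  have h3 : ((𝓛 : Set L).PairwiseDisjoint (fun m =>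
      (Finset.univ.filter (fun p : P => p ∈ m ∧ z.pt p = p)).erase w)) := by
    intro m hm m' hm' hmm
    rw [Function.onFun, Finset.disjoint_left]
    intro x hx hx'
    simp only [Finset.mem_erase, Finset.mem_filter, Finset.mem_univ, true_and] at hx hx'
    have hm1 := (Finset.mem_filter.mp (Finset.mem_coe.mp hm)).2
    have hm2 := (Finset.mem_filter.mp (Finset.mem_coe.mp hm')).2
    exact hx.1 ((eq_or_eq hx.2.1 hm1.1 hx'.2.1 hm2.1).resolve_right hmm)
  have h4 : ((fixAll z).erase w).card = 𝓛.card * (fixOn z l - 1) := by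
    rw [h2, Finset.card_biUnion h3]
    rw [Finset.sum_congr rfl (g := fun _ => fixOn z l - 1), Finset.sum_const, smul_eq_mul]
    intro m hm
    have hm' := (Finset.mem_filter.mp hm).2
    rw [Finset.card_erase_of_mem (by simp [hm'.1, hw])]
    have := hk m hm'.2
    unfold fixOn at this ⊢
    rw [this]
  have hwF : w ∈ fixAll z := by simp [fixAll, hw]
  have h5 := Finset.card_erase_add_one hwF
  rw [h4, h1] at h5
  exact h5.symm

/-- If `z` has no axis then `n = (k-1)²`. -/
theorem order_eq_sq {z : Coll P L} (hz : z * z = 1) (hno : ∀ A : L, ¬ ∀ p : P, p ∈ A → z.pt p = p)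
    {l : L} (hl : z.ln l = l) : ∃ j, fixOn z l = j + 1 ∧ ProjectivePlane.order P L = j ^ 2 := by
  classical
  have hex : ∀ m : L, ∃ u, u ∈ m ∧ z.pt u ≠ u := by
    intro m
    by_contra hcon
    push_neg at hcon
    exact hno m hcon
  obtain ⟨u, hul, hu⟩ := hex l
  have hf := card_fixAll hz hl hul hu
  have hoff := card_fixed_off hz hl hul hu
  have hn : 1 < ProjectivePlane.order P L := ProjectivePlane.one_lt_order P L
  have hpos : 0 < (Finset.univ.filter (fun p : P => p ∉ l ∧ z.pt p = p)).card := by omega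
  obtain ⟨w, hw⟩ := Finset.card_pos.mp hpos
  have hw' := (Finset.mem_filter.mp hw).2
  have hk : ∀ m : L, z.ln m = m → fixOn z m = fixOn z l := by
    intro m hm
    obtain ⟨u', hu'm, hu'⟩ := hex m
    have := card_fixAll hz hm hu'm hu'
    omega
  have hthr := card_through hz hl hw'.1 hw'.2 hk
  rcases Nat.eq_zero_or_pos (fixOn z l) with h0 | h0
  · rw [h0] at hf hthr
    simp at hthr
    omega
  · obtain ⟨j, hj⟩ : ∃ j, fixOn z l = j + 1 := ⟨fixOn z l - 1, by omega⟩
    refine ⟨j, hj, ?_⟩
    rw [hj] at hf hthr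
    simp only [Nat.add_sub_cancel] at hthr
    have : j + 1 + ProjectivePlane.order P L = (j + 1) * j + 1 := by rw [← hf, hthr]
    nlinarith

/-- parity of an involution without fixed points. -/
lemma even_card_of_invol {α : Type*} [DecidableEq α] (s : Finset α) (g : α → α) (hg : ∀ a ∈ s, g a ∈ s)
    (h2 : ∀ a ∈ s, g (g a) = a) (h3 : ∀ a ∈ s, g a ≠ a) : Even s.card := by
  have h : ∑ _x ∈ s, (1 : ZMod 2) = 0 := by
    refine Finset.sum_involution (fun a _ => g a) ?_ ?_ ?_ ?_
    · intro a _; decide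
    · intro a ha _; exact h3 a ha
    · intro a ha; exact hg a ha
    · intro a ha; exact h2 a ha
  simp only [Finset.sum_const, nsmul_eq_mul, mul_one] at h
  exact (ZMod.natCast_eq_zero_iff_even).mp h

/-- An involutory perspectivity of a plane of even order is an elation. -/
theorem centre_on_axis {z : Coll P L} (hz : z * z = 1) (hz1 : z ≠ 1) (hn : Even (ProjectivePlane.order P L))
    {c : P} {A : L} (hp : IsPersp z c A) : c ∈ A := by
  classical
  by_contra hcA
  obtain ⟨hax, hcen⟩ := hp
  -- a non-fixed point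
  have hexy : ∃ y, z.pt y ≠ y := by
    by_contra hcon
    push_neg at hcon
    apply hz1
    have h1 : z.pt = 1 := Equiv.ext hcon
    have h2 : z.ln = 1 := by
      ext1 m
      obtain ⟨a, ha, b, hb, hab⟩ : ∃ a, a ∈ m ∧ ∃ b, b ∈ m ∧ a ≠ b := by
        obtain ⟨p0, _⟩ := exists_point (P := P) m
        obtain ⟨q, hq, _, _⟩ := third_point (P := P) m p0 p0
        obtain ⟨q', hq', hq'1, _⟩ := third_point (P := P) m q q
        exact ⟨q, hq, q', hq', hq'1.symm⟩
      exact fixed_line_of_two z (hcon a) (hcon b) hab ha hb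
    exact Coll.ext h1 h2
  obtain ⟨y, hy⟩ := hexy
  have hyA : y ∉ A := fun h => hy (hax y h)
  -- c fixed
  have hcy : c ≠ y := by
    intro h
    subst h
    -- two lines through c
    obtain ⟨a, ha, _, _⟩ := third_point (P := P) A c c
    obtain ⟨a', ha', ha'1, _⟩ := third_point (P := P) A a a
    have hca : c ≠ a := fun h => hcA (h ▸ ha)
    have hca' : c ≠ a' := fun h => hcA (h ▸ ha')
    have h1 := mkLine_ax (L := L) hca
    have h2 := mkLine_ax (L := L) hca'
    refine hy (fixed_pt_of_two z (hcen _ h1.1) (hcen _ h2.1) ?_ h1.1 h2.1)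
    intro h
    have h3 : a' ∈ (mkLine hca : L) := by rw [h]; exact h2.2
    have := (eq_or_eq ha ha' h1.2 h3)
    rcases this with h4 | h4
    · exact ha'1 h4.symm
    · exact hcA (h4 ▸ h1.1)
  have hcfix : z.pt c = c := by
    obtain ⟨a, ha, _, _⟩ := third_point (P := P) A c c
    obtain ⟨a', ha', ha'1, _⟩ := third_point (P := P) A a a
    have hca : c ≠ a := fun h => hcA (h ▸ ha)
    have hca' : c ≠ a' := fun h => hcA (h ▸ ha')
    have h1 := mkLine_ax (L := L) hca
    have h2 := mkLine_ax (L := L) hca'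
    refine (fixed_pt_of_two z (hcen _ h1.1) (hcen _ h2.1) ?_ h1.1 h2.1)
    intro h
    have h3 : a' ∈ (mkLine hca : L) := by rw [h]; exact h2.2
    rcases (eq_or_eq ha ha' h1.2 h3) with h4 | h4
    · exact ha'1 h4.symm
    · exact hcA (h4 ▸ h1.1)
  -- the line l = c y
  set l : L := mkLine hcy with hl
  have hlax := mkLine_ax (L := L) hcy
  have hlfix : z.ln l = l := hcen l hlax.1
  have hlA : l ≠ A := fun h => hcA (h ▸ hlax.1)
  have hax2 := mkPoint_ax (P := P) hlA
  set a : P := mkPoint hlA
  have hafix : z.pt a = a := hax a hax2.2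
  have hac : a ≠ c := fun h => hcA (h ▸ hax2.2)
  -- a third fixed point on l
  have hthird : ∃ x, x ∈ l ∧ z.pt x = x ∧ x ≠ a ∧ x ≠ c := by
    by_contra hcon
    push_neg at hcon
    obtain ⟨s, hs⟩ : ∃ s : Finset P, s = ((Finset.univ.filter (fun p : P => p ∈ l)).erase a).erase c :=
      ⟨_, rfl⟩
    have hscard : s.card + 2 = ProjectivePlane.order P L + 1 := by
      have h1 : (Finset.univ.filter (fun p : P => p ∈ l)).card = ProjectivePlane.order P L + 1 := by
        have h := ProjectivePlane.pointCount_eq (P := P) (L := L) l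
        unfold pointCount at h
        rw [Nat.card_eq_fintype_card, Fintype.card_subtype] at h
        exact h
      have h2 : a ∈ Finset.univ.filter (fun p : P => p ∈ l) := by simp [hax2.1]
      have h3 : c ∈ (Finset.univ.filter (fun p : P => p ∈ l)).erase a := by
        simp [hlax.1, hac.symm]
        exact hlax.1
      have h4 := Finset.card_erase_add_one h2
      have h5 := Finset.card_erase_add_one h3
      rw [hs]
      omega
    have heven : Even s.card := by
      refine even_card_of_invol s z.pt ?_ (fun x _ => pt_pt hz x) ?_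
      · intro x hx
        simp only [hs, Finset.mem_erase, Finset.mem_filter, Finset.mem_univ, true_and] at hx ⊢
        refine ⟨?_, ?_, ?_⟩
        · intro h
          apply hx.1
          apply z.pt.injective
          rw [h, hcfix]
        · intro h
          apply hx.2.1
          apply z.pt.injective
          rw [h, hafix]
        · have := pt_mem_ln z hx.2.2
          rwa [hlfix] at this
      · intro x hx hfx
        simp only [hs, Finset.mem_erase, Finset.mem_filter, Finset.mem_univ, true_and] at hx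
        exact hx.1 (hcon x hx.2.2 hfx hx.2.1)
    have : Odd (s.card + 2) := by rw [hscard]; exact hn.add_one
    rw [Nat.odd_add] at this
    have h2 : Even 2 := even_two
    exact (this.mpr h2 |> Nat.not_even_iff_odd.mpr) heven
  obtain ⟨x, hxl, hxfix, hxa, hxc⟩ := hthird
  have hxA : x ∉ A := by
    intro h
    exact hxa ((eq_or_eq hxl hax2.1 h hax2.2).resolve_right hlA)
  -- all lines through x are fixed
  have hxlines : ∀ m : L, x ∈ m → z.ln m = m := by
    intro m hm
    have hmA : m ≠ A := fun h => hxA (h ▸ hm)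
    have h3 := mkPoint_ax (P := P) hmA
    refine fixed_line_of_two z hxfix (hax _ h3.2) ?_ hm h3.1
    intro h
    exact hxA (h ▸ h3.2)
  -- all points off l are fixed
  have hoff : ∀ t : P, t ∉ l → z.pt t = t := by
    intro t ht
    have htc : t ≠ c := fun h => ht (h ▸ hlax.1)
    have htx : t ≠ x := fun h => ht (h ▸ hxl)
    have h1 := mkLine_ax (L := L) htc
    have h2 := mkLine_ax (L := L) htx
    refine fixed_pt_of_two z (hcen _ h1.2) (hxlines _ h2.2) ?_ h1.1 h2.1
    intro h
    have h3 : x ∈ (mkLine htc : L) := by rw [h]; exact h2.2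
    have h4 := (eq_or_eq hxl hlax.1 h3 h1.2).resolve_left hxc
    exact ht (h4 ▸ h1.1)
  -- so y is fixed
  obtain ⟨y', hy'⟩ := exists_point (P := P) l
  have hyy' : y ≠ y' := fun h => hy' (h ▸ hlax.2)
  have hm := mkLine_ax (L := L) hyy'
  obtain ⟨y'', hy''m, hy''1, hy''2⟩ := third_point (P := P) (mkLine hyy' : L) y y'
  have hy''l : y'' ∉ l := by
    intro h
    have h1 := (eq_or_eq hy''m hm.1 h hlax.2).resolve_left hy''1
    exact hy' (h1 ▸ hm.2)
  have hmfix : z.ln (mkLine hyy' : L) = mkLine hyy' :=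
    fixed_line_of_two z (hoff _ hy') (hoff _ hy''l) (Ne.symm hy''2) hm.2 hy''m
  refine hy (fixed_pt_of_two z hmfix hlfix ?_ hm.1 hlax.2)
  intro h
  exact hy' (h ▸ hm.2)

section Group

variable {Γ Y : Type*} [Group Γ] [Finite Γ] [MulAction Γ Y] [Finite Y]

lemma stab_card (h2 : ∀ a b c d : Y, a ≠ b → c ≠ d → ∃ g : Γ, g • a = c ∧ g • b = d) {o q : Y}
    (hq : q ≠ o) :
    (Nat.card Y - 1) * Nat.card (MulAction.stabilizer (↥(MulAction.stabilizer Γ o)) q) =
      Nat.card (MulAction.stabilizer Γ o) := by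
  classical
  have horb : MulAction.orbit (↥(MulAction.stabilizer Γ o)) q = ({o} : Set Y)ᶜ := by
    ext x
    simp only [MulAction.mem_orbit_iff, Set.mem_compl_iff, Set.mem_singleton_iff]
    constructor
    · rintro ⟨g, rfl⟩ h
      apply hq
      have hg : (g : Γ) • o = o := g.2
      have h3 : (g : Γ) • q = o := h
      exact (MulAction.injective (g : Γ)) (h3.trans hg.symm)
    · intro hx
      obtain ⟨g, hg1, hg2⟩ := h2 o q o x hq.symm (Ne.symm hx)
      exact ⟨⟨g, hg1⟩, hg2⟩
  have h1 := (MulAction.stabilizer (↥(MulAction.stabilizer Γ o)) q).card_mul_index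
  rw [MulAction.index_stabilizer, horb] at h1
  have h3 := Set.ncard_add_ncard_compl ({o} : Set Y)
  rw [Set.ncard_singleton] at h3
  have h4 : (({o} : Set Y)ᶜ).ncard = Nat.card Y - 1 := by omega
  rw [h4] at h1
  rw [mul_comm]
  exact h1

lemma pow_dvd_orbit (h2 : ∀ a b c d : Y, a ≠ b → c ≠ d → ∃ g : Γ, g • a = c ∧ g • b = d)
    (S : Subgroup Γ) (hSp : IsPGroup 2 ↥S) (hmax : ∀ k : ℕ, 2 ^ k ∣ Nat.card Γ → 2 ^ k ∣ Nat.card S)
    {o q : Y} (hq : q ≠ o) (hTo : ∀ t : ↥S, t • o = o) {e : ℕ} (he : 2 ^ e ∣ Nat.card Y - 1) :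
    2 ^ e ∣ (MulAction.orbit (↥S) q).ncard := by
  classical
  haveI : Fact (Nat.Prime 2) := ⟨Nat.prime_two⟩
  have hcardA := stab_card (Γ := Γ) h2 hq
  have hSQ : IsPGroup 2 ↥(MulAction.stabilizer (↥S) q) := hSp.to_subgroup _
  obtain ⟨s, hs⟩ := IsPGroup.iff_card.mp hSQ
  let f : MulAction.stabilizer (↥S) q →* MulAction.stabilizer (↥(MulAction.stabilizer Γ o)) q :=
    { toFun := fun t => ⟨⟨((t : ↥S) : Γ), hTo t⟩, t.2⟩
      map_one' := rfl
      map_mul' := fun _ _ => rfl }
  have hf : Function.Injective f := by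
    intro a b hab
    have h3 : ((a : ↥S) : Γ) = ((b : ↥S) : Γ) := congrArg (fun x => ((x : ↥(MulAction.stabilizer Γ o)) : Γ))
      (congrArg Subtype.val hab)
    exact Subtype.ext (Subtype.ext h3)
  have h4 : Nat.card (MulAction.stabilizer (↥S) q) ∣
      Nat.card (MulAction.stabilizer (↥(MulAction.stabilizer Γ o)) q) :=
    Subgroup.card_dvd_of_injective f hf
  have h5 : 2 ^ e * 2 ^ s ∣ Nat.card (MulAction.stabilizer Γ o) := by
    rw [← hcardA, ← hs]
    exact Nat.mul_dvd_mul he h4
  have h6 : 2 ^ (e + s) ∣ Nat.card Γ := by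
    rw [pow_add]
    exact h5.trans (Subgroup.card_subgroup_dvd_card _)
  have h7 := hmax _ h6
  have h8 := (MulAction.stabilizer (↥S) q).card_mul_index
  rw [MulAction.index_stabilizer, hs] at h8
  rw [← h8, pow_add, mul_comm (2 ^ e)] at h7
  exact Nat.dvd_of_mul_dvd_mul_left (by positivity) h7

lemma dvd_card_of_orbits {S Y : Type*} [Group S] [MulAction S Y] [Finite Y] (W : Finset Y)
    (hinv : ∀ s : S, ∀ y ∈ W, s • y ∈ W) (d : ℕ) (h : ∀ y ∈ W, d ∣ (MulAction.orbit S y).ncard) :
    d ∣ W.card := by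
  classical
  rw [Finset.card_eq_sum_card_image (fun y => MulAction.orbit S y) W]
  refine Finset.dvd_sum ?_
  intro b hb
  obtain ⟨y, hy, rfl⟩ := Finset.mem_image.mp hb
  have h1 : ((W.filter (fun x => MulAction.orbit S x = MulAction.orbit S y) : Finset Y) : Set Y) =
      MulAction.orbit S y := by
    ext x
    simp only [Finset.coe_filter, Set.mem_setOf_eq]
    constructor
    · rintro ⟨_, hx⟩
      rw [← hx]
      exact MulAction.mem_orbit_self x
    · intro hx
      refine ⟨?_, MulAction.orbit_eq_iff.mpr hx⟩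
      obtain ⟨s, rfl⟩ := hx
      exact hinv s y hy
  have h2 := Set.ncard_coe_finset (W.filter (fun x => MulAction.orbit S x = MulAction.orbit S y))
  rw [h1] at h2
  rw [← h2]
  exact h _ hy

end Group

scoped instance actP : MulAction (Coll P L) P where
  smul g p := g.pt p
  one_smul _ := rfl
  mul_smul _ _ _ := rfl

scoped instance actL : MulAction (Coll P L) L where
  smul g l := g.ln l
  one_smul _ := rfl
  mul_smul _ _ _ := rfl

/-- [M7]. -/
theorem main {G : Subgroup (Coll P L)} (hG : TwoTrans G) (hn : Even (ProjectivePlane.order P L)) :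
    HasElation G := by
  classical
  haveI : Fact (Nat.Prime 2) := ⟨Nat.prime_two⟩
  obtain ⟨T⟩ : Nonempty (Sylow 2 ↥G) := inferInstance
  let S : Subgroup ↥G := (T : Subgroup ↥G)
  have hSp : IsPGroup 2 ↥S := T.isPGroup'
  have hmax : ∀ k : ℕ, 2 ^ k ∣ Nat.card ↥G → 2 ^ k ∣ Nat.card ↥S := fun k hk =>
    T.pow_dvd_card_of_pow_dvd_card hk
  have hn1 : 1 < ProjectivePlane.order P L := ProjectivePlane.one_lt_order P L
  have hcardP : Nat.card P = ProjectivePlane.order P L ^ 2 + ProjectivePlane.order P L + 1 := by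
    rw [Nat.card_eq_fintype_card]; exact ProjectivePlane.card_points P L
  have heven2 : Even (ProjectivePlane.order P L ^ 2 + ProjectivePlane.order P L) := by
    rw [pow_two, ← Nat.mul_add_one]; exact Nat.even_mul_succ_self _
  have hodd : ¬ 2 ∣ Nat.card P := by
    rw [hcardP]
    obtain ⟨b, hb⟩ := heven2
    omega
  obtain ⟨P0, hP0⟩ := hSp.nonempty_fixed_point_of_prime_not_dvd_card P hodd
  have hP0' : ∀ t : ↥S, ((t : ↥G) : Coll P L).pt P0 = P0 := fun t => hP0 t
  -- a fixed line through P0
  letI actS : MulAction ↥S {l : L // P0 ∈ l} :=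
    { smul := fun t l => ⟨((t : ↥G) : Coll P L).ln l.1, by
        have := pt_mem_ln ((t : ↥G) : Coll P L) l.2
        rwa [hP0' t] at this⟩
      one_smul := fun l => Subtype.ext rfl
      mul_smul := fun a b l => Subtype.ext rfl }
  have hoddL : ¬ 2 ∣ Nat.card {l : L // P0 ∈ l} := by
    have h := ProjectivePlane.lineCount_eq (P := P) (L := L) P0
    unfold lineCount at h
    rw [h]
    obtain ⟨b, hb⟩ := hn
    omega
  obtain ⟨L0', hL0'⟩ := hSp.nonempty_fixed_point_of_prime_not_dvd_card {l : L // P0 ∈ l} hoddL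
  obtain ⟨L0, hP0L0⟩ := L0'
  have hL0 : ∀ t : ↥S, ((t : ↥G) : Coll P L).ln L0 = L0 := fun t =>
    congrArg Subtype.val (hL0' t)
  -- 2-transitivity as an action of ↥G
  have h2 : ∀ a b c d : P, a ≠ b → c ≠ d → ∃ g : ↥G, g • a = c ∧ g • b = d := by
    intro a b c d hab hcd
    obtain ⟨g, hg, h1, h3⟩ := hG a b c d hab hcd
    exact ⟨⟨g, hg⟩, h1, h3⟩
  obtain ⟨q0, hq0, hq01, _⟩ := third_point (L := L) L0 P0 P0
  -- the group has even order
  have hdvdG : 2 ^ 1 ∣ Nat.card ↥G := by
    have h3 := stab_card (Γ := ↥G) h2 hq01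
    have h4 : Nat.card P - 1 ∣ Nat.card ↥G :=
      (Dvd.intro _ h3).trans (Subgroup.card_subgroup_dvd_card _)
    have h5 : 2 ∣ Nat.card P - 1 := by
      rw [hcardP]
      obtain ⟨b, hb⟩ := heven2
      omega
    rw [pow_one]
    exact h5.trans h4
  have hdvdS : 2 ^ 1 ∣ Nat.card ↥S := hmax 1 hdvdG
  rw [pow_one] at hdvdS
  haveI hnt : Nontrivial ↥S := by
    rw [← Finite.one_lt_card_iff_nontrivial]
    have := Nat.le_of_dvd Nat.card_pos hdvdS
    omega
  haveI hntc : Nontrivial (Subgroup.center ↥S) := hSp.center_nontrivial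
  have hcp : IsPGroup 2 ↥(Subgroup.center ↥S) := hSp.to_subgroup _
  obtain ⟨k, hk⟩ := IsPGroup.iff_card.mp hcp
  have hk0 : k ≠ 0 := by
    rintro rfl
    have := Finite.one_lt_card_iff_nontrivial.mpr hntc
    omega
  have h2c : 2 ∣ Nat.card ↥(Subgroup.center ↥S) := by
    rw [hk]; exact dvd_pow_self 2 hk0
  obtain ⟨z0, hz0⟩ := exists_prime_orderOf_dvd_card' 2 h2c
  obtain ⟨z, hzdef⟩ : ∃ z : Coll P L, z = (((z0 : ↥S) : ↥G) : Coll P L) := ⟨_, rfl⟩
  have hz0z0 : z0 * z0 = 1 := by rw [← pow_two, ← hz0, pow_orderOf_eq_one]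
  have hzz : z * z = 1 := by
    rw [hzdef]
    exact congrArg (fun x : ↥(Subgroup.center ↥S) => (((x : ↥S) : ↥G) : Coll P L)) hz0z0
  have hz1 : z ≠ 1 := by
    intro h
    rw [hzdef] at h
    have h3 : z0 = 1 := Subtype.ext (Subtype.ext (Subtype.ext h))
    rw [h3, orderOf_one] at hz0
    omega
  have hzG : z ∈ G := by rw [hzdef]; exact ((z0 : ↥S) : ↥G).2
  have hcomm : ∀ t : ↥S, z * ((t : ↥G) : Coll P L) = ((t : ↥G) : Coll P L) * z := by
    intro t
    have h3 := Subgroup.mem_center_iff.mp z0.2 t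
    rw [hzdef]
    have h4 := congrArg (fun x : ↥S => ((x : ↥G) : Coll P L)) h3
    exact h4.symm
  have hzP0 : z.pt P0 = P0 := by rw [hzdef]; exact hP0' _
  have hzL0 : z.ln L0 = L0 := by rw [hzdef]; exact hL0 _
  -- W
  obtain ⟨W, hWdef⟩ : ∃ W : Finset P, W = Finset.univ.filter (fun Q : P => Q ∈ L0 ∧ Q ≠ P0 ∧ z.pt Q = Q) :=
    ⟨_, rfl⟩
  have hWinv : ∀ s : ↥S, ∀ y ∈ W, s • y ∈ W := by
    intro s y hy
    rw [hWdef] at hy ⊢
    simp only [Finset.mem_filter, Finset.mem_univ, true_and] at hy ⊢
    have h3 : s • y = ((s : ↥G) : Coll P L).pt y := rfl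
    rw [h3]
    refine ⟨?_, ?_, ?_⟩
    · have := pt_mem_ln ((s : ↥G) : Coll P L) hy.1
      rwa [hL0 s] at this
    · intro h
      apply hy.2.1
      apply ((s : ↥G) : Coll P L).pt.injective
      rw [h, hP0' s]
    · have h4 := congrArg (fun g : Coll P L => g.pt y) (hcomm s)
      simp only [mul_pt, Equiv.Perm.coe_mul, Function.comp_apply] at h4
      rw [h4, hy.2.2]
  set e := (ProjectivePlane.order P L).factorization 2 with he
  have hedvd : 2 ^ e ∣ ProjectivePlane.order P L := Nat.ordProj_dvd _ 2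
  have hdvdW : 2 ^ e ∣ W.card := by
    refine dvd_card_of_orbits W hWinv _ ?_
    intro y hy
    rw [hWdef] at hy
    simp only [Finset.mem_filter, Finset.mem_univ, true_and] at hy
    refine pow_dvd_orbit (Γ := ↥G) h2 S hSp hmax hy.2.1 hP0 ?_
    rw [hcardP]
    have : ProjectivePlane.order P L ^ 2 + ProjectivePlane.order P L + 1 - 1 =
        ProjectivePlane.order P L * (ProjectivePlane.order P L + 1) := by
      rw [Nat.add_sub_cancel]; ring
    rw [this]
    exact hedvd.mul_right _
  have hfixW : fixOn z L0 = W.card + 1 := by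
    unfold fixOn
    have h3 : P0 ∈ Finset.univ.filter (fun p : P => p ∈ L0 ∧ z.pt p = p) := by
      simp [hP0L0, hzP0]
    rw [← Finset.card_erase_add_one h3]
    congr 2
    rw [hWdef]
    ext x
    simp only [Finset.mem_erase, Finset.mem_filter, Finset.mem_univ, true_and]
    tauto
  by_cases haxis : ∃ A : L, ∀ p : P, p ∈ A → z.pt p = p
  · obtain ⟨A, hA⟩ := haxis
    obtain ⟨c, hc⟩ := exists_centre z A hA
    have hp : IsPersp z c A := ⟨hA, hc⟩
    exact ⟨z, hzG, c, A, hz1, centre_on_axis hzz hz1 hn hp, hp⟩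
  · exfalso
    push_neg at haxis
    have hno : ∀ A : L, ¬ ∀ p : P, p ∈ A → z.pt p = p := by
      intro A hA
      obtain ⟨p, hp, hp'⟩ := haxis A
      exact hp' (hA p hp)
    obtain ⟨j, hj, hnj⟩ := order_eq_sq hzz hno hzL0
    have hjW : j = W.card := by omega
    rw [← hjW] at hdvdW
    have hj0 : j ≠ 0 := by
      rintro rfl
      simp at hnj
      omega
    have hle : e ≤ j.factorization 2 :=
      (Nat.Prime.pow_dvd_iff_le_factorization Nat.prime_two hj0).mp hdvdW
    have hfe : e = 2 * j.factorization 2 := by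
      rw [he, hnj, Nat.factorization_pow]
      simp
    have hv0 : j.factorization 2 = 0 := by omega
    have h2n : 2 ∣ j ^ 2 := by rw [← hnj]; exact hn.two_dvd
    have h2j : 2 ∣ j := Nat.Prime.dvd_of_dvd_pow Nat.prime_two h2n
    have := (Nat.Prime.dvd_iff_one_le_factorization Nat.prime_two hj0).mp h2j
    omega

end Cfsg.Agent.Lib.OW.EvenCase
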