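import Cfsg.Agent.Lib.OW.Basics

/-! [Th2] elation ⟹ Moufang. See forum 'S3732 notes'.

Paper proof.  `E(c,A)` all conjugate (flag transitive), order `τ ≥ 2`, semiregular on the `n` points `≠ c` of a line through `c`: `τ ∣ n`, `n = τ w`.
`T(A)`: the elations with axis `A`, plus `1`: a group (a product with centre off `A` is impossible), semiregular on the `n²` points off `A`; `|T| = 1 + (n+1)(τ-1) = τ (w(τ-1)+1)` divides `n² = τ² w²`.
So `w(τ-1)+1` divides `τ w²`, coprime to `w`, so divides `τ`: `w = 1`, `τ = n`. So `E(c,A)` is transitive on these `n` points: Moufang.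
Two elements with different centres on `A` commute. If `p ≠ q` primes dividing `n`, `g ∈ E(c,A)` of order `p`, `h ∈ E(c',A)` of order `q`, `c ≠ c'`: the centre of `g h` is `c` (by `(gh)^q = g^q`) and `c'`: contradiction. So `n` is a prime power. -/

set_option autoImplicit false
set_option linter.unusedSectionVars false
set_option linter.unusedVariables false
set_option linter.style.haveILetI false

namespace Cfsg.Agent.Lib.OW

open Configuration

variable {P L : Type*} [Membership P L] [Fintype P] [Fintype L] [ProjectivePlane P L]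

namespace Th2Aux

open scoped Classical

lemma card_filter_on (l : L) :
    (Finset.univ.filter (fun p : P => p ∈ l)).card = ProjectivePlane.order P L + 1 := by
  have h := ProjectivePlane.pointCount_eq P l
  rw [pointCount, Nat.card_eq_fintype_card, Fintype.card_subtype] at h
  convert h

lemma exists_third (l : L) (a b : P) : ∃ x : P, x ∈ l ∧ x ≠ a ∧ x ≠ b := by
  by_contra h
  push Not at h
  have hsub : (Finset.univ.filter (fun p : P => p ∈ l)) ⊆ {a, b} := by
    intro x hx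
    simp only [Finset.mem_filter, Finset.mem_univ, true_and] at hx
    simp only [Finset.mem_insert, Finset.mem_singleton]
    by_cases hxa : x = a
    · exact Or.inl hxa
    · exact Or.inr (h x hx hxa)
  have h1 := Finset.card_le_card hsub
  rw [card_filter_on] at h1
  have h2 : ({a, b} : Finset P).card ≤ 2 := Finset.card_le_two
  have h3 := ProjectivePlane.one_lt_order P L
  omega

lemma exists_off_two (l₁ l₂ : L) : ∃ x : P, x ∉ l₁ ∧ x ∉ l₂ := by
  by_contra h
  push Not at h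
  have hsub : (Finset.univ : Finset P) ⊆
      (Finset.univ.filter (fun p : P => p ∈ l₁)) ∪ (Finset.univ.filter (fun p : P => p ∈ l₂)) := by
    intro x _
    simp only [Finset.mem_union, Finset.mem_filter, Finset.mem_univ, true_and]
    by_cases hx : x ∈ l₁
    · exact Or.inl hx
    · exact Or.inr (h x hx)
  have h1 := (Finset.card_le_card hsub).trans (Finset.card_union_le _ _)
  rw [card_filter_on, card_filter_on, Finset.card_univ, ProjectivePlane.card_points P L] at h1
  have h3 := ProjectivePlane.one_lt_order P L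
  nlinarith

lemma fix_line (g : Coll P L) {l : L} {a b : P} (hab : a ≠ b) (ha : a ∈ l) (hb : b ∈ l)
    (ga : g.pt a = a) (gb : g.pt b = b) : g.ln l = l := by
  have h1 : a ∈ g.ln l := by
    have := (g.inc a l).2 ha
    rwa [ga] at this
  have h2 : b ∈ g.ln l := by
    have := (g.inc b l).2 hb
    rwa [gb] at this
  rcases Nondegenerate.eq_or_eq h1 h2 ha hb with h | h
  · exact absurd h hab
  · exact h

lemma ln_axis {g : Coll P L} {c : P} {A : L} (pg : IsPersp g c A) : g.ln A = A := by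
  obtain ⟨a, ha, -, -⟩ := exists_third A c c
  obtain ⟨b, hb, hba, -⟩ := exists_third A a a
  exact fix_line g (Ne.symm hba) ha hb (pg.1 a ha) (pg.1 b hb)

lemma fix_of_line {g : Coll P L} {c : P} {A : L} (hg : IsPersp g c A) (hc : c ∈ A) {p x : P}
    (hp : p ∉ A) (gp : g.pt p = p) (hx : x ∉ A) (hxp : p ≠ x) (hcl : ∀ m : L, p ∈ m → x ∈ m → c ∉ m) :
    g.pt x = x := by
  obtain ⟨m, hpm, hxm⟩ : ∃ m : L, p ∈ m ∧ x ∈ m := ⟨_, HasLines.mkLine_ax hxp⟩
  have hmA : m ≠ A := fun h => hp (by rw [← h]; exact hpm)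
  obtain ⟨y, hym, hyA⟩ : ∃ y : P, y ∈ m ∧ y ∈ A := ⟨_, HasPoints.mkPoint_ax hmA⟩
  have hpy : p ≠ y := fun h => hp (by rw [h]; exact hyA)
  have h1 : g.ln m = m := fix_line g hpy hpm hym gp (hg.1 y hyA)
  have hcx : c ≠ x := fun h => hx (by rw [← h]; exact hc)
  obtain ⟨k, hck, hxk⟩ : ∃ k : L, c ∈ k ∧ x ∈ k := ⟨_, HasLines.mkLine_ax hcx⟩
  have h2 : g.ln k = k := hg.2 k hck
  have h3 : g.pt x ∈ m := by
    have := (g.inc x m).2 hxm
    rwa [h1] at this
  have h4 : g.pt x ∈ k := by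
    have := (g.inc x k).2 hxk
    rwa [h2] at this
  have hmk : m ≠ k := fun h => hcl m hpm hxm (by rw [h]; exact hck)
  rcases Nondegenerate.eq_or_eq h3 hxm h4 hxk with h | h
  · exact h
  · exact absurd h hmk

lemma eq_one_of_fix {g : Coll P L} {c : P} {A : L} (hg : IsPersp g c A) (hc : c ∈ A) {p : P}
    (hp : p ∉ A) (gp : g.pt p = p) : g = 1 := by
  have hall : ∀ x, g.pt x = x := by
    intro x
    by_cases hx : x ∈ A
    · exact hg.1 x hx
    by_cases hxp : p = x
    · rw [← hxp]; exact gp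
    by_cases hcl : ∀ m : L, p ∈ m → x ∈ m → c ∉ m
    · exact fix_of_line hg hc hp gp hx hxp hcl
    push Not at hcl
    obtain ⟨l0, hp0, hx0, hc0⟩ := hcl
    obtain ⟨x', hx'A, hx'0⟩ := exists_off_two (P := P) A l0
    have hpc : p ≠ c := fun h => hp (by rw [h]; exact hc)
    have hxc : x ≠ c := fun h => hx (by rw [h]; exact hc)
    have hpx' : p ≠ x' := fun h => hx'0 (by rw [← h]; exact hp0)
    have h1 : g.pt x' = x' := by
      refine fix_of_line hg hc hp gp hx'A hpx' ?_
      intro m hpm hx'm hcm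
      rcases Nondegenerate.eq_or_eq hpm hcm hp0 hc0 with h | h
      · exact hpc h
      · exact hx'0 (by rw [← h]; exact hx'm)
    have hx'x : x' ≠ x := fun h => hx'0 (by rw [h]; exact hx0)
    refine fix_of_line hg hc hx'A h1 hx hx'x ?_
    intro m hx'm hxm hcm
    rcases Nondegenerate.eq_or_eq hxm hcm hx0 hc0 with h | h
    · exact hxc h
    · exact hx'0 (by rw [← h]; exact hx'm)
  apply Coll.ext
  · exact Equiv.ext fun x => by simpa using hall x
  · refine Equiv.ext fun l => ?_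
    obtain ⟨a, ha, -, -⟩ := exists_third (P := P) l c c
    obtain ⟨b, hb, hba, -⟩ := exists_third (P := P) l a a
    have := fix_line g (Ne.symm hba) ha hb (hall a) (hall b)
    simpa using this

lemma persp_mul {g h : Coll P L} {c : P} {A : L} (hg : IsPersp g c A) (hh : IsPersp h c A) :
    IsPersp (g * h) c A :=
  ⟨fun p hp => by simp [mul_pt, hh.1 p hp, hg.1 p hp], fun l hl => by simp [mul_ln, hh.2 l hl, hg.2 l hl]⟩

lemma persp_one (c : P) (A : L) : IsPersp (1 : Coll P L) c A := ⟨fun _ _ => rfl, fun _ _ => rfl⟩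

lemma persp_inv {g : Coll P L} {c : P} {A : L} (hg : IsPersp g c A) : IsPersp g⁻¹ c A :=
  ⟨fun p hp => by
      rw [inv_pt, Equiv.Perm.inv_eq_iff_eq]; exact (hg.1 p hp).symm,
   fun l hl => by
      rw [inv_ln, Equiv.Perm.inv_eq_iff_eq]; exact (hg.2 l hl).symm⟩

lemma persp_pow {g : Coll P L} {c : P} {A : L} (hg : IsPersp g c A) (k : ℕ) : IsPersp (g ^ k) c A := by
  induction k with
  | zero => simpa using persp_one c A
  | succ k ih => rw [pow_succ]; exact persp_mul ih hg

lemma persp_conj {x : Coll P L} {c : P} {A : L} (hx : IsPersp x c A) (g : Coll P L) :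
    IsPersp (g * x * g⁻¹) (g.pt c) (g.ln A) := by
  refine ⟨fun p hp => ?_, fun l hl => ?_⟩
  · have h1 : g.pt⁻¹ p ∈ A := by
      rw [← g.inc]; simpa using hp
    simp only [mul_pt, inv_pt, Equiv.Perm.mul_apply]
    rw [hx.1 _ h1]; simp
  · have h1 : c ∈ g.ln⁻¹ l := by
      rw [← g.inc]; simpa using hl
    simp only [mul_ln, inv_ln, Equiv.Perm.mul_apply]
    rw [hx.2 _ h1]; simp

lemma center_fixed {u : Coll P L} {z : P} (hz : ∀ l : L, z ∈ l → u.ln l = l) : u.pt z = z := by
  obtain ⟨l0, hl0⟩ := Nondegenerate.exists_line (L := L) z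
  obtain ⟨a, ha, -, -⟩ := exists_third (P := P) l0 z z
  have hza : z ≠ a := fun e => hl0 (by rw [e]; exact ha)
  obtain ⟨l₁, h1z, h1a⟩ : ∃ l : L, z ∈ l ∧ a ∈ l := ⟨_, HasLines.mkLine_ax hza⟩
  obtain ⟨b, hb⟩ := Nondegenerate.exists_point (P := P) l₁
  have hzb : z ≠ b := fun e => hb (by rw [← e]; exact h1z)
  obtain ⟨l₂, h2z, h2b⟩ : ∃ l : L, z ∈ l ∧ b ∈ l := ⟨_, HasLines.mkLine_ax hzb⟩
  have h3 : u.pt z ∈ l₁ := by
    have := (u.inc z l₁).2 h1z
    rwa [hz l₁ h1z] at this
  have h4 : u.pt z ∈ l₂ := by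
    have := (u.inc z l₂).2 h2z
    rwa [hz l₂ h2z] at this
  rcases Nondegenerate.eq_or_eq h3 h1z h4 h2z with e | e
  · exact e
  · exact absurd (show b ∈ l₁ by rw [e]; exact h2b) hb

lemma tt_mul {g h : Coll P L} {c c' : P} {A : L} (pg : IsPersp g c A) (hc : c ∈ A)
    (ph : IsPersp h c' A) (hc' : c' ∈ A) : ∃ z, z ∈ A ∧ IsPersp (g * h) z A := by
  by_cases hcc : c = c'
  · subst hcc
    exact ⟨c, hc, persp_mul pg ph⟩
  have hfix : ∀ p, p ∈ A → (g * h).pt p = p := fun p hp => by simp [mul_pt, ph.1 p hp, pg.1 p hp]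
  obtain ⟨z, hz⟩ := exists_centre (g * h) A hfix
  by_cases hzA : z ∈ A
  · exact ⟨z, hzA, hfix, hz⟩
  by_cases hzz : h.pt z = z
  · have h1 : h = 1 := eq_one_of_fix ph hc' hzA hzz
    exact ⟨c, hc, by rw [h1, mul_one]; exact pg⟩
  exfalso
  have hzf : (g * h).pt z = z := center_fixed hz
  have hw : g.pt (h.pt z) = z := by simpa [mul_pt] using hzf
  have hc'z : c' ≠ z := fun e => hzA (by rw [← e]; exact hc')
  obtain ⟨k', hk'1, hk'2⟩ : ∃ k : L, c' ∈ k ∧ z ∈ k := ⟨_, HasLines.mkLine_ax hc'z⟩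
  have hwk' : h.pt z ∈ k' := by
    have := (h.inc z k').2 hk'2
    rwa [ph.2 k' hk'1] at this
  have hcz : c ≠ z := fun e => hzA (by rw [← e]; exact hc)
  obtain ⟨k, hk1, hk2⟩ : ∃ k : L, c ∈ k ∧ z ∈ k := ⟨_, HasLines.mkLine_ax hcz⟩
  have hwk : h.pt z ∈ k := by
    have h3 : g.pt (h.pt z) ∈ g.ln k := by rw [hw, pg.2 k hk1]; exact hk2
    exact (g.inc _ _).1 h3
  rcases Nondegenerate.eq_or_eq hk2 hwk hk'2 hwk' with e | e
  · exact hzz e.symm
  · have hc'k : c' ∈ k := by rw [e]; exact hk'1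
    rcases Nondegenerate.eq_or_eq hk1 hc'k hc hc' with e2 | e2
    · exact hcc e2
    · exact hzA (by rw [← e2]; exact hk2)

/-- `E(c,A)`. -/
def EE (G : Subgroup (Coll P L)) (c : P) (A : L) : Subgroup (Coll P L) where
  carrier := {g | g ∈ G ∧ IsPersp g c A}
  mul_mem' := fun ha hb => ⟨G.mul_mem ha.1 hb.1, persp_mul ha.2 hb.2⟩
  one_mem' := ⟨G.one_mem, persp_one c A⟩
  inv_mem' := fun ha => ⟨G.inv_mem ha.1, persp_inv ha.2⟩

/-- `T(A)`. -/
def TT (G : Subgroup (Coll P L)) (A : L) : Subgroup (Coll P L) where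
  carrier := {g | g ∈ G ∧ ∃ c, c ∈ A ∧ IsPersp g c A}
  mul_mem' := by
    rintro g h ⟨hg, c, hc, pg⟩ ⟨hh, c', hc', ph⟩
    exact ⟨G.mul_mem hg hh, tt_mul pg hc ph hc'⟩
  one_mem' := by
    obtain ⟨x, -⟩ := Nondegenerate.exists_point (P := P) A
    obtain ⟨a, ha, -, -⟩ := exists_third A x x
    exact ⟨G.one_mem, a, ha, persp_one a A⟩
  inv_mem' := by
    rintro g ⟨hg, c, hc, pg⟩
    exact ⟨G.inv_mem hg, c, hc, persp_inv pg⟩

lemma card_EE_le {G : Subgroup (Coll P L)} (hG : TwoTrans G) {c c' : P} {A A' : L} (h : c ∈ A) (h' : c' ∈ A') :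
    Nat.card (EE G c A) ≤ Nat.card (EE G c' A') := by
  obtain ⟨g, hg, h1, h2⟩ := flag_trans hG c c' A A' h h'
  have hm : ∀ x ∈ EE G c A, g * x * g⁻¹ ∈ EE G c' A' := by
    intro x hx
    refine ⟨G.mul_mem (G.mul_mem hg hx.1) (G.inv_mem hg), ?_⟩
    have := persp_conj hx.2 g
    rwa [h1, h2] at this
  refine Nat.card_le_card_of_injective
    (fun x : EE G c A => (⟨g * x.1 * g⁻¹, hm x.1 x.2⟩ : EE G c' A')) ?_
  intro a b hab
  have h3 : g * a.1 * g⁻¹ = g * b.1 * g⁻¹ := congrArg Subtype.val hab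
  exact Subtype.ext (by simpa using h3)

lemma card_dvd_of_free (T : Subgroup (Coll P L)) (X : Set P) (hX : ∀ g ∈ T, ∀ x ∈ X, g.pt x ∈ X)
    (hfree : ∀ g ∈ T, ∀ x ∈ X, g.pt x = x → g = 1) : Nat.card T ∣ Nat.card X := by
  letI : MulAction T X :=
    { smul := fun g x => ⟨g.1.pt x.1, hX g.1 g.2 x.1 x.2⟩
      one_smul := fun x => Subtype.ext rfl
      mul_smul := fun a b x => Subtype.ext rfl }
  have hst : ∀ b : X, MulAction.stabilizer T b = ⊥ := by
    intro b
    rw [eq_bot_iff]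
    intro g hg
    have h1 : g.1.pt b.1 = b.1 := congrArg Subtype.val (MulAction.mem_stabilizer_iff.mp hg)
    rw [Subgroup.mem_bot]
    exact Subtype.ext (hfree g.1 g.2 b.1 b.2 h1)
  have e := MulAction.selfEquivOrbitsQuotientProd hst
  rw [Nat.card_congr e, Nat.card_prod]
  exact Dvd.intro_left _ rfl

lemma card_line_minus (l : L) {c : P} (hc : c ∈ l) :
    Nat.card ({y : P | y ∈ l ∧ y ≠ c} : Set P) = ProjectivePlane.order P L := by
  have h1 : ({y : P | y ∈ l ∧ y ≠ c} : Set P) = ↑((Finset.univ.filter (fun p : P => p ∈ l)).erase c) := by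
    ext y
    simp [and_comm]
  rw [h1, Nat.card_coe_set_eq, Set.ncard_coe_finset, Finset.card_erase_of_mem (by simpa using hc),
    card_filter_on]
  simp

lemma card_off (A : L) :
    Nat.card ({y : P | y ∉ A} : Set P) = ProjectivePlane.order P L ^ 2 := by
  have h1 : ({y : P | y ∉ A} : Set P) = ↑(Finset.univ.filter (fun p : P => ¬ p ∈ A)) := by
    ext y
    simp
  rw [h1, Nat.card_coe_set_eq, Set.ncard_coe_finset]
  have h2 := Finset.card_filter_add_card_filter_not (s := (Finset.univ : Finset P)) (fun p : P => p ∈ A)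
  rw [card_filter_on, Finset.card_univ, ProjectivePlane.card_points P L] at h2
  omega

lemma card_TT {G : Subgroup (Coll P L)} {A : L} {τ : ℕ} (hall : ∀ c', c' ∈ A → Nat.card (EE G c' A) = τ) :
    Nat.card (TT G A) = 1 + (ProjectivePlane.order P L + 1) * (τ - 1) := by
  letI : Fintype (Coll P L) := Fintype.ofFinite _
  have hcount : ∀ S : Subgroup (Coll P L), Nat.card S = (Finset.univ.filter (fun g => g ∈ S)).card := by
    intro S
    rw [Nat.card_eq_fintype_card, Fintype.card_subtype]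
  let pts : Finset P := Finset.univ.filter (fun p => p ∈ A)
  let E' : P → Finset (Coll P L) := fun c => (Finset.univ.filter (fun g => g ∈ EE G c A)).erase 1
  have hE' : ∀ c ∈ pts, (E' c).card = τ - 1 := by
    intro c hc
    have hcA : c ∈ A := by simpa [pts] using hc
    simp only [E']
    rw [Finset.card_erase_of_mem (by simp [(EE G c A).one_mem]), ← hcount, hall c hcA]
  have hU : (Finset.univ.filter (fun g => g ∈ TT G A)).erase 1 = pts.biUnion E' := by
    ext g
    simp only [Finset.mem_erase, Finset.mem_filter, Finset.mem_univ, true_and, Finset.mem_biUnion, pts, E']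
    constructor
    · rintro ⟨hne, hG', c, hc, hp⟩
      exact ⟨c, hc, hne, hG', hp⟩
    · rintro ⟨c, hc, hne, hG', hp⟩
      exact ⟨hne, hG', c, hc, hp⟩
  have hcardU : (pts.biUnion E').card = ∑ c ∈ pts, (E' c).card := by
    apply Finset.card_biUnion
    intro c _ c' _ hcc
    rw [Function.onFun, Finset.disjoint_left]
    intro g hg hg'
    simp only [E', Finset.mem_erase, Finset.mem_filter, Finset.mem_univ, true_and] at hg hg'
    exact hcc (persp_unique g hg.1 hg.2.2 hg'.2.2).1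
  have hpts : pts.card = ProjectivePlane.order P L + 1 := card_filter_on A
  rw [← hU, Finset.card_erase_of_mem (by simp [(TT G A).one_mem]), Finset.sum_const_nat hE', hpts] at hcardU
  have hpos : 1 ≤ (Finset.univ.filter (fun g => g ∈ TT G A)).card :=
    Finset.card_pos.mpr ⟨1, by simp [(TT G A).one_mem]⟩
  rw [hcount]
  omega

lemma arith {n τ : ℕ} (hτ : 2 ≤ τ) (hd : τ ∣ n) (hn : 0 < n) (hT : (1 + (n + 1) * (τ - 1)) ∣ n ^ 2) : τ = n := by
  obtain ⟨w, rfl⟩ := hd
  obtain ⟨t, rfl⟩ : ∃ t, τ = t + 1 := ⟨τ - 1, by omega⟩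
  have ht : 1 ≤ t := by omega
  have hw : 0 < w := Nat.pos_of_ne_zero (by rintro rfl; simp at hn)
  simp only [Nat.add_sub_cancel] at hT
  have e1 : 1 + ((t + 1) * w + 1) * t = (t + 1) * (1 + w * t) := by ring
  have e2 : ((t + 1) * w) ^ 2 = (t + 1) * ((t + 1) * w ^ 2) := by ring
  rw [e1, e2] at hT
  have h1 : (1 + w * t) ∣ (t + 1) * w ^ 2 := Nat.dvd_of_mul_dvd_mul_left (by omega) hT
  have hco : Nat.Coprime (1 + w * t) w := (Nat.coprime_add_mul_left_left 1 w t).2 (Nat.coprime_one_left w)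
  have h2 : (1 + w * t) ∣ t + 1 := (Nat.Coprime.pow_right 2 hco).dvd_of_dvd_mul_right h1
  have h3 := Nat.le_of_dvd (by omega) h2
  have hw1 : w = 1 := by
    by_contra hne
    have h4 : 2 ≤ w := by omega
    have h5 := Nat.mul_le_mul_right t h4
    omega
  subst hw1
  simp

lemma X_mem {G : Subgroup (Coll P L)} {c : P} {A : L} {l : L} (hc : c ∈ A) (hcl : c ∈ l) {g : Coll P L}
    (hg : g ∈ EE G c A) {y : P} (hy : y ∈ l ∧ y ≠ c) : g.pt y ∈ l ∧ g.pt y ≠ c := by
  constructor
  · have := (g.inc y l).2 hy.1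
    rwa [hg.2.2 l hcl] at this
  · intro e
    apply hy.2
    apply g.pt.injective
    rw [e, hg.2.1 c hc]

lemma X_off {c : P} {A l : L} (hc : c ∈ A) (hcl : c ∈ l) (hl : l ≠ A) {y : P} (hy : y ∈ l ∧ y ≠ c) : y ∉ A := by
  intro hyA
  rcases Nondegenerate.eq_or_eq hy.1 hcl hyA hc with e | e
  · exact hy.2 e
  · exact hl e

/-- `|E(c,A)| = n`. -/
theorem card_EE_eq_order {G : Subgroup (Coll P L)} (hG : TwoTrans G) (hE : HasElation G) {c : P} {A : L}
    (hc : c ∈ A) : Nat.card (EE G c A) = ProjectivePlane.order P L := by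
  obtain ⟨g0, hg0G, c0, A0, hne, hc0, hp0⟩ := hE
  have hall : ∀ c', c' ∈ A → Nat.card (EE G c' A) = Nat.card (EE G c A) :=
    fun c' h => le_antisymm (card_EE_le hG h hc) (card_EE_le hG hc h)
  have hτ : 2 ≤ Nat.card (EE G c A) := by
    have h1 : Nat.card (EE G c0 A0) ≤ Nat.card (EE G c A) := card_EE_le hG hc0 hc
    have h2 : 1 < Nat.card (EE G c0 A0) :=
      Finite.one_lt_card_iff_nontrivial.mpr
        ⟨⟨⟨g0, hg0G, hp0⟩, 1, fun e => hne (congrArg Subtype.val e)⟩⟩
    omega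
  have hn := ProjectivePlane.one_lt_order P L
  obtain ⟨x, hx⟩ := Nondegenerate.exists_point (P := P) A
  have hcx : c ≠ x := fun e => hx (by rw [← e]; exact hc)
  obtain ⟨l, hcl, hxl⟩ : ∃ l : L, c ∈ l ∧ x ∈ l := ⟨_, HasLines.mkLine_ax hcx⟩
  have hlA : l ≠ A := fun e => hx (by rw [← e]; exact hxl)
  have hd : Nat.card (EE G c A) ∣ ProjectivePlane.order P L := by
    have h1 := card_dvd_of_free (EE G c A) ({y : P | y ∈ l ∧ y ≠ c} : Set P)
      (fun g hg y hy => X_mem hc hcl hg hy)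
      (fun g hg y hy hgy => eq_one_of_fix hg.2 hc (X_off hc hcl hlA hy) hgy)
    rwa [card_line_minus l hcl] at h1
  have hT : Nat.card (TT G A) ∣ ProjectivePlane.order P L ^ 2 := by
    have h1 := card_dvd_of_free (TT G A) ({y : P | y ∉ A} : Set P)
      (fun g hg y hy h => by
        obtain ⟨-, c', hc', pg⟩ := hg
        apply hy
        have h2 : g.pt (g.pt y) = g.pt y := pg.1 _ h
        have h3 : g.pt y = y := g.pt.injective h2
        rwa [h3] at h)
      (fun g hg y hy hgy => by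
        obtain ⟨-, c', hc', pg⟩ := hg
        exact eq_one_of_fix pg hc' hy hgy)
    rwa [card_off A] at h1
  rw [card_TT hall] at hT
  exact arith hτ hd (by omega) hT

lemma comm_of_ne {g h : Coll P L} {c c' : P} {A : L} (hcc : c ≠ c') (hc : c ∈ A) (hc' : c' ∈ A)
    (pg : IsPersp g c A) (ph : IsPersp h c' A) : g * h = h * g := by
  have h1 : IsPersp (g * h * g⁻¹) c' A := by
    have := persp_conj ph g
    rwa [pg.1 c' hc', ln_axis pg] at this
  have h2 : IsPersp (h * g⁻¹ * h⁻¹) c A := by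
    have := persp_conj (persp_inv pg) h
    rwa [ph.1 c hc, ln_axis ph] at this
  have u1 : IsPersp ((g * h * g⁻¹) * h⁻¹) c' A := persp_mul h1 (persp_inv ph)
  have u2 : IsPersp (g * (h * g⁻¹ * h⁻¹)) c A := persp_mul pg h2
  have e : g * (h * g⁻¹ * h⁻¹) = (g * h * g⁻¹) * h⁻¹ := by group
  by_contra hne
  have hu : (g * h * g⁻¹) * h⁻¹ ≠ 1 := fun e' => hne (by
    have h3 : g * h * g⁻¹ = h := mul_inv_eq_one.mp e'
    exact mul_inv_eq_iff_eq_mul.mp h3)
  rw [e] at u2
  exact hcc (persp_unique _ hu u2 u1).1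

end Th2Aux

open Th2Aux in
/-- [Th2a]: `n` is a prime power and `E(c,A)` is sharply transitive. -/
theorem th2_primePow {G : Subgroup (Coll P L)} (hG : TwoTrans G) (hE : HasElation G) :
    IsPrimePow (ProjectivePlane.order P L) := by
  have hE' := hE
  obtain ⟨g0, hg0G, c₁, A, hne, hc₁, hp0⟩ := hE'
  obtain ⟨c₂, hc₂, hc21, -⟩ := exists_third (P := P) A c₁ c₁
  have h1 : Nat.card (EE G c₁ A) = ProjectivePlane.order P L := card_EE_eq_order hG hE hc₁
  have h2 : Nat.card (EE G c₂ A) = ProjectivePlane.order P L := card_EE_eq_order hG hE hc₂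
  have hn := ProjectivePlane.one_lt_order P L
  set n := ProjectivePlane.order P L with hndef
  have hp : (n.minFac).Prime := Nat.minFac_prime (by omega)
  have huniq : ∀ {q : ℕ}, q.Prime → q ∣ n → q = n.minFac := by
    intro q hq hqn
    by_contra hqp
    haveI : Fact q.Prime := ⟨hq⟩
    haveI : Fact (n.minFac).Prime := ⟨hp⟩
    obtain ⟨g, hg⟩ := exists_prime_orderOf_dvd_card' (G := EE G c₁ A) (n.minFac)
      (by rw [h1]; exact Nat.minFac_dvd n)
    obtain ⟨h, hh⟩ := exists_prime_orderOf_dvd_card' (G := EE G c₂ A) q (by rw [h2]; exact hqn)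
    have hg' : orderOf (g : Coll P L) = n.minFac := by rw [Subgroup.orderOf_coe]; exact hg
    have hh' : orderOf (h : Coll P L) = q := by rw [Subgroup.orderOf_coe]; exact hh
    have pg := g.2.2
    have ph := h.2.2
    have hcomm : Commute (g : Coll P L) (h : Coll P L) := comm_of_ne (Ne.symm hc21) hc₁ hc₂ pg ph
    obtain ⟨z, hz, pz⟩ := tt_mul pg hc₁ ph hc₂
    -- `(g h)^q = g^q`
    have e1 : ((g : Coll P L) * h) ^ q = (g : Coll P L) ^ q := by
      rw [hcomm.mul_pow, ← hh', pow_orderOf_eq_one, mul_one]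
    have e2 : ((g : Coll P L) * h) ^ n.minFac = (h : Coll P L) ^ n.minFac := by
      rw [hcomm.mul_pow, ← hg', pow_orderOf_eq_one, one_mul]
    have ne1 : (g : Coll P L) ^ q ≠ 1 := by
      intro e
      have := orderOf_dvd_of_pow_eq_one e
      rw [hg'] at this
      exact hqp ((Nat.prime_dvd_prime_iff_eq hp hq).mp this).symm
    have ne2 : (h : Coll P L) ^ n.minFac ≠ 1 := by
      intro e
      have := orderOf_dvd_of_pow_eq_one e
      rw [hh'] at this
      exact hqp ((Nat.prime_dvd_prime_iff_eq hq hp).mp this)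
    have z1 : c₁ = z := (persp_unique _ ne1 (persp_pow pg q) (by rw [← e1]; exact persp_pow pz q)).1
    have z2 : c₂ = z := (persp_unique _ ne2 (persp_pow ph _) (by rw [← e2]; exact persp_pow pz _)).1
    exact hc21 (z2.trans z1.symm)
  have heq := Nat.eq_prime_pow_of_unique_prime_dvd (n := n) (p := n.minFac) (by omega) huniq
  rw [isPrimePow_nat_iff]
  refine ⟨n.minFac, n.primeFactorsList.length, hp, ?_, heq.symm⟩
  apply Nat.pos_of_ne_zero
  intro e
  rw [e, pow_zero] at heq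
  omega

open Th2Aux in
/-- [Th2b] -/
theorem th2 {G : Subgroup (Coll P L)} (hG : TwoTrans G) (hE : HasElation G) : Moufang G := by
  intro c A hc p q l hcl hpl hql hpA hqA
  have hlA : l ≠ A := fun e => hpA (by rw [← e]; exact hpl)
  have hpc : p ≠ c := fun e => hpA (by rw [e]; exact hc)
  have hqc : q ≠ c := fun e => hqA (by rw [e]; exact hc)
  let f : EE G c A → ({y : P | y ∈ l ∧ y ≠ c} : Set P) :=
    fun g => ⟨g.1.pt p, X_mem hc hcl g.2 ⟨hpl, hpc⟩⟩
  have hf : Function.Injective f := by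
    intro a b hab
    have h1 : a.1.pt p = b.1.pt p := congrArg Subtype.val hab
    have h2 : (b.1⁻¹ * a.1).pt p = p := by
      simp [mul_pt, h1]
    have h3 : b.1⁻¹ * a.1 = 1 :=
      eq_one_of_fix (persp_mul (persp_inv b.2.2) a.2.2) hc hpA h2
    exact Subtype.ext (inv_mul_eq_one.mp h3).symm
  have hb : Function.Bijective f := by
    apply hf.bijective_of_nat_card_le
    rw [card_line_minus l hcl, card_EE_eq_order hG hE hc]
  obtain ⟨g, hg⟩ := hb.2 ⟨q, hql, hqc⟩
  exact ⟨g.1, g.2.1, g.2.2, congrArg Subtype.val hg⟩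

end Cfsg.Agent.Lib.OW
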