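import Cfsg.Agent.Lib.OW.OddNPP
import Cfsg.Agent.Lib.OW.Th2
import Cfsg.Agent.Lib.OW.OddPP
import Cfsg.Agent.Lib.OW.EvenCase

/-! Th1 by strong induction; the three cases. See forum 'S3732 notes'. -/

set_option autoImplicit false

namespace Cfsg.Agent.Lib.OW

open Configuration

universe u v

variable {P : Type u} {L : Type v} [Membership P L] [Fintype P] [Fintype L] [ProjectivePlane P L]

/-- [M7] `n` even. -/
theorem even_case {G : Subgroup (Coll P L)} (hG : TwoTrans G) (hn : Even (ProjectivePlane.order P L)) :
    HasElation G :=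
  EvenCase.main hG hn

/-- [M8] `n` odd prime power. -/
theorem oddpp_case (IH : IHOW.{u, v} (ProjectivePlane.order P L))
    {G : Subgroup (Coll P L)} (hG : TwoTrans G) (hn : Odd (ProjectivePlane.order P L))
    (hp : IsPrimePow (ProjectivePlane.order P L)) : HasElation G := by
  exact OP.oddpp_main IH hG hn hp

/-- Th1. -/
theorem th1 {G : Subgroup (Coll P L)} (hG : TwoTrans G) : HasElation G := by
  suffices H : ∀ n : ℕ, ∀ (P' : Type u) (L' : Type v) [Membership P' L'] [Fintype P'] [Fintype L']
      [ProjectivePlane P' L'], ProjectivePlane.order P' L' = n →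
        ∀ G' : Subgroup (Coll P' L'), TwoTrans G' → HasElation G' from H _ P L rfl G hG
  intro n
  induction n using Nat.strong_induction_on with
  | _ n ih =>
    intro P' L' _ _ _ _ hn G' hG'
    have IH : IHOW.{u, v} (ProjectivePlane.order P' L') := by
      intro P'' L'' _ _ _ _ hlt G'' hG''
      exact ih _ (hn ▸ hlt) P'' L'' rfl G'' hG''
    rcases Nat.even_or_odd (ProjectivePlane.order P' L') with he | ho
    · exact even_case hG' he
    · by_cases hp : IsPrimePow (ProjectivePlane.order P' L')
      · exact oddpp_case IH hG' ho hp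
      · exact (oddnpp_false IH hG' ho hp).elim

end Cfsg.Agent.Lib.OW
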