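import Cfsg.Agent.Lib.OW.Defs

/-! [T3z] Field coordinates give the `Desarguesian` conclusion. -/

set_option autoImplicit false

namespace Cfsg.Agent.Lib.OW

open Configuration

/-- Coordinates of a plane over a field: points `(x, y)`, `(m)`, `(∞)`;
lines `y = x * m + b`, `x = c`, `l∞`. -/
structure FieldCoords (P L F : Type*) [Membership P L] [Field F] where
  aff : F → F → P
  slope : F → P
  vert : P
  line : F → F → L
  vline : F → L
  linf : L
  pt_cases : ∀ p : P, (∃ x y, p = aff x y) ∨ (∃ m, p = slope m) ∨ p = vert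
  ln_cases : ∀ l : L, (∃ m b, l = line m b) ∨ (∃ c, l = vline c) ∨ l = linf
  aff_line : ∀ x y m b, aff x y ∈ line m b ↔ y = x * m + b
  aff_vline : ∀ x y c, aff x y ∈ vline c ↔ x = c
  aff_linf : ∀ x y, aff x y ∉ linf
  slope_line : ∀ m' m b, slope m' ∈ line m b ↔ m' = m
  slope_vline : ∀ m c, slope m ∉ vline c
  slope_linf : ∀ m, slope m ∈ linf
  vert_line : ∀ m b, vert ∉ line m b
  vert_vline : ∀ c, vert ∈ vline c
  vert_linf : vert ∈ linf

namespace FieldCoords

variable {P L F : Type*} [Membership P L] [Field F]

/-- The index type of points. -/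
abbrev Idx (F : Type*) := (F × F) ⊕ (F ⊕ Unit)

/-- The point with an index. -/
def pt (C : FieldCoords P L F) : Idx F → P
  | .inl (x, y) => C.aff x y
  | .inr (.inl m) => C.slope m
  | .inr (.inr _) => C.vert

/-- The vector with an index. -/
def code : Idx F → (Fin 3 → F)
  | .inl (x, y) => ![x, y, 1]
  | .inr (.inl m) => ![1, m, 0]
  | .inr (.inr _) => ![0, 1, 0]

theorem code_ne (s : Idx F) : code s ≠ 0 := by
  intro h
  rcases s with ⟨x, y⟩ | m | u
  · have := congrFun h 2
    simp [code] at this
  · have := congrFun h 0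
    simp [code] at this
  · have := congrFun h 1
    simp [code] at this

/-- The projective point with an index. -/
noncomputable def pp (s : Idx F) : Projectivization F (Fin 3 → F) :=
  Projectivization.mk F (code s) (code_ne s)

theorem pp_bij : Function.Bijective (pp : Idx F → Projectivization F (Fin 3 → F)) := by
  constructor
  · intro s t h
    rw [pp, pp, Projectivization.mk_eq_mk_iff'] at h
    obtain ⟨a, ha⟩ := h
    have h0 := congrFun ha 0
    have h1 := congrFun ha 1
    have h2 := congrFun ha 2
    rcases s with ⟨x, y⟩ | m | u <;> rcases t with ⟨x', y'⟩ | m' | u'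
    · simp [code] at h0 h1 h2
      subst h2
      simp at h0 h1
      subst h0 h1
      rfl
    · simp [code] at h2
    · simp [code] at h2
    · simp [code] at h0 h2
      simp [h2] at h0
    · simp [code] at h0 h1
      subst h0
      simp at h1
      subst h1
      rfl
    · simp [code] at h0
    · simp [code] at h1 h2
      simp [h2] at h1
    · simp [code] at h0 h1
      simp [h0] at h1
    · rfl
  · intro q
    induction q using Projectivization.ind with
    | h v hv =>
      by_cases h2 : v 2 = 0
      · by_cases h0 : v 0 = 0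
        · have h1 : v 1 ≠ 0 := by
            intro h1
            apply hv
            ext i
            fin_cases i <;> simp [h0, h1, h2]
          refine ⟨.inr (.inr ()), ?_⟩
          rw [pp, Projectivization.mk_eq_mk_iff']
          refine ⟨(v 1)⁻¹, ?_⟩
          ext i
          fin_cases i <;> simp [code, h0, h2] <;> field_simp
        · refine ⟨.inr (.inl (v 1 / v 0)), ?_⟩
          rw [pp, Projectivization.mk_eq_mk_iff']
          refine ⟨(v 0)⁻¹, ?_⟩
          ext i
          fin_cases i <;> simp [code, h0, h2] <;> field_simp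
      · refine ⟨.inl (v 0 / v 2, v 1 / v 2), ?_⟩
        rw [pp, Projectivization.mk_eq_mk_iff']
        refine ⟨(v 2)⁻¹, ?_⟩
        ext i
        fin_cases i <;> simp [code, h2] <;> field_simp

theorem pt_bij (C : FieldCoords P L F) : Function.Bijective C.pt := by
  constructor
  · have hl : ∀ {x y x' y' : F}, C.aff x y = C.aff x' y' → x = x' ∧ y = y' := by
      intro x y x' y' h
      have h1 : C.aff x y ∈ C.vline x := (C.aff_vline x y x).2 rfl
      rw [h, C.aff_vline] at h1
      have h2 : C.aff x y ∈ C.line 0 y := (C.aff_line x y 0 y).2 (by simp)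
      rw [h, C.aff_line] at h2
      simp at h2
      exact ⟨h1.symm, h2.symm⟩
    have hs : ∀ {m m' : F}, C.slope m = C.slope m' → m = m' := by
      intro m m' h
      have h1 : C.slope m ∈ C.line m 0 := (C.slope_line m m 0).2 rfl
      rw [h, C.slope_line] at h1
      exact h1.symm
    have as : ∀ {x y m : F}, C.aff x y ≠ C.slope m := by
      intro x y m h
      exact C.aff_linf x y (h ▸ C.slope_linf m)
    have av : ∀ {x y : F}, C.aff x y ≠ C.vert := by
      intro x y h
      exact C.aff_linf x y (h ▸ C.vert_linf)
    have sv : ∀ {m : F}, C.slope m ≠ C.vert := by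
      intro m h
      exact C.vert_line m 0 (h ▸ (C.slope_line m m 0).2 rfl)
    intro s t h
    rcases s with ⟨x, y⟩ | m | u <;> rcases t with ⟨x', y'⟩ | m' | u' <;> simp only [pt] at h
    · obtain ⟨rfl, rfl⟩ := hl h
      rfl
    · exact absurd h as
    · exact absurd h av
    · exact absurd h.symm as
    · rw [hs h]
    · exact absurd h sv
    · exact absurd h.symm av
    · exact absurd h.symm sv
    · rfl
  · intro p
    rcases C.pt_cases p with ⟨x, y, rfl⟩ | ⟨m, rfl⟩ | rfl
    · exact ⟨.inl (x, y), rfl⟩
    · exact ⟨.inr (.inl m), rfl⟩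
    · exact ⟨.inr (.inr ()), rfl⟩

/-- The linear form of a triple. -/
noncomputable def lf (a b c : F) : (Fin 3 → F) →ₗ[F] F :=
  a • LinearMap.proj 0 + b • LinearMap.proj 1 + c • LinearMap.proj 2

theorem lf_apply (a b c : F) (v : Fin 3 → F) : lf a b c v = a * v 0 + b * v 1 + c * v 2 := by
  simp [lf]

theorem finrank_ker (f : (Fin 3 → F) →ₗ[F] F) (hf : f ≠ 0) :
    Module.finrank F (LinearMap.ker f) = 2 := by
  have h := Module.Dual.finrank_ker_add_one_of_ne_zero hf
  rw [Module.finrank_fin_fun] at h
  omega

theorem lf_eq (f : (Fin 3 → F) →ₗ[F] F) :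
    f = lf (f (Pi.single 0 1)) (f (Pi.single 1 1)) (f (Pi.single 2 1)) := by
  ext v
  fin_cases v <;> simp [lf]

theorem lf_ne (a b c : F) (h : a ≠ 0 ∨ b ≠ 0 ∨ c ≠ 0) : lf a b c ≠ 0 := by
  intro h0
  have h1 := fun v => LinearMap.congr_fun h0 v
  have e0 := h1 (Pi.single 0 1)
  have e1 := h1 (Pi.single 1 1)
  have e2 := h1 (Pi.single 2 1)
  simp [lf_apply] at e0 e1 e2
  simp [e0, e1, e2] at h

/-- `l` is the zero set of `f` in coordinates. -/
def Rep (C : FieldCoords P L F) (l : L) (f : (Fin 3 → F) →ₗ[F] F) : Prop :=
  ∀ s, C.pt s ∈ l ↔ f (code s) = 0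

theorem rep_line (C : FieldCoords P L F) (m b : F) : C.Rep (C.line m b) (lf (-m) 1 (-b)) := by
  intro s
  rcases s with ⟨x, y⟩ | m' | u
  · simp only [pt, code, C.aff_line, lf_apply]
    simp
    constructor
    · intro h
      rw [h]
      ring
    · intro h
      linear_combination h
  · simp only [pt, code, C.slope_line, lf_apply]
    simp
    constructor
    · intro h
      rw [h]
      ring
    · intro h
      linear_combination h
  · simp only [pt, code, lf_apply]
    simpa using C.vert_line m b

theorem rep_vline (C : FieldCoords P L F) (c : F) : C.Rep (C.vline c) (lf 1 0 (-c)) := by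
  intro s
  rcases s with ⟨x, y⟩ | m' | u
  · simp only [pt, code, C.aff_vline, lf_apply]
    simp
    constructor
    · intro h
      rw [h]
      ring
    · intro h
      linear_combination h
  · simp only [pt, code, lf_apply]
    simpa using C.slope_vline m' c
  · simp only [pt, code, lf_apply]
    simpa using C.vert_vline c

theorem rep_linf (C : FieldCoords P L F) : C.Rep C.linf (lf 0 0 1) := by
  intro s
  rcases s with ⟨x, y⟩ | m' | u
  · simp only [pt, code, lf_apply]
    simpa using C.aff_linf x y
  · simp only [pt, code, lf_apply]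
    simpa using C.slope_linf m'
  · simp only [pt, code, lf_apply]
    simpa using C.vert_linf

theorem exists_rep (C : FieldCoords P L F) (a b c : F) (h : a ≠ 0 ∨ b ≠ 0 ∨ c ≠ 0) :
    ∃ l, C.Rep l (lf a b c) := by
  by_cases hb : b = 0
  · subst hb
    by_cases ha : a = 0
    · subst ha
      have hc : c ≠ 0 := by simpa using h
      refine ⟨C.linf, ?_⟩
      intro s
      rw [rep_linf C s]
      simp only [lf_apply]
      simp [hc]
    · refine ⟨C.vline (-c / a), ?_⟩
      intro s
      rw [rep_vline C _ s]
      simp only [lf_apply]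
      simp only [one_mul, zero_mul, add_zero]
      have e : a * code s 0 + c * code s 2 = a * (code s 0 + -(-c / a) * code s 2) := by
        field_simp
      rw [e, mul_eq_zero]
      simp [ha]
  · refine ⟨C.line (-a / b) (-c / b), ?_⟩
    intro s
    rw [rep_line C _ _ s]
    simp only [lf_apply]
    have e : a * code s 0 + b * code s 1 + c * code s 2
        = b * (-(-a / b) * code s 0 + 1 * code s 1 + -(-c / b) * code s 2) := by
      field_simp
    rw [e, mul_eq_zero]
    simp [hb]

end FieldCoords

open FieldCoords in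
/-- Version for fields in `Type`. -/
theorem desarguesian_of_coords_aux {P L : Type*} [Membership P L] [Fintype P] [Fintype L]
    [ProjectivePlane P L] {F : Type} [Field F] [Fintype F] (C : FieldCoords P L F) :
    Desarguesian P L := by
  let φ : P ≃ Projectivization F (Fin 3 → F) :=
    (Equiv.ofBijective C.pt C.pt_bij).symm.trans (Equiv.ofBijective pp pp_bij)
  have hφ : ∀ s, φ (C.pt s) = pp s := by
    intro s
    have h : (Equiv.ofBijective C.pt C.pt_bij).symm (C.pt s) = s :=
      (Equiv.ofBijective C.pt C.pt_bij).symm_apply_apply s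
    simp only [φ, Equiv.trans_apply]
    rw [h]
    rfl
  have hrep : ∀ (l : L) (f : (Fin 3 → F) →ₗ[F] F), C.Rep l f →
      ∀ p : P, p ∈ l ↔ (φ p).submodule ≤ LinearMap.ker f := by
    intro l f hl p
    obtain ⟨s, rfl⟩ := C.pt_bij.2 p
    rw [hφ, hl s, pp, Projectivization.submodule_mk, Submodule.span_singleton_le_iff_mem,
      LinearMap.mem_ker]
  refine ⟨F, inferInstance, inferInstance, φ, ?_, ?_⟩
  · intro l
    have key : ∃ f : (Fin 3 → F) →ₗ[F] F, f ≠ 0 ∧ C.Rep l f := by
      rcases C.ln_cases l with ⟨m, b, rfl⟩ | ⟨c, rfl⟩ | rfl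
      · exact ⟨_, lf_ne _ _ _ (by simp), rep_line C m b⟩
      · exact ⟨_, lf_ne _ _ _ (by simp), rep_vline C c⟩
      · exact ⟨_, lf_ne _ _ _ (by simp), rep_linf C⟩
    obtain ⟨f, hf, hl⟩ := key
    exact ⟨LinearMap.ker f, finrank_ker f hf, hrep l f hl⟩
  · intro W hW
    have hlt : W < ⊤ := by
      refine lt_of_le_of_ne le_top ?_
      intro h
      rw [h, finrank_top, Module.finrank_fin_fun] at hW
      omega
    obtain ⟨f, hf, hle⟩ := Submodule.exists_le_ker_of_lt_top W hlt
    have hWf : W = LinearMap.ker f :=
      Submodule.eq_of_le_of_finrank_eq hle (by rw [hW, finrank_ker f hf])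
    have hflf := lf_eq f
    set a := f (Pi.single 0 1)
    set b := f (Pi.single 1 1)
    set c := f (Pi.single 2 1)
    have hne : a ≠ 0 ∨ b ≠ 0 ∨ c ≠ 0 := by
      by_contra hcon
      push Not at hcon
      apply hf
      rw [hflf, hcon.1, hcon.2.1, hcon.2.2]
      ext v
      all_goals simp [lf]
    obtain ⟨l, hl⟩ := C.exists_rep a b c hne
    refine ⟨l, ?_⟩
    rw [hWf, hflf]
    exact hrep l _ hl

/-- A copy of `Fin n` with no instances. -/
def FinCopy (n : ℕ) : Type := Fin n

/-- Field coordinates give the conclusion of Ostrom-Wagner. -/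
theorem desarguesian_of_coords {P L F : Type*} [Membership P L] [Fintype P] [Fintype L]
    [ProjectivePlane P L] [Field F] [Finite F] (C : FieldCoords P L F) : Desarguesian P L := by
  let e : F ≃ FinCopy (Nat.card F) := Finite.equivFin F
  letI : Field (FinCopy (Nat.card F)) := e.symm.field
  letI : Fintype (FinCopy (Nat.card F)) := Fin.fintype (Nat.card F)
  let r : FinCopy (Nat.card F) ≃+* F :=
    { toEquiv := e.symm
      map_mul' := fun x y => e.symm.apply_symm_apply _
      map_add' := fun x y => e.symm.apply_symm_apply _ }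
  refine desarguesian_of_coords_aux (F := FinCopy (Nat.card F))
    { aff := fun x y => C.aff (r x) (r y)
      slope := fun m => C.slope (r m)
      vert := C.vert
      line := fun m b => C.line (r m) (r b)
      vline := fun c => C.vline (r c)
      linf := C.linf
      pt_cases := ?_
      ln_cases := ?_
      aff_line := ?_
      aff_vline := ?_
      aff_linf := fun x y => C.aff_linf _ _
      slope_line := ?_
      slope_vline := fun m c => C.slope_vline _ _
      slope_linf := fun m => C.slope_linf _
      vert_line := fun m b => C.vert_line _ _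
      vert_vline := fun c => C.vert_vline _
      vert_linf := C.vert_linf }
  · intro p
    rcases C.pt_cases p with ⟨x, y, rfl⟩ | ⟨m, rfl⟩ | rfl
    · exact Or.inl ⟨r.symm x, r.symm y, by simp⟩
    · exact Or.inr (Or.inl ⟨r.symm m, by simp⟩)
    · exact Or.inr (Or.inr rfl)
  · intro l
    rcases C.ln_cases l with ⟨m, b, rfl⟩ | ⟨c, rfl⟩ | rfl
    · exact Or.inl ⟨r.symm m, r.symm b, by simp⟩
    · exact Or.inr (Or.inl ⟨r.symm c, by simp⟩)
    · exact Or.inr (Or.inr rfl)
  · intro x y m b
    rw [C.aff_line, ← map_mul, ← map_add, r.injective.eq_iff]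
  · intro x y c
    rw [C.aff_vline, r.injective.eq_iff]
  · intro m' m b
    rw [C.slope_line, r.injective.eq_iff]

end Cfsg.Agent.Lib.OW
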