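import Mathlib

/-! Ostrom-Wagner (S3732): collineation groups of a finite projective plane. See forum 'S3732 notes'. -/

set_option autoImplicit false

namespace Cfsg.Agent.Lib.OW

open Configuration

/-- A collineation of the incidence structure `(P, L)`. -/
@[ext] structure Coll (P L : Type*) [Membership P L] where
  pt : Equiv.Perm P
  ln : Equiv.Perm L
  inc : ∀ (p : P) (l : L), pt p ∈ ln l ↔ p ∈ l

variable {P L : Type*} [Membership P L]

instance : Mul (Coll P L) :=
  ⟨fun a b => ⟨a.pt * b.pt, a.ln * b.ln, fun p l => by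
    simp only [Equiv.Perm.mul_apply]; rw [a.inc, b.inc]⟩⟩
instance : One (Coll P L) := ⟨⟨1, 1, fun _ _ => Iff.rfl⟩⟩
instance : Inv (Coll P L) :=
  ⟨fun a => ⟨a.pt⁻¹, a.ln⁻¹, fun p l => by
    rw [← a.inc]; simp⟩⟩

@[simp] theorem mul_pt (a b : Coll P L) : (a * b).pt = a.pt * b.pt := rfl
@[simp] theorem mul_ln (a b : Coll P L) : (a * b).ln = a.ln * b.ln := rfl
@[simp] theorem one_pt : (1 : Coll P L).pt = 1 := rfl
@[simp] theorem one_ln : (1 : Coll P L).ln = 1 := rfl
@[simp] theorem inv_pt (a : Coll P L) : (a⁻¹).pt = a.pt⁻¹ := rfl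
@[simp] theorem inv_ln (a : Coll P L) : (a⁻¹).ln = a.ln⁻¹ := rfl

instance : Group (Coll P L) :=
  Group.ofLeftAxioms
    (fun a b c => by ext1 <;> simp [mul_assoc])
    (fun a => by ext1 <;> simp)
    (fun a => by ext1 <;> simp)

instance [Finite P] [Finite L] : Finite (Coll P L) :=
  Finite.of_injective (fun g : Coll P L => (g.pt, g.ln))
    (fun a b h => by
      have h1 := congrArg Prod.fst h
      have h2 := congrArg Prod.snd h
      exact Coll.ext h1 h2)

/-- 2-transitive on points. -/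
def TwoTrans (G : Subgroup (Coll P L)) : Prop :=
  ∀ p₁ p₂ q₁ q₂ : P, p₁ ≠ p₂ → q₁ ≠ q₂ → ∃ g ∈ G, g.pt p₁ = q₁ ∧ g.pt p₂ = q₂

/-- `g` is a perspectivity with centre `c` and axis `A` (or trivial). -/
def IsPersp (g : Coll P L) (c : P) (A : L) : Prop :=
  (∀ p, p ∈ A → g.pt p = p) ∧ (∀ l, c ∈ l → g.ln l = l)

/-- non-trivial perspectivity with centre on axis. -/
def IsElation (g : Coll P L) (c : P) (A : L) : Prop := g ≠ 1 ∧ c ∈ A ∧ IsPersp g c A

/-- non-trivial perspectivity with centre off axis. -/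
def IsHomology (g : Coll P L) (c : P) (A : L) : Prop := g ≠ 1 ∧ c ∉ A ∧ IsPersp g c A

/-- `G` contains a non-trivial elation. -/
def HasElation (G : Subgroup (Coll P L)) : Prop :=
  ∃ g ∈ G, ∃ c A, IsElation g c A

/-- Every flag `(c, A)`: `E(c, A)` is transitive on the non-`c` points off `A` of each line through `c`
(here: for any two points `p q` off `A`, collinear with `c`). -/
def Moufang (G : Subgroup (Coll P L)) : Prop :=
  ∀ (c : P) (A : L), c ∈ A → ∀ (p q : P) (l : L), c ∈ l → p ∈ l → q ∈ l → p ∉ A → q ∉ A →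
    ∃ g ∈ G, IsPersp g c A ∧ g.pt p = q

/-- The target statement. -/
def Desarguesian (P L : Type*) [Membership P L] [Fintype P] [Fintype L] [ProjectivePlane P L] : Prop :=
    ∃ (F : Type) (_ : Field F) (_ : Fintype F) (φ : P ≃ Projectivization F (Fin 3 → F)),
      (∀ l : L, ∃ W : Submodule F (Fin 3 → F), Module.finrank F W = 2 ∧
          ∀ p : P, p ∈ l ↔ (φ p).submodule ≤ W) ∧
      (∀ W : Submodule F (Fin 3 → F), Module.finrank F W = 2 →
          ∃ l : L, ∀ p : P, p ∈ l ↔ (φ p).submodule ≤ W)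

end Cfsg.Agent.Lib.OW
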