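import Cfsg.Agent.Lib.OW.Basics

/-! [H1a] closure lemmas for elations with a given centre, or with a given axis. -/

set_option autoImplicit false

namespace Cfsg.Agent.Lib.OW.EETT

open Configuration

variable {B BL : Type*} [Membership B BL] [Fintype B] [Fintype BL] [ProjectivePlane B BL]

theorem inc_pt (g : Coll B BL) {p : B} {l : BL} (h : p ∈ l) : g.pt p ∈ g.ln l := (g.inc p l).2 h

/-- a point fixed by a non-trivial perspectivity, other than the centre, is on the axis. -/
theorem fix_pt_mem {g : Coll B BL} {c : B} {A : BL} (hg : g ≠ 1) (hp : IsPersp g c A) {x : B}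
    (hx : g.pt x = x) (hxc : x ≠ c) : x ∈ A := by
  by_contra hxA
  have h2 : IsPersp g x A := by
    refine ⟨hp.1, fun l hl => ?_⟩
    have hne : l ≠ A := fun e => hxA (e ▸ hl)
    obtain ⟨h1, h3⟩ := HasPoints.mkPoint_ax (P := B) hne
    set y : B := HasPoints.mkPoint hne
    have hy : g.pt y = y := hp.1 y h3
    have hxy : x ≠ y := fun e => hxA (e ▸ h3)
    have hl' : g.ln l = l := by
      have a1 : x ∈ g.ln l := by
        have := inc_pt g hl; rwa [hx] at this
      have a2 : y ∈ g.ln l := by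
        have := inc_pt g h1; rwa [hy] at this
      rcases Nondegenerate.eq_or_eq a1 a2 hl h1 with e | e
      · exact absurd e hxy
      · exact e
    exact hl'
  exact hxc (persp_unique g hg h2 hp).1

/-- a line fixed by a non-trivial perspectivity, other than the axis, goes through the centre. -/
theorem fix_ln_mem {g : Coll B BL} {c : B} {A : BL} (hg : g ≠ 1) (hp : IsPersp g c A) {m : BL}
    (hm : g.ln m = m) (hmA : m ≠ A) : c ∈ m := by
  by_contra hcm
  have h2 : IsPersp g c m := by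
    refine ⟨fun p hpm => ?_, hp.2⟩
    have hne : c ≠ p := fun e => hcm (e ▸ hpm)
    obtain ⟨h1, h3⟩ := HasLines.mkLine_ax (L := BL) hne
    set l : BL := HasLines.mkLine hne
    have hl : g.ln l = l := hp.2 l h1
    have a1 : g.pt p ∈ m := by
      have := inc_pt g hpm; rwa [hm] at this
    have a2 : g.pt p ∈ l := by
      have := inc_pt g h3; rwa [hl] at this
    rcases Nondegenerate.eq_or_eq a1 hpm a2 h3 with e | e
    · exact e
    · exact absurd (e ▸ h1) hcm
  exact hmA (persp_unique g hg h2 hp).2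

theorem persp_inv {g : Coll B BL} {c : B} {A : BL} (hp : IsPersp g c A) : IsPersp g⁻¹ c A := by
  refine ⟨fun p h => ?_, fun l h => ?_⟩
  · show g.pt⁻¹ p = p
    rw [Equiv.Perm.inv_eq_iff_eq]; exact (hp.1 p h).symm
  · show g.ln⁻¹ l = l
    rw [Equiv.Perm.inv_eq_iff_eq]; exact (hp.2 l h).symm

theorem inv_elation {g : Coll B BL} {c : B} {A : BL} (h : IsElation g c A) : IsElation g⁻¹ c A :=
  ⟨inv_ne_one.2 h.1, h.2.1, persp_inv h.2.2⟩

/-- Product of two elations with the same centre. -/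
theorem mul_centre {g h : Coll B BL} {a : B} {A₁ A₂ : BL} (h1 : IsElation g a A₁)
    (h2 : IsElation h a A₂) : g * h = 1 ∨ ∃ W : BL, IsElation (g * h) a W := by
  by_cases hgh : g * h = 1
  · exact Or.inl hgh
  refine Or.inr ?_
  have hc : ∀ l : BL, a ∈ l → (g * h).ln l = l := fun l hl => by
    show g.ln (h.ln l) = l
    rw [h2.2.2.2 l hl, h1.2.2.2 l hl]
  by_cases hA : A₁ = A₂
  · subst hA
    refine ⟨A₁, hgh, h1.2.1, fun p hp => ?_, hc⟩
    show g.pt (h.pt p) = p
    rw [h2.2.2.1 p hp, h1.2.2.1 p hp]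
  obtain ⟨W, hW⟩ := exists_axis (g * h) a hc
  refine ⟨W, hgh, ?_, hW, hc⟩
  by_contra haW
  have hne : W ≠ A₂ := fun e => haW (e ▸ h2.2.1)
  obtain ⟨x1, x2⟩ := HasPoints.mkPoint_ax (P := B) hne
  set X : B := HasPoints.mkPoint hne
  have hX2 : h.pt X = X := h2.2.2.1 X x2
  have hX1 : g.pt X = X := by
    have := hW X x1
    change g.pt (h.pt X) = X at this
    rwa [hX2] at this
  have hXa : X ≠ a := fun e => haW (e ▸ x1)
  have hXA : X ∈ A₁ := fix_pt_mem h1.1 h1.2.2 hX1 hXa
  rcases Nondegenerate.eq_or_eq hXA h1.2.1 x2 h2.2.1 with e | e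
  · exact hXa e
  · exact hA e

/-- Product of two elations with the same axis. -/
theorem mul_axis {g h : Coll B BL} {c₁ c₂ : B} {A : BL} (h1 : IsElation g c₁ A)
    (h2 : IsElation h c₂ A) : g * h = 1 ∨ ∃ z : B, IsElation (g * h) z A := by
  by_cases hgh : g * h = 1
  · exact Or.inl hgh
  refine Or.inr ?_
  have hc : ∀ p : B, p ∈ A → (g * h).pt p = p := fun p hp => by
    show g.pt (h.pt p) = p
    rw [h2.2.2.1 p hp, h1.2.2.1 p hp]
  by_cases hC : c₁ = c₂
  · subst hC
    refine ⟨c₁, hgh, h1.2.1, hc, fun l hl => ?_⟩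
    show g.ln (h.ln l) = l
    rw [h2.2.2.2 l hl, h1.2.2.2 l hl]
  obtain ⟨z, hz⟩ := exists_centre (g * h) A hc
  refine ⟨z, hgh, ?_, hc, hz⟩
  by_contra hzA
  have hne : z ≠ c₂ := fun e => hzA (e ▸ h2.2.1)
  obtain ⟨x1, x2⟩ := HasLines.mkLine_ax (L := BL) hne
  set m : BL := HasLines.mkLine hne
  have hm2 : h.ln m = m := h2.2.2.2 m x2
  have hm1 : g.ln m = m := by
    have := hz m x1
    change g.ln (h.ln m) = m at this
    rwa [hm2] at this
  have hmA : m ≠ A := fun e => hzA (e ▸ x1)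
  have hcm : c₁ ∈ m := fix_ln_mem h1.1 h1.2.2 hm1 hmA
  rcases Nondegenerate.eq_or_eq hcm x2 h1.2.1 h2.2.1 with e | e
  · exact hC e
  · exact hmA e

end Cfsg.Agent.Lib.OW.EETT
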