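import Mathlib

/-! Ostrom-Wagner: Lemma M (abstract). See forum 'S3732 notes'. -/

set_option autoImplicit false

namespace Cfsg.Agent.Lib.OW

namespace LemmaMAux

open Equiv

variable {X : Type*}

theorem maps_inv [Finite X] {k : Perm X} {S : Set X} (h : ∀ x ∈ S, k x ∈ S) : ∀ x ∈ S, k⁻¹ x ∈ S := by
  have hp : ∀ n : ℕ, ∀ x ∈ S, (k ^ n) x ∈ S := by
    intro n
    induction n with
    | zero => intro x hx; simpa using hx
    | succ n ih =>
      intro x hx
      rw [pow_succ']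
      exact h _ (ih x hx)
  have hn := orderOf_pos k
  have e : k⁻¹ = k ^ (orderOf k - 1) := by
    rw [inv_eq_iff_mul_eq_one, ← pow_succ', Nat.sub_add_cancel hn, pow_orderOf_eq_one]
  intro x hx
  rw [e]
  exact hp _ x hx

/-- The hypotheses. -/
structure Hy (Λ : Subgroup (Perm X)) (E : X → Subgroup (Perm X)) : Prop where
  hEΛ : ∀ b, E b ≤ Λ
  hEfix : ∀ b, ∀ e ∈ E b, e b = b
  hEab : ∀ b, ∀ e ∈ E b, ∀ f ∈ E b, e * f = f * e
  hEreg : ∀ b x y, x ≠ b → y ≠ b → ∃! e : Perm X, e ∈ E b ∧ e x = y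
  hEconj : ∀ g ∈ Λ, ∀ b, ∀ e ∈ E b, g * e * g⁻¹ ∈ E (g b)
  hinv : ∀ b c, b ≠ c → ∃ i ∈ Λ, i * i = 1 ∧ i ≠ 1 ∧ ∀ x, i x = x ↔ x = b ∨ x = c

/-- An involution of the group with exactly two given fixed points. -/
def IsI (Λ : Subgroup (Perm X)) (i : Perm X) (b c : X) : Prop :=
  i ∈ Λ ∧ i * i = 1 ∧ ∀ x, i x = x ↔ x = b ∨ x = c

variable {Λ : Subgroup (Perm X)} {E : X → Subgroup (Perm X)}

theorem IsI.symm {i : Perm X} {b c : X} (h : IsI Λ i b c) : IsI Λ i c b :=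
  ⟨h.1, h.2.1, fun x => (h.2.2 x).trans or_comm⟩

theorem exists_I (H : Hy Λ E) {b c : X} (h : b ≠ c) : ∃ i, IsI Λ i b c := by
  obtain ⟨i, h1, h2, -, h3⟩ := H.hinv b c h
  exact ⟨i, h1, h2, h3⟩

theorem eq_one_of (H : Hy Λ E) {b c : X} (hbc : b ≠ c) {f : Perm X} (hf : f ∈ E b) (hc : f c = c) : f = 1 := by
  obtain ⟨e, -, he⟩ := H.hEreg b c c hbc.symm hbc.symm
  rw [he f ⟨hf, hc⟩, he 1 ⟨one_mem _, rfl⟩]

theorem inverts (H : Hy Λ E) {b c : X} (hbc : b ≠ c) {i : Perm X} (hi : IsI Λ i b c) {e : Perm X} (he : e ∈ E b) :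
    i * e * i⁻¹ = e⁻¹ := by
  obtain ⟨h1, h2, h3⟩ := hi
  have hib : i b = b := (h3 b).2 (Or.inl rfl)
  have hic : i c = c := (h3 c).2 (Or.inr rfl)
  have hinv : i⁻¹ = i := inv_eq_of_mul_eq_one_right h2
  have he' : i * e * i⁻¹ ∈ E b := by
    have := H.hEconj i h1 b e he
    rwa [hib] at this
  rw [hinv] at he' ⊢
  have hab : e * (i * e * i) = (i * e * i) * e := H.hEab b e he _ he'
  have hc : i * (e * (i * e * i)) = (e * (i * e * i)) * i := by
    calc i * (e * (i * e * i)) = i * ((i * e * i) * e) := by rw [hab]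
      _ = (i * i) * (e * (i * e)) := by simp only [mul_assoc]
      _ = e * (i * e) := by rw [h2, one_mul]
      _ = e * (i * e * (i * i)) := by rw [h2, mul_one]
      _ = (e * (i * e * i)) * i := by simp only [mul_assoc]
  have hfE : e * (i * e * i) ∈ E b := mul_mem he he'
  have hfix : i ((e * (i * e * i)) c) = (e * (i * e * i)) c := by
    have : (i * (e * (i * e * i))) c = ((e * (i * e * i)) * i) c := by rw [hc]
    rw [Perm.mul_apply, Perm.mul_apply (e * (i * e * i)) i, hic] at this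
    exact this
  have hone : e * (i * e * i) = 1 := by
    apply eq_one_of H hbc hfE
    rcases (h3 _).1 hfix with h | h
    · exfalso
      have h4 := H.hEfix b _ hfE
      rw [← h4] at h
      exact hbc (((e * (i * e * i)).injective h).symm)
    · exact h
  exact eq_inv_of_mul_eq_one_right hone

theorem I_unique (H : Hy Λ E) {b c : X} (hbc : b ≠ c) {i j : Perm X} (hi : IsI Λ i b c) (hj : IsI Λ j b c) : i = j := by
  ext x
  by_cases hx : x = b
  · subst hx
    rw [(hi.2.2 x).2 (Or.inl rfl), (hj.2.2 x).2 (Or.inl rfl)]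
  · obtain ⟨e, ⟨he, hex⟩, -⟩ := H.hEreg b c x hbc.symm hx
    have key : ∀ k, IsI Λ k b c → k x = e⁻¹ c := by
      intro k hk
      have h := inverts H hbc hk he
      have hkc : k c = c := (hk.2.2 c).2 (Or.inr rfl)
      have h2 : (k * e * k⁻¹) (k c) = k (e c) := by simp [Perm.mul_apply]
      rw [h, hkc, hex] at h2
      exact h2.symm
    rw [key i hi, key j hj]

theorem I_conj {g : Perm X} (hg : g ∈ Λ) {i : Perm X} {b c : X} (hi : IsI Λ i b c) : IsI Λ (g * i * g⁻¹) (g b) (g c) := by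
  obtain ⟨h1, h2, h3⟩ := hi
  refine ⟨Λ.mul_mem (Λ.mul_mem hg h1) (Λ.inv_mem hg), ?_, ?_⟩
  · calc g * i * g⁻¹ * (g * i * g⁻¹) = g * (i * i) * g⁻¹ := by group
      _ = 1 := by rw [h2]; group
  · intro x
    have e : (g * i * g⁻¹) x = x ↔ i (g⁻¹ x) = g⁻¹ x := by
      rw [Perm.mul_apply, Perm.mul_apply, Perm.eq_inv_iff_eq]
    rw [e, h3, Perm.inv_eq_iff_eq, Perm.inv_eq_iff_eq]

/-- The involution attached to a pair `x, n x` swaps the fixed points of `n`. -/
theorem swap_facts (H : Hy Λ E) {a o x : X} (hxa : x ≠ a) (hxo : x ≠ o) {n g : Perm X} (hn : IsI Λ n a o)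
    (hg : IsI Λ g x (n x)) : g a = o ∧ g o = a := by
  have hnx : x ≠ n x := by
    intro e
    rcases (hn.2.2 x).1 e.symm with h | h
    · exact hxa h
    · exact hxo h
  have hna : n a = a := (hn.2.2 a).2 (Or.inl rfl)
  have hno : n o = o := (hn.2.2 o).2 (Or.inr rfl)
  have hnn : n (n x) = x := by
    have : (n * n) x = x := by rw [hn.2.1]; rfl
    exact this
  have hcj : n * g * n⁻¹ = g := by
    have h1 := I_conj hn.1 hg
    rw [hnn] at h1
    exact I_unique H hnx h1.symm hg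
  have hc : n * g = g * n := by
    calc n * g = n * g * n⁻¹ * n := by group
      _ = g * n := by rw [hcj]
  have hcx : ∀ y, n (g y) = g (n y) := by
    intro y
    have : (n * g) y = (g * n) y := by rw [hc]
    exact this
  have hanx : a ≠ x ∧ a ≠ n x := by
    refine ⟨hxa.symm, ?_⟩
    intro e
    apply hxa
    apply n.injective
    rw [hna, ← e]
  have honx : o ≠ x ∧ o ≠ n x := by
    refine ⟨hxo.symm, ?_⟩
    intro e
    apply hxo
    apply n.injective
    rw [hno, ← e]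
  have hga : g a ≠ a := by
    intro e
    rcases (hg.2.2 a).1 e with h | h
    · exact hanx.1 h
    · exact hanx.2 h
  have hgo : g o ≠ o := by
    intro e
    rcases (hg.2.2 o).1 e with h | h
    · exact honx.1 h
    · exact honx.2 h
  constructor
  · have h5 : n (g a) = g a := by rw [hcx, hna]
    rcases (hn.2.2 _).1 h5 with h | h
    · exact absurd h hga
    · exact h
  · have h5 : n (g o) = g o := by rw [hcx, hno]
    rcases (hn.2.2 _).1 h5 with h | h
    · exact h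
    · exact absurd h hgo

/-- The orbit of `o` with the point `a`. -/
def Om (V : Subgroup (Perm X)) (a o : X) : Set X := {x | x = a ∨ ∃ v ∈ V, v o = x}

theorem a_mem_Om (V : Subgroup (Perm X)) (a o : X) : a ∈ Om V a o := Or.inl rfl

theorem o_mem_Om (V : Subgroup (Perm X)) (a o : X) : o ∈ Om V a o := Or.inr ⟨1, V.one_mem, rfl⟩

section withV

variable [Finite X] (H : Hy Λ E) {a o : X} (hao : a ≠ o) {V : Subgroup (Perm X)} (hVE : V ≤ E a)
  (hVn : ∀ h ∈ Λ, h a = a → ∀ v ∈ V, h * v * h⁻¹ ∈ V)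

include H hVE hVn in
theorem om_H {h : Perm X} (hh : h ∈ Λ) (hha : h a = a) (hho : h o = o) : ∀ x ∈ Om V a o, h x ∈ Om V a o := by
  rintro x (rfl | ⟨v, hv, rfl⟩)
  · rw [hha]
    exact a_mem_Om V x o
  · right
    refine ⟨h * v * h⁻¹, hVn h hh hha v hv, ?_⟩
    have : (h * v * h⁻¹) (h o) = h (v o) := by simp [Perm.mul_apply]
    rwa [hho] at this

include H hVE in
theorem om_V {v : Perm X} (hv : v ∈ V) : ∀ x ∈ Om V a o, v x ∈ Om V a o := by
  rintro x (rfl | ⟨w, hw, rfl⟩)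
  · rw [H.hEfix _ v (hVE hv)]
    exact a_mem_Om V x o
  · right
    exact ⟨v * w, V.mul_mem hv hw, rfl⟩

include H hao hVE hVn in
theorem om_g {x : X} (hxa : x ≠ a) (hxo : x ≠ o) {n g : Perm X} (hn : IsI Λ n a o) (hg : IsI Λ g x (n x)) :
    ∀ y ∈ Om V a o, g y ∈ Om V a o := by
  obtain ⟨hga, hgo⟩ := swap_facts H hxa hxo hn hg
  rintro y (rfl | ⟨v, hv, rfl⟩)
  · rw [hga]
    exact o_mem_Om V y o
  · by_cases hy : v o = o
    · rw [hy, hgo]
      exact a_mem_Om V a o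
    · have hya : v o ≠ a := by
        intro e
        have h1 := H.hEfix _ v (hVE hv)
        rw [← h1] at e
        exact hao (v.injective e).symm
      have hne : v o ≠ n (v o) := by
        intro e
        rcases (hn.2.2 _).1 e.symm with h | h
        · exact hya h
        · exact hy h
      obtain ⟨g2, hg2⟩ := exists_I H hne
      obtain ⟨h2a, h2o⟩ := swap_facts H hya hy hn hg2
      have h1 : (g * g2) (v o) ∈ Om V a o := by
        apply om_H H hVE hVn (Λ.mul_mem hg.1 hg2.1)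
        · rw [Perm.mul_apply, h2a, hgo]
        · rw [Perm.mul_apply, h2o, hga]
        · exact Or.inr ⟨v, hv, rfl⟩
      rw [Perm.mul_apply, (hg2.2.2 _).2 (Or.inl rfl)] at h1
      exact h1

include H hao hVE hVn in
/-- The stabilizer of the block is 2-transitive on it. -/
theorem om_trans {x : X} (hxa : x ≠ a) (hxo : x ≠ o) {p q : X} (hp : p ∈ Om V a o) (hq : q ∈ Om V a o) (hpq : p ≠ q) :
    ∃ k ∈ Λ, (∀ y ∈ Om V a o, k y ∈ Om V a o) ∧ k a = p ∧ k o = q := by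
  have hΛ : ∀ {v}, v ∈ V → v ∈ Λ := fun h => H.hEΛ a (hVE h)
  have hfix : ∀ {v}, v ∈ V → v a = a := fun {v} h => H.hEfix a v (hVE h)
  rcases hp with rfl | ⟨v, hv, rfl⟩
  · rcases hq with rfl | ⟨w, hw, rfl⟩
    · exact absurd rfl hpq
    · exact ⟨w, hΛ hw, om_V H hVE hw, hfix hw, rfl⟩
  · obtain ⟨n, hn⟩ := exists_I H hao
    have hne : x ≠ n x := by
      intro e
      rcases (hn.2.2 _).1 e.symm with h | h
      · exact hxa h
      · exact hxo h
    obtain ⟨g, hg⟩ := exists_I H hne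
    obtain ⟨hga, hgo⟩ := swap_facts H hxa hxo hn hg
    have hgm := om_g H hao hVE hVn hxa hxo hn hg
    have hk1 : ∀ y ∈ Om V a o, (v * g) y ∈ Om V a o := fun y hy => om_V H hVE hv _ (hgm y hy)
    have hk1a : (v * g) a = v o := by rw [Perm.mul_apply, hga]
    have hq1 : (v * g)⁻¹ q ∈ Om V a o := maps_inv hk1 q hq
    have hq2 : (v * g)⁻¹ q ≠ a := by
      intro e
      rw [Perm.inv_eq_iff_eq] at e
      rw [e, hk1a] at hpq
      exact hpq rfl
    rcases hq1 with e | ⟨w, hw, e⟩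
    · exact absurd e hq2
    · refine ⟨(v * g) * w, Λ.mul_mem (Λ.mul_mem (hΛ hv) hg.1) (hΛ hw), fun y hy => hk1 _ (om_V H hVE hw y hy), ?_, ?_⟩
      · rw [Perm.mul_apply, hfix hw, hk1a]
      · rw [Perm.mul_apply, e]
        simp

include H hao hVE hVn in
theorem om_Q {x : X} (hxa : x ≠ a) (hxo : x ≠ o) {g : Perm X} (hg : g ∈ Λ) (h1 : g⁻¹ a ∈ Om V a o) (h2 : g⁻¹ o ∈ Om V a o) :
    ∀ y, g⁻¹ y ∈ Om V a o ↔ y ∈ Om V a o := by
  have hne : g⁻¹ a ≠ g⁻¹ o := fun e => hao (g⁻¹.injective e)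
  obtain ⟨k, hk, hkm, hka, hko⟩ := om_trans H hao hVE hVn hxa hxo h1 h2 hne
  have hmaps : ∀ y ∈ Om V a o, g y ∈ Om V a o := by
    intro y hy
    have hy' : k⁻¹ y ∈ Om V a o := maps_inv hkm y hy
    have h3 : (g * k) (k⁻¹ y) ∈ Om V a o := by
      apply om_H H hVE hVn (Λ.mul_mem hg hk)
      · rw [Perm.mul_apply, hka]
        simp
      · rw [Perm.mul_apply, hko]
        simp
      · exact hy'
    simpa [Perm.mul_apply] using h3
  intro y
  constructor
  · intro h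
    have := hmaps _ h
    simpa using this
  · exact maps_inv hmaps y

include H hao in
/-- `Λ` is transitive on ordered pairs. -/
theorem two_trans {x : X} (hxa : x ≠ a) (hxo : x ≠ o) {b c : X} (hbc : b ≠ c) : ∃ t ∈ Λ, t b = a ∧ t c = o := by
  have h1 : ∃ t ∈ Λ, t b = a := by
    by_cases hb : b = a
    · exact ⟨1, Λ.one_mem, hb⟩
    · obtain ⟨d, hd1, hd2⟩ : ∃ d, b ≠ d ∧ a ≠ d := by
        by_cases hbo : b = o
        · exact ⟨x, fun e => hxo (e.symm.trans hbo), hxa.symm⟩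
        · exact ⟨o, hbo, hao⟩
      obtain ⟨e, ⟨he, he2⟩, -⟩ := H.hEreg d b a hd1 hd2
      exact ⟨e, H.hEΛ d he, he2⟩
  obtain ⟨t, ht, htb⟩ := h1
  have hc1 : t c ≠ a := by
    intro e
    rw [← htb] at e
    exact hbc (t.injective e).symm
  obtain ⟨e, ⟨he, he2⟩, -⟩ := H.hEreg a (t c) o hc1 hao.symm
  refine ⟨e * t, Λ.mul_mem (H.hEΛ a he) ht, ?_, ?_⟩
  · rw [Perm.mul_apply, htb, H.hEfix a e he]
  · rw [Perm.mul_apply, he2]

include H hao hVE hVn in
/-- Two blocks with two common points are equal. -/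
theorem om_P {x : X} (hxa : x ≠ a) (hxo : x ≠ o) {g₁ g₂ : Perm X} (h₁ : g₁ ∈ Λ) (h₂ : g₂ ∈ Λ) {b c : X} (hbc : b ≠ c)
    (h1b : g₁⁻¹ b ∈ Om V a o) (h1c : g₁⁻¹ c ∈ Om V a o) (h2b : g₂⁻¹ b ∈ Om V a o) (h2c : g₂⁻¹ c ∈ Om V a o) :
    ∀ y, g₁⁻¹ y ∈ Om V a o ↔ g₂⁻¹ y ∈ Om V a o := by
  obtain ⟨t, ht, htb, htc⟩ := two_trans H hao hxa hxo hbc
  have key : ∀ g ∈ Λ, g⁻¹ b ∈ Om V a o → g⁻¹ c ∈ Om V a o → ∀ y, g⁻¹ y ∈ Om V a o ↔ t y ∈ Om V a o := by
    intro g hg hb hc y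
    have h3 := om_Q H hao hVE hVn hxa hxo (Λ.mul_mem ht hg) (g := t * g)
      (by rw [mul_inv_rev, Perm.mul_apply, Perm.inv_eq_iff_eq.2 htb.symm]; exact hb)
      (by rw [mul_inv_rev, Perm.mul_apply, Perm.inv_eq_iff_eq.2 htc.symm]; exact hc) (t y)
    rw [mul_inv_rev, Perm.mul_apply] at h3
    simpa using h3
  intro y
  rw [key g₁ h₁ h1b h1c y, key g₂ h₂ h2b h2c y]

include H hao hVE hVn in
/-- The count. -/
theorem count {z : X} (hz : z ∉ Om V a o) : (Nat.card V + 1) * Nat.card V ≤ Nat.card (E a) := by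
  classical
  have hza : z ≠ a := fun e => hz (e ▸ a_mem_Om V a o)
  have hzo : z ≠ o := fun e => hz (e ▸ o_mem_Om V a o)
  obtain ⟨g, hg, hgz, -⟩ := two_trans H hao hza hzo (b := z) (c := a) hza
  have hu : ∀ y : X, y ≠ a → ∃ e : ↥(E a), e.1 o = y := by
    intro y hy
    obtain ⟨e, ⟨he, he2⟩, -⟩ := H.hEreg a o y hao.symm hy
    exact ⟨⟨e, he⟩, he2⟩
  choose! u hu using hu
  let ω : Option V → X := fun c => c.elim a (fun v => v.1 o)
  have hωm : ∀ c, ω c ∈ Om V a o := by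
    rintro (_ | v)
    · exact a_mem_Om V a o
    · exact Or.inr ⟨v.1, v.2, rfl⟩
  have hωinj : Function.Injective ω := by
    have hn : ∀ v : V, v.1 o ≠ a := by
      intro v e
      have h1 := H.hEfix _ v.1 (hVE v.2)
      rw [← h1] at e
      exact hao (v.1.injective e).symm
    rintro (_ | v) (_ | w) e
    · rfl
    · exact absurd e.symm (hn w)
    · exact absurd e (hn v)
    · congr 1
      obtain ⟨f, -, hf⟩ := H.hEreg a o (v.1 o) hao.symm (hn v)
      apply Subtype.ext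
      rw [hf v.1 ⟨hVE v.2, rfl⟩, hf w.1 ⟨hVE w.2, e.symm⟩]
  have hgω : ∀ c, g (ω c) ≠ a := by
    intro c e
    rw [← hgz] at e
    have := g.injective e
    exact hz (this ▸ hωm c)
  let V' : Subgroup ↥(E a) := V.subgroupOf (E a)
  let m : Option V → ↥(E a) ⧸ V' := fun c => ((u (g (ω c)) : ↥(E a)) : ↥(E a) ⧸ V')
  have hinj : Function.Injective m := by
    intro c₁ c₂ e
    by_contra hne
    have hne2 : g (ω c₁) ≠ g (ω c₂) := fun e2 => hne (hωinj (g.injective e2))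
    have hv : ((u (g (ω c₁)))⁻¹ * u (g (ω c₂)) : ↥(E a)) ∈ V' := QuotientGroup.eq.1 e
    have hv2 : (u (g (ω c₁))).1⁻¹ * (u (g (ω c₂))).1 ∈ V := hv
    set u₁ := (u (g (ω c₁))).1 with hu₁
    set u₂ := (u (g (ω c₂))).1 with hu₂
    have hu₁m : u₁ ∈ E a := (u (g (ω c₁))).2
    have e1 : u₁ o = g (ω c₁) := hu _ (hgω c₁)
    have e2 : u₂ o = g (ω c₂) := hu _ (hgω c₂)
    have h4 := om_P H hao hVE hVn hza hzo (g₁ := g) (g₂ := u₁) hg (H.hEΛ a hu₁m) hne2
      (by simpa using hωm c₁) (by simpa using hωm c₂)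
      (by rw [← e1]; simpa using o_mem_Om V a o)
      (by
        rw [← e2]
        exact Or.inr ⟨u₁⁻¹ * u₂, hv2, rfl⟩) a
    have h5 : u₁⁻¹ a ∈ Om V a o := by
      left
      rw [Perm.inv_eq_iff_eq, H.hEfix a u₁ hu₁m]
    have h6 := h4.2 h5
    have h7 : g⁻¹ a = z := by
      rw [Perm.inv_eq_iff_eq, hgz]
    rw [h7] at h6
    exact hz h6
  have hle : Nat.card (Option V) ≤ Nat.card (↥(E a) ⧸ V') := Nat.card_le_card_of_injective m hinj
  rw [Finite.card_option] at hle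
  have hidx : Nat.card V' * V'.index = Nat.card (E a) := V'.card_mul_index
  have hV' : Nat.card V' = Nat.card V := Nat.card_congr (Subgroup.subgroupOfEquivOfLe hVE).toEquiv
  have hle2 : Nat.card V + 1 ≤ V'.index := hle
  rw [← hidx, hV', mul_comm (Nat.card V) V'.index]
  exact Nat.mul_le_mul_right _ hle2

end withV

/-- The elements killed by `m` in an abelian subgroup. -/
def tors (U : Subgroup (Perm X)) (hU : ∀ e ∈ U, ∀ f ∈ U, e * f = f * e) (m : ℕ) : Subgroup (Perm X) where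
  carrier := {u | u ∈ U ∧ u ^ m = 1}
  mul_mem' := fun {a b} ha hb => ⟨U.mul_mem ha.1 hb.1, by
    rw [(show Commute a b from hU a ha.1 b hb.1).mul_pow, ha.2, hb.2, one_mul]⟩
  one_mem' := ⟨U.one_mem, one_pow _⟩
  inv_mem' := fun {a} ha => ⟨U.inv_mem ha.1, by rw [inv_pow, ha.2, inv_one]⟩

theorem mem_tors {U : Subgroup (Perm X)} {hU : ∀ e ∈ U, ∀ f ∈ U, e * f = f * e} {m : ℕ} {u : Perm X} :
    u ∈ tors U hU m ↔ u ∈ U ∧ u ^ m = 1 := Iff.rfl

/-- The bound for the part killed by `m`. -/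
theorem tors_count [Finite X] (H : Hy Λ E) {a o : X} (hao : a ≠ o) (m : ℕ) {w : ↥(E a)} (hw : w.1 ^ m ≠ 1) :
    (Nat.card (tors (E a) (H.hEab a) m) + 1) * Nat.card (tors (E a) (H.hEab a) m) ≤ Nat.card (E a) := by
  have hVE : tors (E a) (H.hEab a) m ≤ E a := fun _ h => h.1
  have hVn : ∀ h ∈ Λ, h a = a → ∀ v ∈ tors (E a) (H.hEab a) m, h * v * h⁻¹ ∈ tors (E a) (H.hEab a) m := by
    intro h hh hha v hv
    refine ⟨?_, ?_⟩
    · have := H.hEconj h hh a v hv.1
      rwa [hha] at this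
    · rw [conj_pow, hv.2]
      group
  refine count H hao hVE hVn (z := w.1 o) ?_
  rintro (e | ⟨v, hv, e⟩)
  · have h1 := H.hEfix a w.1 w.2
    exact hao (w.1.injective (e.trans h1.symm)).symm
  · have hne : w.1 o ≠ a := by
      intro e
      have h1 := H.hEfix a w.1 w.2
      exact hao (w.1.injective (e.trans h1.symm)).symm
    obtain ⟨f, -, hf⟩ := H.hEreg a o (w.1 o) hao.symm hne
    have : v = w.1 := by
      rw [hf v ⟨hv.1, e⟩, hf w.1 ⟨w.2, rfl⟩]
    rw [← this] at hw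
    exact hw hv.2

/-- The two parts span. -/
theorem tors_span [Finite X] (H : Hy Λ E) {a : X} {m m' : ℕ} (hc : Nat.Coprime m m') (hmm : m * m' = Nat.card (E a)) :
    Nat.card (E a) ≤ Nat.card (tors (E a) (H.hEab a) m) * Nat.card (tors (E a) (H.hEab a) m') := by
  rw [← Nat.card_prod]
  have hcomm : ∀ x y : Perm X, x ∈ E a → y ∈ E a → x * y = y * x := fun x y hx hy => H.hEab a x hx y hy
  let f : ↥(tors (E a) (H.hEab a) m) × ↥(tors (E a) (H.hEab a) m') → ↥(E a) :=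
    fun p => ⟨p.1.1 * p.2.1, (E a).mul_mem p.1.2.1 p.2.2.1⟩
  refine Nat.card_le_card_of_surjective f ?_
  rintro ⟨u, hu⟩
  have hup : u ^ (m * m') = 1 := by
    rw [hmm]
    have := pow_card_eq_one' (x := (⟨u, hu⟩ : ↥(E a)))
    exact congrArg Subtype.val this
  have hg : ((Nat.gcd m m' : ℕ) : ℤ) = m * Nat.gcdA m m' + m' * Nat.gcdB m m' := Nat.gcd_eq_gcd_ab m m'
  rw [hc] at hg
  have hzu : u ^ ((m : ℤ) * (m' : ℤ)) = 1 := by
    have : ((m : ℤ) * (m' : ℤ)) = ((m * m' : ℕ) : ℤ) := by push_cast; ring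
    rw [this, zpow_natCast, hup]
  let v : Perm X := u ^ ((m' : ℤ) * Nat.gcdB m m')
  let w : Perm X := u ^ ((m : ℤ) * Nat.gcdA m m')
  have hv : v ∈ tors (E a) (H.hEab a) m := by
    refine ⟨(E a).zpow_mem hu _, ?_⟩
    show (u ^ ((m' : ℤ) * Nat.gcdB m m')) ^ m = 1
    rw [← zpow_natCast, ← zpow_mul]
    have : (m' : ℤ) * Nat.gcdB m m' * (m : ℤ) = ((m : ℤ) * (m' : ℤ)) * Nat.gcdB m m' := by ring
    rw [this, zpow_mul, hzu, one_zpow]
  have hw : w ∈ tors (E a) (H.hEab a) m' := by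
    refine ⟨(E a).zpow_mem hu _, ?_⟩
    show (u ^ ((m : ℤ) * Nat.gcdA m m')) ^ m' = 1
    rw [← zpow_natCast, ← zpow_mul]
    have : (m : ℤ) * Nat.gcdA m m' * (m' : ℤ) = ((m : ℤ) * (m' : ℤ)) * Nat.gcdA m m' := by ring
    rw [this, zpow_mul, hzu, one_zpow]
  refine ⟨(⟨v, hv⟩, ⟨w, hw⟩), Subtype.ext ?_⟩
  show v * w = u
  show u ^ ((m' : ℤ) * Nat.gcdB m m') * u ^ ((m : ℤ) * Nat.gcdA m m') = u
  rw [← zpow_add]
  have : (m' : ℤ) * Nat.gcdB m m' + (m : ℤ) * Nat.gcdA m m' = 1 := by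
    have h1 : ((1 : ℕ) : ℤ) = 1 := rfl
    rw [h1] at hg
    linarith
  rw [this, zpow_one]

end LemmaMAux

open LemmaMAux in
/-- [M9f] LEMMA M. `X` finite with `|X| - 1 = μ` odd, `Λ ≤ Sym X`; `E b ≤ Λ` fixes `b`, abelian, regular on `X \ {b}`,
`g (E b) g⁻¹ = E (g b)` for `g ∈ Λ`; for all `b ≠ c` there is an involution in `Λ` with fixed set exactly `{b, c}`.
Then `μ` is a prime power (or `μ = 1`). -/
theorem lemmaM {X : Type*} [Finite X] (Λ : Subgroup (Equiv.Perm X)) (E : X → Subgroup (Equiv.Perm X))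
    (hodd : Odd (Nat.card X - 1)) (hcard : 2 ≤ Nat.card X)
    (hEΛ : ∀ b, E b ≤ Λ) (hEfix : ∀ b, ∀ e ∈ E b, e b = b)
    (hEab : ∀ b, ∀ e ∈ E b, ∀ f ∈ E b, e * f = f * e)
    (hEreg : ∀ b x y, x ≠ b → y ≠ b → ∃! e : Equiv.Perm X, e ∈ E b ∧ e x = y)
    (hEconj : ∀ g ∈ Λ, ∀ b, ∀ e ∈ E b, g * e * g⁻¹ ∈ E (g b))
    (hinv : ∀ b c, b ≠ c → ∃ i ∈ Λ, i * i = 1 ∧ i ≠ 1 ∧ ∀ x, i x = x ↔ x = b ∨ x = c) :
    IsPrimePow (Nat.card X - 1) ∨ Nat.card X - 1 = 1 := by
  classical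
  have H : Hy Λ E := ⟨hEΛ, hEfix, hEab, hEreg, hEconj, hinv⟩
  by_contra hcon
  rw [not_or] at hcon
  obtain ⟨hpp, hne1⟩ := hcon
  haveI : Nontrivial X := Finite.one_lt_card_iff_nontrivial.1 (by omega)
  obtain ⟨a, o, hao⟩ := exists_pair_ne X
  set μ := Nat.card X - 1 with hμ
  have hμ1 : 1 < μ := by omega
  -- the order of `E a`
  have hcardE : Nat.card (E a) = μ := by
    have h1 : Nat.card (Option {x : X // x ≠ a}) = Nat.card X := Nat.card_congr (Equiv.optionSubtypeNe a)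
    rw [Finite.card_option] at h1
    have h2 : Nat.card (E a) = Nat.card {x : X // x ≠ a} := by
      refine Nat.card_congr (Equiv.ofBijective (fun e : ↥(E a) => (⟨e.1 o, ?_⟩ : {x : X // x ≠ a})) ⟨?_, ?_⟩)
      · intro h
        have h3 := hEfix a e.1 e.2
        exact hao (e.1.injective (h.trans h3.symm)).symm
      · intro e f h
        have h3 : e.1 o = f.1 o := congrArg Subtype.val h
        have hne : e.1 o ≠ a := by
          intro h
          have h4 := hEfix a e.1 e.2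
          exact hao (e.1.injective (h.trans h4.symm)).symm
        obtain ⟨g, -, hg⟩ := hEreg a o (e.1 o) hao.symm hne
        apply Subtype.ext
        rw [hg e.1 ⟨e.2, rfl⟩, hg f.1 ⟨f.2, h3.symm⟩]
      · rintro ⟨y, hy⟩
        obtain ⟨g, ⟨hg, hg2⟩, -⟩ := hEreg a o y hao.symm hy
        exact ⟨⟨g, hg⟩, Subtype.ext hg2⟩
    rw [h2]
    omega
  -- the factorization
  have hμ0 : μ ≠ 0 := by omega
  set p := μ.minFac with hp
  have hpp' : p.Prime := Nat.minFac_prime (by omega)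
  have hpd : p ∣ μ := Nat.minFac_dvd μ
  set m := p ^ (μ.factorization p) with hm
  set m' := μ / m with hm'
  have hmm : m * m' = μ := Nat.ordProj_mul_ordCompl_eq_self μ p
  have hk : μ.factorization p ≠ 0 := by
    have := (hpp'.dvd_iff_one_le_factorization hμ0).1 hpd
    omega
  have hcop : Nat.Coprime p m' := Nat.coprime_ordCompl hpp' hμ0
  have hc : Nat.Coprime m m' := Nat.Coprime.pow_left _ hcop
  have hm'1 : m' ≠ 1 := by
    intro e
    apply hpp
    rw [← hmm, e, mul_one]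
    exact (hpp'.isPrimePow).pow hk
  -- an element in `E a` not killed by `m'`, and one not killed by `m`
  have hm'0 : m' ≠ 0 := by
    intro e
    rw [e, mul_zero] at hmm
    omega
  obtain ⟨q, hq, hqd⟩ := Nat.exists_prime_and_dvd hm'1
  haveI : Fact p.Prime := ⟨hpp'⟩
  haveI : Fact q.Prime := ⟨hq⟩
  have hpE : p ∣ Nat.card (E a) := by rw [hcardE]; exact hpd
  have hqE : q ∣ Nat.card (E a) := by
    rw [hcardE, ← hmm]
    exact Dvd.dvd.mul_left hqd _
  obtain ⟨w₁, hw₁⟩ := exists_prime_orderOf_dvd_card' p hpE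
  obtain ⟨w₂, hw₂⟩ := exists_prime_orderOf_dvd_card' q hqE
  have hw₁' : orderOf w₁.1 = p := by rw [Subgroup.orderOf_coe]; exact hw₁
  have hw₂' : orderOf w₂.1 = q := by rw [Subgroup.orderOf_coe]; exact hw₂
  have h1 : w₁.1 ^ m' ≠ 1 := by
    intro e
    have h2 := orderOf_dvd_of_pow_eq_one e
    rw [hw₁'] at h2
    have := Nat.Coprime.eq_one_of_dvd hcop h2
    exact hpp'.one_lt.ne' this
  have h2 : w₂.1 ^ m ≠ 1 := by
    intro e
    have h3 := orderOf_dvd_of_pow_eq_one e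
    rw [hw₂'] at h3
    have hc2 : Nat.Coprime q m := (Nat.Coprime.coprime_dvd_left hqd hc.symm)
    have := Nat.Coprime.eq_one_of_dvd hc2 h3
    exact hq.one_lt.ne' this
  have c1 := tors_count H hao m h2
  have c2 := tors_count H hao m' h1
  have c3 := tors_span H (a := a) hc (by rw [hmm, hcardE])
  rw [hcardE] at c1 c2 c3
  generalize Nat.card (tors (E a) (H.hEab a) m) = A at c1 c3
  generalize Nat.card (tors (E a) (H.hEab a) m') = B at c2 c3
  rcases Nat.lt_or_ge A B with h | h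
  · nlinarith
  · nlinarith

end Cfsg.Agent.Lib.OW
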