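import Cfsg.Agent.Lib.OW.HDefs
import Cfsg.Agent.Lib.OW.LemmaM

/-! [H5] From two full points on a line to Lemma M. See forum 'S3732 notes'. -/

set_option autoImplicit false

namespace Cfsg.Agent.Lib.OW
namespace H5Aux

open Configuration

variable {B BL : Type*} [Membership B BL] [Fintype B] [Fintype BL] [ProjectivePlane B BL]

theorem conj_persp (g e : Coll B BL) {c : B} {A : BL} (h : IsPersp e c A) :
    IsPersp (g * e * g⁻¹) (g.pt c) (g.ln A) := by
  constructor
  · intro p hp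
    have hq : g⁻¹.pt p ∈ A := (g.inc _ _).1 (by simpa using hp)
    have h1 := h.1 _ hq
    show g.pt (e.pt (g⁻¹.pt p)) = p
    rw [h1]
    simp
  · intro m hm
    have hq : c ∈ g⁻¹.ln m := (g.inc _ _).1 (by simpa using hm)
    have h1 := h.2 _ hq
    show g.ln (e.ln (g⁻¹.ln m)) = m
    rw [h1]
    simp

/-- A fixed point off the axis is a centre. -/
theorem centre_of_fix (k : Coll B BL) {A : BL} (hA : ∀ p, p ∈ A → k.pt p = p) {x : B} (hx : x ∉ A) (hfx : k.pt x = x) :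
    ∀ m : BL, x ∈ m → k.ln m = m := by
  intro m hm
  have hne : m ≠ A := fun e => hx (e ▸ hm)
  obtain ⟨h1, h2⟩ := HasPoints.mkPoint_ax (P := B) hne
  set q : B := HasPoints.mkPoint hne
  have h3 : x ∈ k.ln m := by
    have := (k.inc x m).2 hm
    rwa [hfx] at this
  have h4 : q ∈ k.ln m := by
    have := (k.inc q m).2 h1
    rwa [hA q h2] at this
  rcases Nondegenerate.eq_or_eq h3 h4 hm h1 with e | e
  · exact absurd (e ▸ h2) hx
  · exact e

theorem fix_on_axis {k : Coll B BL} (hk : k ≠ 1) {c : B} {A : BL} (hp : IsPersp k c A) {x : B} (hfx : k.pt x = x) :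
    x ∈ A ∨ x = c := by
  by_cases hx : x ∈ A
  · exact Or.inl hx
  · right
    have h2 : IsPersp k x A := ⟨hp.1, centre_of_fix k hp.1 hx hfx⟩
    exact (persp_unique k hk h2 hp).1

/-- The centre is fixed. -/
theorem centre_fix {g : Coll B BL} {c : B} {A : BL} (h : IsPersp g c A) : g.pt c = c := by
  have h1 : Nat.card {m : BL // c ∈ m} = ProjectivePlane.order B BL + 1 := ProjectivePlane.lineCount_eq (L := BL) c
  have h2 := ProjectivePlane.one_lt_order B BL
  haveI : Nontrivial {m : BL // c ∈ m} := Finite.one_lt_card_iff_nontrivial.1 (by omega)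
  obtain ⟨⟨m₁, hm₁⟩, ⟨m₂, hm₂⟩, hne⟩ := exists_pair_ne {m : BL // c ∈ m}
  have e1 : g.pt c ∈ m₁ := by
    have := (g.inc c m₁).2 hm₁
    rwa [h.2 m₁ hm₁] at this
  have e2 : g.pt c ∈ m₂ := by
    have := (g.inc c m₂).2 hm₂
    rwa [h.2 m₂ hm₂] at this
  rcases Nondegenerate.eq_or_eq e1 hm₁ e2 hm₂ with e | e
  · exact e
  · exact absurd (Subtype.ext e) hne

theorem conj_arrow {H : Subgroup (Coll B BL)} {g : Coll B BL} (hg : g ∈ H) {a x : B} (h : Arrow H a x) :
    Arrow H (g.pt a) (g.pt x) := by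
  obtain ⟨h', A, ⟨h1, h2, h3⟩, hxA⟩ := h
  refine ⟨g * h' * g⁻¹, g.ln A, ⟨H.mul_mem (H.mul_mem hg h1) (H.inv_mem hg), ?_, ?_, ?_, conj_persp g h' h3.2.2⟩,
    (g.inc _ _).2 hxA⟩
  · have := MulEquiv.orderOf_eq (MulAut.conj g) h'
    rw [MulAut.conj_apply] at this
    rw [this, h2]
  · intro e
    exact h3.1 (conj_eq_one_iff.1 e)
  · exact fun e => h3.2.1 ((g.inc _ _).1 e)

theorem mem_EE {H : Subgroup (Coll B BL)} {a : B} {g : Coll B BL} :
    g ∈ EE H a ↔ g ∈ H ∧ (g = 1 ∨ ∃ A : BL, IsElation g a A) := Iff.rfl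

theorem EE_line {H : Subgroup (Coll B BL)} {a : B} {g : Coll B BL} (hg : g ∈ EE H a) {l : BL} (hl : a ∈ l) : g.ln l = l := by
  rcases hg.2 with rfl | ⟨A, h⟩
  · rfl
  · exact h.2.2.2 l hl

theorem EE_fix {H : Subgroup (Coll B BL)} {a : B} {g : Coll B BL} (hg : g ∈ EE H a) : g.pt a = a := by
  rcases hg.2 with rfl | ⟨A, h⟩
  · rfl
  · exact h.2.2.1 a h.2.1

theorem conj_EE {H : Subgroup (Coll B BL)} {a : B} {g e : Coll B BL} (hg : g ∈ H) (he : e ∈ EE H a) :
    g * e * g⁻¹ ∈ EE H (g.pt a) := by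
  refine ⟨H.mul_mem (H.mul_mem hg he.1) (H.inv_mem hg), ?_⟩
  rcases he.2 with rfl | ⟨A, h⟩
  · left
    group
  · right
    refine ⟨g.ln A, ?_, (g.inc _ _).2 h.2.1, conj_persp g e h.2.2⟩
    intro e1
    exact h.1 (conj_eq_one_iff.1 e1)

/-- All points of the line are full. -/
theorem full_all {H : Subgroup (Coll B BL)} (hH : HHyp H) {l : BL} {a a' : B} (haa : a ≠ a')
    (ha : a ∈ l) (ha' : a' ∈ l) (hf : ∀ x : B, x ∈ l → x ≠ a → Arrow H a x)
    (hf' : ∀ x : B, x ∈ l → x ≠ a' → Arrow H a' x) : ∀ b ∈ l, ∀ x ∈ l, x ≠ b → Arrow H b x := by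
  intro b hb x hx hxb
  by_cases hba : b = a
  · subst hba
    exact hf x hx hxb
  · obtain ⟨e, he, hea⟩ := full_trans hH ha hf a' b ha' hb haa.symm hba
    have hel := EE_line he ha
    have hx' : e⁻¹.pt x ∈ l := by
      have h1 := e.inc (e⁻¹.pt x) l
      rw [hel] at h1
      exact h1.1 (by simpa using hx)
    have hne : e⁻¹.pt x ≠ a' := by
      intro h1
      apply hxb
      rw [← hea, ← h1]
      simp
    have h2 := conj_arrow he.1 (hf' _ hx' hne)
    rw [hea] at h2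
    simpa using h2

/-- The permutations of a line induced by a subgroup stabilizing it. -/
def resSub (S : Subgroup (Coll B BL)) (l : BL) : Subgroup (Equiv.Perm {x : B // x ∈ l}) where
  carrier := {π | ∃ g ∈ S, g.ln l = l ∧ ∀ x : {x : B // x ∈ l}, (π x).1 = g.pt x.1}
  one_mem' := ⟨1, S.one_mem, rfl, fun _ => rfl⟩
  mul_mem' := by
    rintro π π' ⟨g, hg, hgl, hgπ⟩ ⟨g', hg', hgl', hgπ'⟩
    refine ⟨g * g', S.mul_mem hg hg', ?_, ?_⟩
    · show g.ln (g'.ln l) = l
      rw [hgl', hgl]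
    · intro x
      show (π (π' x)).1 = g.pt (g'.pt x.1)
      rw [hgπ, hgπ']
  inv_mem' := by
    rintro π ⟨g, hg, hgl, hgπ⟩
    refine ⟨g⁻¹, S.inv_mem hg, ?_, ?_⟩
    · show g.ln⁻¹ l = l
      rw [Equiv.Perm.inv_eq_iff_eq, hgl]
    · intro x
      show (π⁻¹ x).1 = g.pt⁻¹ x.1
      rw [Equiv.Perm.eq_inv_iff_eq, ← hgπ]
      simp

theorem exists_res (g : Coll B BL) {l : BL} (hg : g.ln l = l) :
    ∃ π : Equiv.Perm {x : B // x ∈ l}, ∀ x, (π x).1 = g.pt x.1 := by
  have h : ∀ x, g.pt x ∈ l ↔ x ∈ l := by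
    intro x
    have := g.inc x l
    rwa [hg] at this
  exact ⟨Equiv.Perm.subtypePerm g.pt h, fun x => rfl⟩

/-- The main step. -/
theorem main {H : Subgroup (Coll B BL)} (hH : HHyp H) (l : BL)
    (hfull : ∀ b ∈ l, ∀ x ∈ l, x ≠ b → Arrow H b x) :
    IsPrimePow (ProjectivePlane.order B BL) ∨ ProjectivePlane.order B BL = 1 := by
  classical
  have hc : Nat.card {x : B // x ∈ l} = ProjectivePlane.order B BL + 1 := ProjectivePlane.pointCount_eq B l
  have hord := ProjectivePlane.one_lt_order B BL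
  -- a third point
  have hthird : ∀ b c : {x : B // x ∈ l}, ∃ x, x ≠ b ∧ x ≠ c := by
    intro b c
    by_contra hcon
    push Not at hcon
    have h1 : Function.Surjective (fun t : Bool => if t then b else c) := by
      intro x
      by_cases hx : x = b
      · exact ⟨true, by simp [hx]⟩
      · exact ⟨false, by simp [hcon x hx]⟩
    have h2 := Nat.card_le_card_of_surjective _ h1
    rw [Nat.card_eq_fintype_card (α := Bool), Fintype.card_bool] at h2
    omega
  have hlem := lemmaM (resSub H l) (fun b : {x : B // x ∈ l} => resSub (EE H b.1) l)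
    (by rw [hc, Nat.add_sub_cancel]; exact hH.hodd) (by omega)
    ?_ ?_ ?_ ?_ ?_ ?_
  · rwa [hc, Nat.add_sub_cancel] at hlem
  · -- `E b ≤ Λ`
    rintro b π ⟨g, hg, hgl, hgπ⟩
    exact ⟨g, hg.1, hgl, hgπ⟩
  · -- fixes `b`
    rintro b π ⟨g, hg, hgl, hgπ⟩
    apply Subtype.ext
    rw [hgπ]
    exact EE_fix hg
  · -- abelian
    rintro b π ⟨g, hg, hgl, hgπ⟩ π' ⟨g', hg', hgl', hgπ'⟩
    obtain ⟨x, hxb, -⟩ := hthird b b
    have hxb' : x.1 ≠ b.1 := fun e => hxb (Subtype.ext e)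
    obtain ⟨h, A, hh, -⟩ := hfull b.1 b.2 x.1 x.2 hxb'
    have hinv := (EE_inverted hH hh).1
    have h1 := hinv g hg
    have h2 := hinv g' hg'
    have h3 := hinv (g * g') ((EE H b.1).mul_mem hg hg')
    have h4 : h * (g * g') * h⁻¹ = (h * g * h⁻¹) * (h * g' * h⁻¹) := by group
    rw [h4, h1, h2, mul_inv_rev] at h3
    have h5 : g * g' = g' * g := by
      apply inv_injective
      rw [mul_inv_rev, mul_inv_rev]
      exact h3.symm
    ext x
    show ((π (π' x)).1 : B) = (π' (π x)).1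
    rw [hgπ, hgπ', hgπ', hgπ]
    have h6 := congrArg (fun k : Coll B BL => k.pt x.1) h5
    exact h6
  · -- regular
    intro b x y hx hy
    have hxb : x.1 ≠ b.1 := fun e => hx (Subtype.ext e)
    have hyb : y.1 ≠ b.1 := fun e => hy (Subtype.ext e)
    obtain ⟨e, he, hexy⟩ := full_trans hH b.2 (hfull b.1 b.2) x.1 y.1 x.2 y.2 hxb hyb
    have hel := EE_line he b.2
    obtain ⟨π, hπ⟩ := exists_res e hel
    refine ⟨π, ⟨⟨e, he, hel, hπ⟩, Subtype.ext ((hπ x).trans hexy)⟩, ?_⟩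
    rintro π' ⟨⟨g', hg', hgl', hgπ'⟩, hπ'x⟩
    -- `k = e⁻¹ g'` fixes `x`
    have hk : e⁻¹ * g' ∈ EE H b.1 := (EE H b.1).mul_mem ((EE H b.1).inv_mem he) hg'
    have hfx : (e⁻¹ * g').pt x.1 = x.1 := by
      show e⁻¹.pt (g'.pt x.1) = x.1
      rw [← hgπ', hπ'x, ← hexy]
      simp
    have htriv : ∀ z : {x : B // x ∈ l}, (e⁻¹ * g').pt z.1 = z.1 := by
      rcases hk.2 with h1 | ⟨A, h1⟩
      · intro z
        rw [h1]
        rfl
      · rcases fix_on_axis h1.1 h1.2.2 hfx with h2 | h2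
        · have h3 : A = l := by
            rcases Nondegenerate.eq_or_eq h1.2.1 h2 b.2 x.2 with e3 | e3
            · exact absurd e3.symm hxb
            · exact e3
          intro z
          exact h1.2.2.1 z.1 (h3 ▸ z.2)
        · exact absurd h2 hxb
    ext z
    rw [hgπ', hπ]
    have h2 := htriv z
    have h3 : e.pt ((e⁻¹ * g').pt z.1) = e.pt z.1 := by rw [h2]
    have h4 : e.pt ((e⁻¹ * g').pt z.1) = g'.pt z.1 := by
      show e.pt (e⁻¹.pt (g'.pt z.1)) = g'.pt z.1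
      simp
    rw [← h4, h3]
  · -- equivariant
    rintro π ⟨g, hg, hgl, hgπ⟩ b π' ⟨e, he, hel, heπ⟩
    have hinvπ : ∀ x : {x : B // x ∈ l}, (π⁻¹ x).1 = g⁻¹.pt x.1 := by
      intro x
      show (π⁻¹ x).1 = g.pt⁻¹ x.1
      rw [Equiv.Perm.eq_inv_iff_eq, ← hgπ]
      simp
    have hb : (π b).1 = g.pt b.1 := hgπ b
    show π * π' * π⁻¹ ∈ resSub (EE H (π b).1) l
    rw [hb]
    refine ⟨g * e * g⁻¹, conj_EE hg he, ?_, ?_⟩
    · show g.ln (e.ln (g⁻¹.ln l)) = l
      have h1 : g⁻¹.ln l = l := by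
        show g.ln⁻¹ l = l
        rw [Equiv.Perm.inv_eq_iff_eq, hgl]
      rw [h1, hel, hgl]
    · intro x
      show (π (π' (π⁻¹ x))).1 = g.pt (e.pt (g⁻¹.pt x.1))
      rw [hgπ, heπ, hinvπ]
  · -- involutions
    intro b c hbc
    have hbc' : c.1 ≠ b.1 := fun e => hbc (Subtype.ext e.symm)
    obtain ⟨h, A, ⟨h1, h2, h3⟩, hcA⟩ := hfull b.1 b.2 c.1 c.2 hbc'
    have hl : h.ln l = l := h3.2.2.2 l b.2
    obtain ⟨π, hπ⟩ := exists_res h hl
    have hhh : h * h = 1 := by
      rw [← pow_two, ← h2]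
      exact pow_orderOf_eq_one h
    have hfix : ∀ x, π x = x ↔ x = b ∨ x = c := by
      intro x
      constructor
      · intro e
        have e1 : h.pt x.1 = x.1 := by rw [← hπ, e]
        rcases fix_on_axis h3.1 h3.2.2 e1 with e2 | e2
        · right
          apply Subtype.ext
          rcases Nondegenerate.eq_or_eq e2 hcA x.2 c.2 with e3 | e3
          · exact e3
          · exact absurd (e3 ▸ b.2) h3.2.1
        · left
          exact Subtype.ext e2
      · rintro (rfl | rfl)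
        · apply Subtype.ext
          rw [hπ]
          exact centre_fix h3.2.2
        · apply Subtype.ext
          rw [hπ]
          exact h3.2.2.1 _ hcA
    refine ⟨π, ⟨h, h1, hl, hπ⟩, ?_, ?_, hfix⟩
    · ext x
      show (π (π x)).1 = x.1
      rw [hπ, hπ]
      have := congrArg (fun k : Coll B BL => k.pt x.1) hhh
      exact this
    · intro e
      obtain ⟨x, hxb, hxc⟩ := hthird b c
      rcases (hfix x).1 (by rw [e]; rfl) with h4 | h4
      · exact hxb h4
      · exact hxc h4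

end H5Aux
end Cfsg.Agent.Lib.OW
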