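import Mathlib

/-! Exponent lemma, abstract form (for `EE_pgroup`, `TT_pgroup`). -/

set_option autoImplicit false

namespace Cfsg.Agent.Lib.OW.HPGroup

/-- `T` is covered by subgroups `E i` meeting trivially and normalized by `T`, at least two of them meeting `T` nontrivially.
Then `T` is a `p`-group. -/
theorem pgroup_of_partition {X I : Type*} [Group X] [Finite X] (T : Subgroup X) (E : I → Subgroup X)
    (hcov : ∀ t ∈ T, t ≠ 1 → ∃ i, t ∈ E i)
    (hdisj : ∀ i j, i ≠ j → ∀ x, x ∈ E i → x ∈ E j → x = 1)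
    (hnorm : ∀ i, ∀ t ∈ T, ∀ x ∈ E i, t * x * t⁻¹ ∈ E i)
    {i₀ j₀ : I} (hij : i₀ ≠ j₀) {g g' : X} (hgT : g ∈ T) (hgE : g ∈ E i₀) (hg1 : g ≠ 1)
    (hgT' : g' ∈ T) (hgE' : g' ∈ E j₀) (hg1' : g' ≠ 1) :
    ∃ p : ℕ, p.Prime ∧ IsPGroup p T := by
  have hcomm : ∀ i j, i ≠ j → ∀ x ∈ T, x ∈ E i → ∀ y ∈ T, y ∈ E j → x * y = y * x := by
    intro i j hne x hxT hxE y hyT hyE
    have h1 : x * y * x⁻¹ * y⁻¹ ∈ E j := (E j).mul_mem (hnorm j x hxT y hyE) ((E j).inv_mem hyE)
    have h2 : x * y * x⁻¹ * y⁻¹ ∈ E i := by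
      have h3 : x * y * x⁻¹ * y⁻¹ = x * (y * x⁻¹ * y⁻¹) := by group
      rw [h3]
      exact (E i).mul_mem hxE (hnorm i y hyT _ ((E i).inv_mem hxE))
    have h4 := hdisj i j hne _ h2 h1
    have h5 : x * y * x⁻¹ = y := by
      rwa [mul_inv_eq_one] at h4
    rwa [mul_inv_eq_iff_eq_mul] at h5
  have hB : ∀ i j, i ≠ j → ∀ x ∈ T, x ∈ E i → ∀ y ∈ T, y ∈ E j → (orderOf x).Prime → (orderOf y).Prime →
      orderOf x = orderOf y := by
    intro i j hne x hxT hxE y hyT hyE hq hr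
    by_contra hqr
    have hc : Commute x y := hcomm i j hne x hxT hxE y hyT hyE
    have hw1 : x * y ≠ 1 := by
      intro h
      have h1 : x = y⁻¹ := eq_inv_of_mul_eq_one_left h
      have h2 : x ∈ E j := h1 ▸ (E j).inv_mem hyE
      have h3 := hdisj i j hne x hxE h2
      rw [h3, orderOf_one] at hq
      exact Nat.not_prime_one hq
    obtain ⟨k, hk⟩ := hcov _ (T.mul_mem hxT hyT) hw1
    have hy1 : y ^ orderOf x ≠ 1 := by
      intro h
      have h1 : orderOf y ∣ orderOf x := orderOf_dvd_of_pow_eq_one h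
      exact hqr ((Nat.prime_dvd_prime_iff_eq hr hq).mp h1).symm
    have hx1 : x ^ orderOf y ≠ 1 := by
      intro h
      have h1 : orderOf x ∣ orderOf y := orderOf_dvd_of_pow_eq_one h
      exact hqr ((Nat.prime_dvd_prime_iff_eq hq hr).mp h1)
    have e1 : (x * y) ^ orderOf x = y ^ orderOf x := by
      rw [hc.mul_pow, pow_orderOf_eq_one, one_mul]
    have e2 : (x * y) ^ orderOf y = x ^ orderOf y := by
      rw [hc.mul_pow, pow_orderOf_eq_one, mul_one]
    have hjk : j = k := by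
      by_contra hne2
      exact hy1 (hdisj j k hne2 _ ((E j).pow_mem hyE _) (e1 ▸ (E k).pow_mem hk _))
    have hik : i = k := by
      by_contra hne2
      exact hx1 (hdisj i k hne2 _ ((E i).pow_mem hxE _) (e2 ▸ (E k).pow_mem hk _))
    exact hne (hik.trans hjk.symm)
  have hpow : ∀ (x : X) (d : ℕ), d ∣ orderOf x → orderOf (x ^ (orderOf x / d)) = d := by
    intro x d hdv
    exact orderOf_pow_orderOf_div (orderOf_pos x).ne' hdv
  have hne1 : ∀ x : X, x ≠ 1 → orderOf x ≠ 1 := fun x hx h => hx (orderOf_eq_one_iff.mp h)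
  obtain ⟨q, hq, hqg⟩ := Nat.exists_prime_and_dvd (hne1 g hg1)
  obtain ⟨r, hr, hrg⟩ := Nat.exists_prime_and_dvd (hne1 g' hg1')
  have hrq : q = r := by
    have h := hB i₀ j₀ hij _ (T.pow_mem hgT (orderOf g / q)) ((E i₀).pow_mem hgE _) _ (T.pow_mem hgT' (orderOf g' / r))
      ((E j₀).pow_mem hgE' _) (by rw [hpow _ _ hqg]; exact hq) (by rw [hpow _ _ hrg]; exact hr)
    rwa [hpow _ _ hqg, hpow _ _ hrg] at h
  refine ⟨q, hq, ?_⟩
  have hall : ∀ z ∈ T, (orderOf z).Prime → orderOf z = q := by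
    intro z hzT hz
    have hz1 : z ≠ 1 := by
      intro h
      rw [h, orderOf_one] at hz
      exact Nat.not_prime_one hz
    obtain ⟨k, hk⟩ := hcov z hzT hz1
    by_cases hki : k = i₀
    · have hkj : k ≠ j₀ := by rw [hki]; exact hij
      have h := hB k j₀ hkj z hzT hk _ (T.pow_mem hgT' (orderOf g' / r)) ((E j₀).pow_mem hgE' _) hz
        (by rw [hpow _ _ hrg]; exact hr)
      rw [h, hpow _ _ hrg]
      exact hrq.symm
    · have h := hB k i₀ hki z hzT hk _ (T.pow_mem hgT (orderOf g / q)) ((E i₀).pow_mem hgE _) hz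
        (by rw [hpow _ _ hqg]; exact hq)
      rw [h, hpow _ _ hqg]
  intro t
  have ho : orderOf (t : X) = q ^ (orderOf (t : X)).primeFactorsList.length :=
    Nat.eq_prime_pow_of_unique_prime_dvd (orderOf_pos _).ne' (fun {d} hd hdv => by
      have h1 := hall _ (T.pow_mem t.2 (orderOf (t : X) / d)) (by rw [hpow _ d hdv]; exact hd)
      rwa [hpow _ d hdv] at h1)
  refine ⟨(orderOf (t : X)).primeFactorsList.length, ?_⟩
  apply Subtype.ext
  show (t : X) ^ (q ^ _) = 1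
  rw [← ho]
  exact pow_orderOf_eq_one _

end Cfsg.Agent.Lib.OW.HPGroup
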