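import Cfsg.Agent.Lib.OW.Basics
import Cfsg.Agent.Lib.OW.HPGroup
import Cfsg.Agent.Lib.OW.EETT

/-! Theorem H: definitions and perspectivity algebra. See forum 'S3732 notes'. -/

set_option autoImplicit false

namespace Cfsg.Agent.Lib.OW

open Configuration

variable {B BL : Type*} [Membership B BL] [Fintype B] [Fintype BL] [ProjectivePlane B BL]

/-- Hypotheses of Theorem H. -/
structure HHyp (H : Subgroup (Coll B BL)) : Prop where
  hodd : Odd (ProjectivePlane.order B BL)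
  hinv : ∀ h ∈ H, orderOf h = 2 → ∃ (c : B) (A : BL), IsHomology h c A
  hP : ∀ a b : B, a ≠ b → ∀ l : BL, b ∈ l → a ∉ l →
    ∃ e : B, e ∈ l ∧ e ≠ b ∧ ∃ h ∈ H, orderOf h = 2 ∧ h.pt a = a ∧ h.pt b = b ∧ h.pt e = e

/-- `h` is an involutory homology in `H` with centre `a` and axis `A`. -/
def InvHom (H : Subgroup (Coll B BL)) (h : Coll B BL) (a : B) (A : BL) : Prop :=
  h ∈ H ∧ orderOf h = 2 ∧ IsHomology h a A

/-- Arrow `a → b`: homology in `H` with centre `a`, `b` on the axis. -/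
def Arrow (H : Subgroup (Coll B BL)) (a b : B) : Prop :=
  ∃ (h : Coll B BL) (A : BL), InvHom H h a A ∧ b ∈ A

/-- Elations with centre `a` in `H`, with `1`: a group (dual of `TT`). -/
def EE (H : Subgroup (Coll B BL)) (a : B) : Subgroup (Coll B BL) where
  carrier := {g | g ∈ H ∧ (g = 1 ∨ ∃ A : BL, IsElation g a A)}
  one_mem' := ⟨H.one_mem, Or.inl rfl⟩
  mul_mem' := by
    rintro g h ⟨hg, hg'⟩ ⟨hh, hh'⟩
    refine ⟨H.mul_mem hg hh, ?_⟩
    rcases hg' with rfl | ⟨A₁, h1⟩
    · rw [one_mul]; exact hh'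
    rcases hh' with rfl | ⟨A₂, h2⟩
    · rw [mul_one]; exact Or.inr ⟨A₁, h1⟩
    exact EETT.mul_centre h1 h2
  inv_mem' := by
    rintro g ⟨hg, hg'⟩
    refine ⟨H.inv_mem hg, ?_⟩
    rcases hg' with rfl | ⟨A₁, h1⟩
    · exact Or.inl inv_one
    · exact Or.inr ⟨A₁, EETT.inv_elation h1⟩

/-- Elations with axis `A` in `H`, with `1`: a group. -/
def TT (H : Subgroup (Coll B BL)) (A : BL) : Subgroup (Coll B BL) where
  carrier := {g | g ∈ H ∧ (g = 1 ∨ ∃ c : B, IsElation g c A)}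
  one_mem' := ⟨H.one_mem, Or.inl rfl⟩
  mul_mem' := by
    rintro g h ⟨hg, hg'⟩ ⟨hh, hh'⟩
    refine ⟨H.mul_mem hg hh, ?_⟩
    rcases hg' with rfl | ⟨c₁, h1⟩
    · rw [one_mul]; exact hh'
    rcases hh' with rfl | ⟨c₂, h2⟩
    · rw [mul_one]; exact Or.inr ⟨c₁, h1⟩
    exact EETT.mul_axis h1 h2
  inv_mem' := by
    rintro g ⟨hg, hg'⟩
    refine ⟨H.inv_mem hg, ?_⟩
    rcases hg' with rfl | ⟨c₁, h1⟩
    · exact Or.inl inv_one
    · exact Or.inr ⟨c₁, EETT.inv_elation h1⟩

namespace HInv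

theorem persp_conj (g e : Coll B BL) {c : B} {A : BL} (h : IsPersp e c A) :
    IsPersp (g * e * g⁻¹) (g.pt c) (g.ln A) := by
  constructor
  · intro p hp
    have h1 : g⁻¹.pt p ∈ A := by
      rw [← g.inc]
      simpa using hp
    have h2 := h.1 _ h1
    simp only [mul_pt, Equiv.Perm.mul_apply]
    rw [h2]
    simp
  · intro l hl
    have h1 : c ∈ g⁻¹.ln l := by
      rw [← g.inc]
      simpa using hl
    have h2 := h.2 _ h1
    simp only [mul_ln, Equiv.Perm.mul_apply]
    rw [h2]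
    simp

theorem persp_inv {e : Coll B BL} {c : B} {A : BL} (h : IsPersp e c A) : IsPersp e⁻¹ c A := by
  constructor
  · intro p hp
    have h2 := h.1 _ hp
    simp only [inv_pt]
    rw [Equiv.Perm.inv_eq_iff_eq, h2]
  · intro l hl
    have h2 := h.2 _ hl
    simp only [inv_ln]
    rw [Equiv.Perm.inv_eq_iff_eq, h2]

theorem persp_fix {e : Coll B BL} (he : e ≠ 1) {c : B} {A : BL} (h : IsPersp e c A) :
    e.pt c = c ∧ e.ln A = A := by
  have h1 := persp_conj e e h
  rw [mul_inv_cancel_right] at h1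
  obtain ⟨h2, h3⟩ := persp_unique e he h1 h
  exact ⟨h2, h3⟩

theorem axis_of_fixed_line {e : Coll B BL} (he : e ≠ 1) {a : B} {W A : BL} (h : IsPersp e a A)
    (ha : a ∉ W) (hW : e.ln W = W) : W = A := by
  have h1 : IsPersp e a W := by
    refine ⟨fun p hp => ?_, h.2⟩
    have hap : a ≠ p := fun e' => ha (e' ▸ hp)
    set l : BL := HasLines.mkLine hap with hl
    have hal : a ∈ l := (HasLines.mkLine_ax hap).1
    have hpl : p ∈ l := (HasLines.mkLine_ax hap).2
    have hfix : e.ln l = l := h.2 _ hal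
    have h2 : e.pt p ∈ l := by
      have := (e.inc p l).mpr hpl
      rwa [hfix] at this
    have h3 : e.pt p ∈ W := by
      have := (e.inc p W).mpr hp
      rwa [hW] at this
    have hne : l ≠ W := fun e' => ha (e' ▸ hal)
    rcases Nondegenerate.eq_or_eq h2 hpl h3 hp with h4 | h4
    · exact h4
    · exact absurd h4 hne
  exact (persp_unique e he h1 h).2

theorem centre_of_fixed_point {e : Coll B BL} (he : e ≠ 1) {a w : B} {A : BL} (h : IsPersp e a A)
    (hw : w ∉ A) (hfix : e.pt w = w) : w = a := by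
  have h1 : IsPersp e w A := by
    refine ⟨h.1, fun l hl => ?_⟩
    have hne : l ≠ A := fun e' => hw (e' ▸ hl)
    set p : B := HasPoints.mkPoint hne with hp
    have hpl : p ∈ l := (HasPoints.mkPoint_ax hne).1
    have hpA : p ∈ A := (HasPoints.mkPoint_ax hne).2
    have h2 : e.pt p = p := h.1 _ hpA
    have h3 : w ∈ e.ln l := by
      have := (e.inc w l).mpr hl
      rwa [hfix] at this
    have h4 : p ∈ e.ln l := by
      have := (e.inc p l).mpr hpl
      rwa [h2] at this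
    have hwp : w ≠ p := fun e' => hw (e' ▸ hpA)
    rcases Nondegenerate.eq_or_eq h3 h4 hl hpl with h5 | h5
    · exact absurd h5 hwp
    · exact h5
  exact (persp_unique e he h1 h).1

theorem sq_one {h : Coll B BL} (ho : orderOf h = 2) : h * h = 1 := by
  have := pow_orderOf_eq_one h
  rwa [ho, sq] at this

theorem inv_eq {h : Coll B BL} (ho : orderOf h = 2) : h⁻¹ = h :=
  inv_eq_of_mul_eq_one_left (sq_one ho)

theorem conj_left {h h' : Coll B BL} (ho : orderOf h = 2) (ho' : orderOf h' = 2) :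
    h * (h * h') * h⁻¹ = (h * h')⁻¹ := by
  rw [inv_eq ho, mul_inv_rev, inv_eq ho, inv_eq ho', ← mul_assoc, sq_one ho, one_mul]

theorem conj_right {h h' : Coll B BL} (ho : orderOf h = 2) (ho' : orderOf h' = 2) :
    h' * (h * h') * h'⁻¹ = (h * h')⁻¹ := by
  rw [inv_eq ho', mul_inv_rev, inv_eq ho, inv_eq ho', mul_assoc, mul_assoc, sq_one ho', mul_one]

/-- A fixed-point-free involutive automorphism of a finite group inverts it; the group has odd order. -/
theorem fpf_inverted {X : Type*} [Group X] (K : Subgroup X) [Finite K] {h : X} (hinv : h * h = 1)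
    (hnorm : ∀ e ∈ K, h * e * h⁻¹ ∈ K) (hfix : ∀ e ∈ K, h * e * h⁻¹ = e → e = 1) :
    (∀ e ∈ K, h * e * h⁻¹ = e⁻¹) ∧ Odd (Nat.card K) := by
  have hi : h⁻¹ = h := inv_eq_of_mul_eq_one_left hinv
  have hσσ : ∀ x : X, h * (h * x * h⁻¹) * h⁻¹ = x := by
    intro x
    rw [hi]
    calc h * (h * x * h) * h = (h * h) * x * (h * h) := by group
      _ = x := by rw [hinv]; group
  have hσmul : ∀ x y : X, h * (x * y) * h⁻¹ = (h * x * h⁻¹) * (h * y * h⁻¹) := by
    intro x y
    group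
  let f : K → K := fun x => ⟨(x : X)⁻¹ * (h * (x : X) * h⁻¹), K.mul_mem (K.inv_mem x.2) (hnorm _ x.2)⟩
  have hf : Function.Injective f := by
    intro x y hxy
    have h1 : (x : X)⁻¹ * (h * (x : X) * h⁻¹) = (y : X)⁻¹ * (h * (y : X) * h⁻¹) := congrArg Subtype.val hxy
    have h2 : h * ((y : X) * (x : X)⁻¹) * h⁻¹ = (y : X) * (x : X)⁻¹ := by
      have h3 : (y : X) * (x : X)⁻¹ * (h * (x : X) * h⁻¹) = h * (y : X) * h⁻¹ := by
        have h4 : (h * (y : X) * h⁻¹) = (y : X) * ((y : X)⁻¹ * (h * (y : X) * h⁻¹)) := by group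
        rw [h4, ← h1]
        group
      have h5 : h * ((y : X) * (x : X)⁻¹) * h⁻¹ = (h * (y : X) * h⁻¹) * (h * (x : X) * h⁻¹)⁻¹ := by group
      rw [h5, ← h3]
      group
    have h6 := hfix _ (K.mul_mem y.2 (K.inv_mem x.2)) h2
    apply Subtype.ext
    have h7 : (y : X) = (x : X) := by
      rw [mul_inv_eq_one] at h6
      exact h6
    exact h7.symm
  have hsurj : Function.Surjective f := Finite.injective_iff_surjective.mp hf
  have hin : ∀ e ∈ K, h * e * h⁻¹ = e⁻¹ := by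
    intro e he
    obtain ⟨x, hx⟩ := hsurj ⟨e, he⟩
    have h1 : (x : X)⁻¹ * (h * (x : X) * h⁻¹) = e := congrArg Subtype.val hx
    rw [← h1, hσmul, hσσ]
    have h2 : h * (x : X)⁻¹ * h⁻¹ = (h * (x : X) * h⁻¹)⁻¹ := by group
    rw [h2]
    group
  refine ⟨hin, ?_⟩
  rw [← Nat.not_even_iff_odd]
  intro he
  have hd : 2 ∣ Nat.card K := he.two_dvd
  have : Fact (Nat.Prime 2) := ⟨Nat.prime_two⟩
  obtain ⟨x, hx⟩ := exists_prime_orderOf_dvd_card' 2 hd
  have hx2 : (x : X) * (x : X) = 1 := by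
    have h1 : x ^ 2 = 1 := by rw [← hx]; exact pow_orderOf_eq_one x
    have h2 : (x : X) ^ 2 = 1 := by
      have := congrArg Subtype.val h1
      simpa using this
    rwa [sq] at h2
  have h3 := hin x x.2
  have h4 : (x : X)⁻¹ = x := inv_eq_of_mul_eq_one_left hx2
  rw [h4] at h3
  have h5 := hfix x x.2 h3
  have h6 : x = 1 := Subtype.ext h5
  rw [h6, orderOf_one] at hx
  omega

end HInv

/-- Two involutory homologies with same centre, different axes: product is an elation with that centre. -/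
theorem mul_mem_EE {H : Subgroup (Coll B BL)} {h h' : Coll B BL} {a : B} {A A' : BL}
    (h1 : InvHom H h a A) (h2 : InvHom H h' a A') (hne : A ≠ A') : h * h' ∈ EE H a ∧ h * h' ≠ 1 := by
  obtain ⟨hH, ho, hn, ha, hp⟩ := h1
  obtain ⟨hH', ho', hn', ha', hp'⟩ := h2
  have hg1 : h * h' ≠ 1 := by
    intro e
    have e1 : h' = h := by
      have := eq_inv_of_mul_eq_one_right e
      rw [HInv.inv_eq ho] at this
      exact this
    rw [e1] at hp'
    exact hne (persp_unique h hn hp hp').2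
  have hfl : ∀ l : BL, a ∈ l → (h * h').ln l = l := by
    intro l hl
    simp only [mul_ln, Equiv.Perm.mul_apply]
    rw [hp'.2 l hl, hp.2 l hl]
  obtain ⟨W, hW⟩ := exists_axis (h * h') a hfl
  have hpg : IsPersp (h * h') a W := ⟨hW, hfl⟩
  refine ⟨?_, hg1⟩
  refine ⟨H.mul_mem hH hH', Or.inr ⟨W, hg1, ?_, hpg⟩⟩
  by_contra haW
  have hinv1 : (h * h')⁻¹ ≠ 1 := inv_ne_one.mpr hg1
  have h3 := HInv.persp_conj h (h * h') hpg
  rw [HInv.conj_left ho ho', (HInv.persp_fix hn hp).1] at h3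
  have h4 := (persp_unique _ hinv1 h3 (HInv.persp_inv hpg)).2
  have e1 := HInv.axis_of_fixed_line hn hp haW h4
  have h3' := HInv.persp_conj h' (h * h') hpg
  rw [HInv.conj_right ho ho', (HInv.persp_fix hn' hp').1] at h3'
  have h4' := (persp_unique _ hinv1 h3' (HInv.persp_inv hpg)).2
  have e2 := HInv.axis_of_fixed_line hn' hp' haW h4'
  exact hne (e1.symm.trans e2)

/-- Same axis, different centres: product is an elation with that axis. -/
theorem mul_mem_TT {H : Subgroup (Coll B BL)} {h h' : Coll B BL} {a a' : B} {A : BL}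
    (h1 : InvHom H h a A) (h2 : InvHom H h' a' A) (hne : a ≠ a') : h * h' ∈ TT H A ∧ h * h' ≠ 1 := by
  obtain ⟨hH, ho, hn, ha, hp⟩ := h1
  obtain ⟨hH', ho', hn', ha', hp'⟩ := h2
  have hg1 : h * h' ≠ 1 := by
    intro e
    have e1 : h' = h := by
      have := eq_inv_of_mul_eq_one_right e
      rw [HInv.inv_eq ho] at this
      exact this
    rw [e1] at hp'
    exact hne (persp_unique h hn hp hp').1
  have hfl : ∀ p : B, p ∈ A → (h * h').pt p = p := by
    intro p hp0
    simp only [mul_pt, Equiv.Perm.mul_apply]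
    rw [hp'.1 p hp0, hp.1 p hp0]
  obtain ⟨w, hw⟩ := exists_centre (h * h') A hfl
  have hpg : IsPersp (h * h') w A := ⟨hfl, hw⟩
  refine ⟨?_, hg1⟩
  refine ⟨H.mul_mem hH hH', Or.inr ⟨w, hg1, ?_, hpg⟩⟩
  by_contra hwA
  have hinv1 : (h * h')⁻¹ ≠ 1 := inv_ne_one.mpr hg1
  have h3 := HInv.persp_conj h (h * h') hpg
  rw [HInv.conj_left ho ho', (HInv.persp_fix hn hp).2] at h3
  have h4 := (persp_unique _ hinv1 h3 (HInv.persp_inv hpg)).1
  have e1 := HInv.centre_of_fixed_point hn hp hwA h4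
  have h3' := HInv.persp_conj h' (h * h') hpg
  rw [HInv.conj_right ho ho', (HInv.persp_fix hn' hp').2] at h3'
  have h4' := (persp_unique _ hinv1 h3' (HInv.persp_inv hpg)).1
  have e2 := HInv.centre_of_fixed_point hn' hp' hwA h4'
  exact hne (e1.symm.trans e2)

/-- `EE H a` is abelian and inverted by any involutory homology with centre `a`; odd order when `n` odd. -/
theorem EE_inverted' {H : Subgroup (Coll B BL)} {h : Coll B BL} {a : B} {A : BL}
    (hh : InvHom H h a A) : (∀ e ∈ EE H a, h * e * h⁻¹ = e⁻¹) ∧ Odd (Nat.card (EE H a)) := by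
  obtain ⟨hH', ho, hn, ha, hp⟩ := hh
  refine HInv.fpf_inverted (EE H a) (HInv.sq_one ho) ?_ ?_
  · rintro e ⟨heH, he⟩
    refine ⟨H.mul_mem (H.mul_mem hH' heH) (H.inv_mem hH'), ?_⟩
    rcases he with rfl | ⟨W, he1, haW, hpe⟩
    · left
      simp
    · right
      have h3 := HInv.persp_conj h e hpe
      rw [(HInv.persp_fix hn hp).1] at h3
      refine ⟨h.ln W, ?_, ?_, h3⟩
      · intro e'
        apply he1
        have : e = h⁻¹ * (h * e * h⁻¹) * h := by group
        rw [this, e']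
        group
      · have := (h.inc a W).mpr haW
        rwa [(HInv.persp_fix hn hp).1] at this
  · rintro e ⟨heH, he⟩ hfix
    rcases he with rfl | ⟨W, he1, haW, hpe⟩
    · rfl
    · exfalso
      have h3 := HInv.persp_conj e h hp
      have e1 : e * h * e⁻¹ = h := by
        have : e = h * e * h⁻¹ := hfix.symm
        nth_rewrite 1 [this]
        group
      rw [e1] at h3
      have h4 := (persp_unique h hn h3 hp).2
      have h5 := HInv.axis_of_fixed_line he1 hpe ha h4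
      exact ha (h5 ▸ haW)

/-- `TT H A` is abelian and inverted by any involutory homology with axis `A`; odd order when `n` odd. -/
theorem TT_inverted' {H : Subgroup (Coll B BL)} {h : Coll B BL} {a : B} {A : BL}
    (hh : InvHom H h a A) : (∀ e ∈ TT H A, h * e * h⁻¹ = e⁻¹) ∧ Odd (Nat.card (TT H A)) := by
  obtain ⟨hH', ho, hn, ha, hp⟩ := hh
  refine HInv.fpf_inverted (TT H A) (HInv.sq_one ho) ?_ ?_
  · rintro e ⟨heH, he⟩
    refine ⟨H.mul_mem (H.mul_mem hH' heH) (H.inv_mem hH'), ?_⟩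
    rcases he with rfl | ⟨c, he1, hcA, hpe⟩
    · left
      simp
    · right
      have h3 := HInv.persp_conj h e hpe
      rw [(HInv.persp_fix hn hp).2] at h3
      refine ⟨h.pt c, ?_, ?_, h3⟩
      · intro e'
        apply he1
        have : e = h⁻¹ * (h * e * h⁻¹) * h := by group
        rw [this, e']
        group
      · have := (h.inc c A).mpr hcA
        rwa [(HInv.persp_fix hn hp).2] at this
  · rintro e ⟨heH, he⟩ hfix
    rcases he with rfl | ⟨c, he1, hcA, hpe⟩
    · rfl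
    · exfalso
      have h3 := HInv.persp_conj e h hp
      have e1 : e * h * e⁻¹ = h := by
        have : e = h * e * h⁻¹ := hfix.symm
        nth_rewrite 1 [this]
        group
      rw [e1] at h3
      have h4 := (persp_unique h hn h3 hp).1
      have h5 := HInv.centre_of_fixed_point he1 hpe ha h4
      exact ha (h5 ▸ hcA)

theorem EE_inverted {H : Subgroup (Coll B BL)} (_hH : HHyp H) {h : Coll B BL} {a : B} {A : BL}
    (hh : InvHom H h a A) : (∀ e ∈ EE H a, h * e * h⁻¹ = e⁻¹) ∧ Odd (Nat.card (EE H a)) := EE_inverted' hh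

theorem TT_inverted {H : Subgroup (Coll B BL)} (_hH : HHyp H) {h : Coll B BL} {a : B} {A : BL}
    (hh : InvHom H h a A) : (∀ e ∈ TT H A, h * e * h⁻¹ = e⁻¹) ∧ Odd (Nat.card (TT H A)) := TT_inverted' hh

namespace HPersp

/-- Perspectivities with given centre and axis form a group. -/
def EPersp (c : B) (A : BL) : Subgroup (Coll B BL) where
  carrier := {g | IsPersp g c A}
  mul_mem' := by
    intro x y hx hy
    refine ⟨fun p hp => ?_, fun l hl => ?_⟩
    · show x.pt (y.pt p) = p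
      rw [hy.1 p hp, hx.1 p hp]
    · show x.ln (y.ln l) = l
      rw [hy.2 l hl, hx.2 l hl]
  one_mem' := ⟨fun _ _ => rfl, fun _ _ => rfl⟩
  inv_mem' := by
    intro x hx
    refine ⟨fun p hp => ?_, fun l hl => ?_⟩
    · show x.pt⁻¹ p = p
      rw [Equiv.Perm.inv_eq_iff_eq]
      exact (hx.1 p hp).symm
    · show x.ln⁻¹ l = l
      rw [Equiv.Perm.inv_eq_iff_eq]
      exact (hx.2 l hl).symm

/-- Conjugation by an element fixing the centre and the axis. -/
theorem conj_persp {t x : Coll B BL} {c : B} {A : BL} (hc : t.pt c = c) (hA : t.ln A = A) (hx : IsPersp x c A) :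
    IsPersp (t * x * t⁻¹) c A := by
  refine ⟨fun p hp => ?_, fun l hl => ?_⟩
  · show t.pt (x.pt (t.pt⁻¹ p)) = p
    have h1 : t.pt (t.pt⁻¹ p) = p := by simp
    have h2 : t.pt⁻¹ p ∈ A := by
      rw [← t.inc, h1, hA]
      exact hp
    rw [hx.1 _ h2, h1]
  · show t.ln (x.ln (t.ln⁻¹ l)) = l
    have h1 : t.ln (t.ln⁻¹ l) = l := by simp
    have h2 : c ∈ t.ln⁻¹ l := by
      rw [← t.inc, h1, hc]
      exact hl
    rw [hx.2 _ h2, h1]

end HPersp

open HPersp in
/-- Exponent lemma: two axes ⟹ `EE` is a `p`-group. -/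
theorem EE_pgroup {H : Subgroup (Coll B BL)} {a : B} {g g' : Coll B BL} {A A' : BL}
    (hg : g ∈ H) (hg' : g' ∈ H) (h1 : IsElation g a A) (h2 : IsElation g' a A') (hne : A ≠ A') :
    ∃ p : ℕ, p.Prime ∧ IsPGroup p (EE H a) := by
  refine HPGroup.pgroup_of_partition (EE H a) (fun l : {l : BL // a ∈ l} => EPersp a l.1)
    ?_ ?_ ?_ (i₀ := ⟨A, h1.2.1⟩) (j₀ := ⟨A', h2.2.1⟩) (fun h => hne (congrArg Subtype.val h))
    (g := g) (g' := g') ⟨hg, Or.inr ⟨A, h1⟩⟩ h1.2.2 h1.1 ⟨hg', Or.inr ⟨A', h2⟩⟩ h2.2.2 h2.1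
  · rintro t ⟨_, ht | ⟨l, hl⟩⟩ ht1
    · exact absurd ht ht1
    · exact ⟨⟨l, hl.2.1⟩, hl.2.2⟩
  · intro i j hij x hxi hxj
    by_contra hx
    exact hij (Subtype.ext (persp_unique x hx hxi hxj).2)
  · rintro i t ⟨_, ht | ⟨l, hl⟩⟩ x hx
    · rw [ht, one_mul, inv_one, mul_one]
      exact hx
    · exact conj_persp (hl.2.2.1 a hl.2.1) (hl.2.2.2 i.1 i.2) hx

open HPersp in
/-- Exponent lemma: two centres ⟹ `TT` is a `p`-group. -/
theorem TT_pgroup {H : Subgroup (Coll B BL)} {A : BL} {g g' : Coll B BL} {c c' : B}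
    (hg : g ∈ H) (hg' : g' ∈ H) (h1 : IsElation g c A) (h2 : IsElation g' c' A) (hne : c ≠ c') :
    ∃ p : ℕ, p.Prime ∧ IsPGroup p (TT H A) := by
  refine HPGroup.pgroup_of_partition (TT H A) (fun z : {z : B // z ∈ A} => EPersp z.1 A)
    ?_ ?_ ?_ (i₀ := ⟨c, h1.2.1⟩) (j₀ := ⟨c', h2.2.1⟩) (fun h => hne (congrArg Subtype.val h))
    (g := g) (g' := g') ⟨hg, Or.inr ⟨c, h1⟩⟩ h1.2.2 h1.1 ⟨hg', Or.inr ⟨c', h2⟩⟩ h2.2.2 h2.1
  · rintro t ⟨_, ht | ⟨z, hz⟩⟩ ht1
    · exact absurd ht ht1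
    · exact ⟨⟨z, hz.2.1⟩, hz.2.2⟩
  · intro i j hij x hxi hxj
    by_contra hx
    exact hij (Subtype.ext (persp_unique x hx hxi hxj).1)
  · rintro i t ⟨_, ht | ⟨z, hz⟩⟩ x hx
    · rw [ht, one_mul, inv_one, mul_one]
      exact hx
    · exact conj_persp (hz.2.2.1 i.1 i.2) (hz.2.2.2 A hz.2.1) hx

namespace HPersp

/-- The product of two involutory homologies inverting `e`, with same centre and axis, commutes with `e`. -/
theorem comm_of_inv {h h' e : Coll B BL} (hi : h * e * h⁻¹ = e⁻¹) (hi' : h' * e * h'⁻¹ = e⁻¹) :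
    (h * h') * e = e * (h * h') := by
  have h3 : h * e⁻¹ * h⁻¹ = e := by
    have h4 : h * e⁻¹ * h⁻¹ = (h * e * h⁻¹)⁻¹ := by group
    rw [h4, hi, inv_inv]
  have h5 : (h * h') * e * (h * h')⁻¹ = e := by
    calc (h * h') * e * (h * h')⁻¹ = h * (h' * e * h'⁻¹) * h⁻¹ := by group
      _ = e := by rw [hi', h3]
  rwa [mul_inv_eq_iff_eq_mul] at h5

/-- A perspectivity fixes its centre. -/
theorem centre_fix {k : Coll B BL} {a : B} {A : BL} (ha : a ∉ A) (hk : IsPersp k a A) : k.pt a = a := by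
  classical
  obtain ⟨u, hu, -, -⟩ := BasicsAux.exists_third A a a
  obtain ⟨v, hv, hvu, -⟩ := BasicsAux.exists_third A u u
  have hau : a ≠ u := fun e => ha (e ▸ hu)
  have hav : a ≠ v := fun e => ha (e ▸ hv)
  have h1 := HasLines.mkLine_ax (L := BL) hau
  have h2 := HasLines.mkLine_ax (L := BL) hav
  have hne : HasLines.mkLine (L := BL) hau ≠ HasLines.mkLine (L := BL) hav := by
    intro e
    have h3 : v ∈ HasLines.mkLine (L := BL) hau := by rw [e]; exact h2.2
    rcases Nondegenerate.eq_or_eq h1.2 h3 hu hv with e2 | e2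
    · exact hvu e2.symm
    · exact ha (e2 ▸ h1.1)
  exact BasicsAux.pt_fix k hne h1.1 h2.1 (hk.2 _ h1.1) (hk.2 _ h2.1)

end HPersp

open HPersp in
/-- Two involutory homologies with the same centre and axis agree, if there is an elation with that axis. -/
theorem invHom_unique_of_TT {H : Subgroup (Coll B BL)} {h h' : Coll B BL} {a : B} {A : BL}
    (h1 : InvHom H h a A) (h2 : InvHom H h' a A) {e : Coll B BL} (he : e ∈ TT H A) (he1 : e ≠ 1) : h = h' := by
  have hcomm := comm_of_inv ((TT_inverted' h1).1 e he) ((TT_inverted' h2).1 e he)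
  by_contra hne
  have hh' : h' * h' = 1 := by rw [← sq, ← h2.2.1, pow_orderOf_eq_one]
  have hk1 : h * h' ≠ 1 := by
    intro e1
    apply hne
    have e2 := eq_inv_of_mul_eq_one_left e1
    rwa [inv_eq_of_mul_eq_one_left hh'] at e2
  have ha : a ∉ A := h1.2.2.2.1
  have hkp : IsPersp (h * h') a A := (EPersp a A).mul_mem h1.2.2.2.2 h2.2.2.2.2
  obtain ⟨c, hc⟩ : ∃ c, IsElation e c A := by
    rcases he.2 with h0 | h0
    · exact absurd h0 he1
    · exact h0
  have hac : a ≠ c := fun e0 => ha (e0 ▸ hc.2.1)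
  have hea : e.pt a ≠ a := fun e0 => ha (EETT.fix_pt_mem he1 hc.2.2 e0 hac)
  have hkb : (h * h').pt (e.pt a) = e.pt a := by
    have h3 : ((h * h') * e).pt a = (e * (h * h')).pt a := by rw [hcomm]
    have h4 : ((h * h') * e).pt a = (h * h').pt (e.pt a) := rfl
    have h5 : (e * (h * h')).pt a = e.pt ((h * h').pt a) := rfl
    rw [h4, h5, centre_fix ha hkp] at h3
    exact h3
  have hbA := EETT.fix_pt_mem hk1 hkp hkb hea
  have h6 : e.ln A = A := hc.2.2.2 A hc.2.1
  apply ha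
  rw [← e.inc, h6]
  exact hbA

/-- Two involutory homologies with the same centre and axis agree, if there is an elation with axis `A`. -/
theorem invHom_unique {H : Subgroup (Coll B BL)} {h h' : Coll B BL} {a : B} {A : BL}
    (hT : TT H A ≠ ⊥) (h1 : InvHom H h a A) (h2 : InvHom H h' a A) : h = h' := by
  obtain ⟨e, he⟩ := Subgroup.ne_bot_iff_exists_ne_one.mp hT
  exact invHom_unique_of_TT h1 h2 e.2 (fun h0 => he (Subtype.ext h0))

open HPersp in
/-- Two involutory homologies with the same centre and axis agree, if there is an elation with that centre. -/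
theorem invHom_unique_of_EE {H : Subgroup (Coll B BL)} {h h' : Coll B BL} {a : B} {A : BL}
    (h1 : InvHom H h a A) (h2 : InvHom H h' a A) {e : Coll B BL} (he : e ∈ EE H a) (he1 : e ≠ 1) : h = h' := by
  have hcomm := comm_of_inv ((EE_inverted' h1).1 e he) ((EE_inverted' h2).1 e he)
  by_contra hne
  have hh' : h' * h' = 1 := by rw [← sq, ← h2.2.1, pow_orderOf_eq_one]
  have hk1 : h * h' ≠ 1 := by
    intro e1
    apply hne
    have e2 := eq_inv_of_mul_eq_one_left e1
    rwa [inv_eq_of_mul_eq_one_left hh'] at e2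
  have ha : a ∉ A := h1.2.2.2.1
  have hkp : IsPersp (h * h') a A := (EPersp a A).mul_mem h1.2.2.2.2 h2.2.2.2.2
  obtain ⟨A', hc⟩ : ∃ A', IsElation e a A' := by
    rcases he.2 with h0 | h0
    · exact absurd h0 he1
    · exact h0
  have hAA : A ≠ A' := fun e0 => ha (e0 ▸ hc.2.1)
  have hea : e.ln A ≠ A := fun e0 => ha (EETT.fix_ln_mem he1 hc.2.2 e0 hAA)
  have hkA : (h * h').ln A = A := by
    obtain ⟨u, hu, -, -⟩ := BasicsAux.exists_third A a a
    obtain ⟨v, hv, hvu, -⟩ := BasicsAux.exists_third A u u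
    exact BasicsAux.ln_fix _ hvu.symm hu hv (hkp.1 u hu) (hkp.1 v hv)
  have hkb : (h * h').ln (e.ln A) = e.ln A := by
    have h3 : ((h * h') * e).ln A = (e * (h * h')).ln A := by rw [hcomm]
    have h4 : ((h * h') * e).ln A = (h * h').ln (e.ln A) := rfl
    have h5 : (e * (h * h')).ln A = e.ln ((h * h').ln A) := rfl
    rw [h4, h5, hkA] at h3
    exact h3
  have hbA := EETT.fix_ln_mem hk1 hkp hkb hea
  have h6 : e.pt a = a := hc.2.2.1 a hc.2.1
  apply ha
  rw [← e.inc, h6]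
  exact hbA

namespace HDefsOut

open Nondegenerate HasPoints HasLines BasicsAux

variable {H : Subgroup (Coll B BL)}

theorem EE_ln {a : B} {e : Coll B BL} (he : e ∈ EE H a) {l : BL} (hl : a ∈ l) : e.ln l = l := by
  rcases he.2 with rfl | ⟨A, -, -, -, h⟩
  · rfl
  · exact h l hl

theorem EE_pt_self {a : B} {e : Coll B BL} (he : e ∈ EE H a) : e.pt a = a := by
  rcases he.2 with rfl | ⟨A, -, hA, h, -⟩
  · rfl
  · exact h a hA

/-- An element of `EE H a` fixing `x ≠ a` on `l ∋ a` fixes `l` pointwise. -/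
theorem EE_stab {a x y : B} {l : BL} {e : Coll B BL} (he : e ∈ EE H a) (hal : a ∈ l) (hxl : x ∈ l)
    (hxa : x ≠ a) (hyl : y ∈ l) (hex : e.pt x = x) : e.pt y = y := by
  rcases he.2 with rfl | ⟨A, hne, haA, hA, hc⟩
  · rfl
  · have hxA : x ∈ A := by
      by_contra hxA
      have hp : IsPersp e x A := by
        refine ⟨hA, fun m hxm => ?_⟩
        have hmA : m ≠ A := fun h => hxA (h ▸ hxm)
        have hz := mkPoint_ax (P := B) hmA
        have hxz : x ≠ mkPoint hmA := fun h => hxA (h ▸ hz.2)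
        exact ln_fix e hxz hxm hz.1 hex (hA _ hz.2)
      exact hxa (persp_unique e hne hp ⟨hA, hc⟩).1
    have hAl : A = l := (eq_or_eq hxA haA hxl hal).resolve_left hxa
    exact hA y (hAl ▸ hyl)

/-- The conjugating element. -/
theorem exists_conj (hH : HHyp H) {a : B} {h1 h2 : Coll B BL} {A1 A2 : BL}
    (h1' : InvHom H h1 a A1) (h2' : InvHom H h2 a A2) (hne : A1 ≠ A2) :
    ∃ t ∈ EE H a, t * h2 * t⁻¹ = h1 := by
  have hk := (mul_mem_EE h1' h2' hne).1
  obtain ⟨m, hm⟩ := (EE_inverted hH h1').2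
  have hpow : (⟨h1 * h2, hk⟩ : EE H a) ^ (2 * m + 1) = 1 := by
    rw [← hm]
    exact pow_card_eq_one'
  have hpow' : (h1 * h2) ^ (2 * m + 1) = 1 := by
    have := congrArg Subtype.val hpow
    simpa using this
  refine ⟨(h1 * h2) ^ (m + 1), Subgroup.pow_mem _ hk _, ?_⟩
  set t := (h1 * h2) ^ (m + 1) with ht
  have ht2 : t * t = h1 * h2 := by
    rw [ht, ← pow_add, show m + 1 + (m + 1) = (2 * m + 1) + 1 by ring, pow_succ, hpow', one_mul]
  have hinv := (EE_inverted hH h2').1 t (Subgroup.pow_mem _ hk _)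
  have h22 : h2 * h2 = 1 := by
    rw [← pow_two, ← h2'.2.1]
    exact pow_orderOf_eq_one h2
  have h2i : h2⁻¹ = h2 := inv_eq_of_mul_eq_one_left h22
  rw [h2i] at hinv
  -- `h2 t h2 = t⁻¹`, so `h2 t⁻¹ = t h2`
  have h3 : h2 * t⁻¹ = t * h2 := by
    rw [← hinv]
    calc h2 * (h2 * t * h2)⁻¹⁻¹ = h2 * (h2 * t * h2) := by simp
      _ = (h2 * h2) * t * h2 := by group
      _ = t * h2 := by rw [h22, one_mul]
  calc t * h2 * t⁻¹ = t * (h2 * t⁻¹) := by group
    _ = t * (t * h2) := by rw [h3]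
    _ = (t * t) * h2 := by group
    _ = h1 * h2 * h2 := by rw [ht2]
    _ = h1 := by rw [mul_assoc, h22, mul_one]

/-- The out-set on a line through `a` is contained in one `EE`-orbit. -/
theorem exists_EE_of_arrow (hH : HHyp H) {a x y : B} {l : BL} (hal : a ∈ l) (hxl : x ∈ l) (hyl : y ∈ l)
    (hx : Arrow H a x) (hy : Arrow H a y) : ∃ e ∈ EE H a, e.pt x = y := by
  obtain ⟨h, A, hh, hxA⟩ := hx
  obtain ⟨h', A', hh', hyA'⟩ := hy
  by_cases hAA : A' = A
  · subst hAA
    have hxy : x = y :=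
      (eq_or_eq hxl hyl hxA hyA').resolve_right (fun e => hh'.2.2.2.1 (e ▸ hal))
    exact ⟨1, (EE H a).one_mem, hxy⟩
  · obtain ⟨t, ht, htc⟩ := exists_conj hH hh' hh hAA
    refine ⟨t, ht, ?_⟩
    have haxis : t.ln A = A' := by
      refine axis_unique h' hh'.2.2.1 (fun p hp => ?_) hh'.2.2.2.2.1
      have h1 : t.pt⁻¹ p ∈ A := by
        rw [← t.inc]
        simpa using hp
      rw [← htc]
      show t.pt (h.pt (t.pt⁻¹ p)) = p
      rw [hh.2.2.2.2.1 _ h1]
      simp
    have h1 : t.pt x ∈ l := by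
      have := (t.inc x l).mpr hxl
      rwa [EE_ln ht hal] at this
    have h2 : t.pt x ∈ A' := by
      have := (t.inc x A).mpr hxA
      rwa [haxis] at this
    exact (eq_or_eq h1 hyl h2 hyA').resolve_right (fun e => hh'.2.2.2.1 (e ▸ hal))

theorem arrow_EE {a x : B} {e : Coll B BL} (he : e ∈ EE H a) (hx : Arrow H a x) :
    Arrow H a (e.pt x) := by
  obtain ⟨h, A, ⟨hH', hord, hne, haA, hP1, hP2⟩, hxA⟩ := hx
  refine ⟨e * h * e⁻¹, e.ln A, ⟨H.mul_mem (H.mul_mem he.1 hH') (H.inv_mem he.1), ?_, ?_, ?_, ?_, ?_⟩,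
    (e.inc x A).mpr hxA⟩
  · have := orderOf_injective (MulAut.conj e).toMonoidHom (MulAut.conj e).injective h
    simpa [MulAut.conj_apply, hord] using this
  · intro h0
    apply hne
    have h1 : h = e⁻¹ * (e * h * e⁻¹) * e := by group
    rw [h1, h0]
    simp
  · intro hm
    exact haA ((e.inc a A).mp (by rw [EE_pt_self he]; exact hm))
  · intro p hp
    have h1 : e.pt⁻¹ p ∈ A := by
      rw [← e.inc]
      simpa using hp
    show e.pt (h.pt (e.pt⁻¹ p)) = p
    rw [hP1 _ h1]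
    simp
  · intro m ham
    have h1 : e.ln⁻¹ m = m := by
      rw [Equiv.Perm.inv_eq_iff_eq]
      exact (EE_ln he ham).symm
    show e.ln (h.ln (e.ln⁻¹ m)) = m
    rw [h1, hP2 m ham, EE_ln he ham]

/-- `EE H a` acts on `l \ {a}`. -/
abbrev act {a : B} {l : BL} (hal : a ∈ l) : MulAction (EE H a) {x : B // x ∈ l ∧ x ≠ a} where
  smul e x := ⟨e.1.pt x.1, by
    have := (e.1.inc x.1 l).mpr x.2.1
    rwa [EE_ln e.2 hal] at this, fun h => x.2.2 (e.1.pt.injective (by rw [h, EE_pt_self e.2]))⟩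
  one_smul x := Subtype.ext rfl
  mul_smul e f x := Subtype.ext rfl

end HDefsOut

/-- Out-degree on a line through `a` divides `μ` (if nonempty); the out-set is one `EE`-orbit. -/
theorem outdeg_dvd {H : Subgroup (Coll B BL)} (hH : HHyp H) {a : B} {l : BL} (hal : a ∈ l) :
    (∀ x : B, x ∈ l → x ≠ a → ¬ Arrow H a x) ∨
      Nat.card {x : B // x ∈ l ∧ x ≠ a ∧ Arrow H a x} ∣ ProjectivePlane.order B BL := by
  classical
  by_cases hne : ∀ x : B, x ∈ l → x ≠ a → ¬ Arrow H a x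
  · exact Or.inl hne
  right
  push Not at hne
  obtain ⟨x0, hx0l, hx0a, hx0⟩ := hne
  letI := HDefsOut.act (H := H) hal
  let S := {x : B // x ∈ l ∧ x ≠ a}
  let G := EE H a
  let s0 : S := ⟨x0, hx0l, hx0a⟩
  have hstab : ∀ y z : S, MulAction.stabilizer G y ≤ MulAction.stabilizer G z := by
    intro y z e he
    have h1 : e.1.pt y.1 = y.1 := congrArg Subtype.val (MulAction.mem_stabilizer_iff.mp he)
    exact MulAction.mem_stabilizer_iff.mpr
      (Subtype.ext (HDefsOut.EE_stab e.2 hal y.2.1 y.2.2 z.2.1 h1))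
  have horb : ∀ y : S, Nat.card (MulAction.orbit G y) = Nat.card (MulAction.orbit G s0) := by
    intro y
    rw [Nat.card_coe_set_eq, Nat.card_coe_set_eq, ← MulAction.index_stabilizer,
      ← MulAction.index_stabilizer, le_antisymm (hstab y s0) (hstab s0 y)]
  have hS : Nat.card S = ProjectivePlane.order B BL := by
    have hcount := ProjectivePlane.pointCount_eq B l
    have h3 : Configuration.pointCount B l = Nat.card {p : B // p ∈ l} := rfl
    have h4 : Nat.card S = (({p : B | p ∈ l} \ {a}) : Set B).ncard := by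
      rw [← Nat.card_coe_set_eq]
      rfl
    have h5 : Nat.card {p : B // p ∈ l} = ({p : B | p ∈ l} : Set B).ncard := by
      rw [← Nat.card_coe_set_eq]
      rfl
    have h6 := Set.ncard_sdiff_singleton_add_one (s := ({p : B | p ∈ l} : Set B)) (a := a) hal
      (Set.toFinite _)
    omega
  have hOut : Nat.card {x : B // x ∈ l ∧ x ≠ a ∧ Arrow H a x} = Nat.card (MulAction.orbit G s0) := by
    refine Nat.card_congr ⟨fun x => ⟨⟨x.1, x.2.1, x.2.2.1⟩, ?_⟩, fun y => ⟨y.1.1, y.1.2.1, y.1.2.2, ?_⟩,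
      fun x => rfl, fun y => rfl⟩
    · obtain ⟨e, he, hex⟩ := HDefsOut.exists_EE_of_arrow hH hal hx0l x.2.1 hx0 x.2.2.2
      exact ⟨⟨e, he⟩, Subtype.ext hex⟩
    · obtain ⟨e, he⟩ := y.2
      have h1 : y.1.1 = e.1.pt x0 := (congrArg Subtype.val he).symm
      rw [h1]
      exact HDefsOut.arrow_EE e.2 hx0
  rw [hOut, ← hS, Nat.card_congr (MulAction.selfEquivSigmaOrbits G S), Nat.card_sigma]
  exact Finset.dvd_sum (fun ω _ => (horb _).symm.dvd)

/-- If `a` is full on `l` then `EE H a` is transitive on `l \ {a}`. -/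
theorem full_trans {H : Subgroup (Coll B BL)} (hH : HHyp H) {a : B} {l : BL} (hal : a ∈ l)
    (hfull : ∀ x : B, x ∈ l → x ≠ a → Arrow H a x) :
    ∀ x y : B, x ∈ l → y ∈ l → x ≠ a → y ≠ a → ∃ e ∈ EE H a, e.pt x = y :=
  fun x y hx hy hxa hya => HDefsOut.exists_EE_of_arrow hH hal hx hy (hfull x hx hxa) (hfull y hy hya)

end Cfsg.Agent.Lib.OW
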