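import Cfsg.Agent.Lib.OW.Basics

/-! Involution dichotomy: an involution of a finite plane of odd order whose fixed points
contain no quadrangle is a homology. -/

set_option autoImplicit false
set_option linter.unusedSectionVars false

namespace Cfsg.Agent.Lib.OW

open Configuration

variable {P L : Type*} [Membership P L] [Fintype P] [Fintype L] [ProjectivePlane P L]

namespace InvDich

open Nondegenerate HasPoints HasLines BasicsAux

/-- Non-collinear triple. -/
def NC (a b c : P) (L : Type*) [Membership P L] : Prop := ∀ l : L, ¬ (a ∈ l ∧ b ∈ l ∧ c ∈ l)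

/-- Parity: an involution on a finite type: cardinality mod 2 = fixed points mod 2. -/
theorem inv_parity {α : Type*} [Fintype α] (f : α → α) (hf : ∀ x, f (f x) = x) :
    Even (Fintype.card α) ↔ Even (Nat.card {x : α // f x = x}) := by
  classical
  let e : Equiv.Perm α := ⟨f, f, hf, hf⟩
  have h2 : e ^ 2 = 1 := by
    ext x; simp [pow_two, e, hf]
  have h3 := Equiv.Perm.two_dvd_card_support h2
  have h4 : Fintype.card α = (Equiv.Perm.support e).card +
      Nat.card {x : α // f x = x} := by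
    have h5 : Nat.card {x : α // f x = x} = (Finset.univ.filter (fun x => f x = x)).card := by
      rw [Nat.card_eq_fintype_card, Fintype.card_subtype]
    rw [h5]
    have h6 : Equiv.Perm.support e = Finset.univ.filter (fun x => ¬ f x = x) := by
      ext x; simp [e, Equiv.Perm.mem_support]
    rw [h6, add_comm, Finset.card_filter_add_card_filter_not, Finset.card_univ]
  rw [h4]
  obtain ⟨k, hk⟩ := h3
  rw [hk]
  constructor
  · intro h; rw [Nat.even_add] at h
    exact h.1 ⟨k, by ring⟩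
  · intro h; rw [Nat.even_add]
    exact ⟨fun _ => h, fun _ => ⟨k, by ring⟩⟩

/-- A fixed line with a fixed point has a second fixed point. -/
theorem second_fixed (h : Coll P L) (h2 : ∀ p, h.pt (h.pt p) = p)
    (hodd : Odd (ProjectivePlane.order P L)) {l : L} (hl : h.ln l = l) {t : P} (ht : t ∈ l)
    (hft : h.pt t = t) : ∃ t' : P, t' ∈ l ∧ t' ≠ t ∧ h.pt t' = t' := by
  classical
  by_contra hno
  push Not at hno
  have hmem : ∀ q, q ∈ l → h.pt q ∈ l := fun q hq => by
    have := (h.inc q l).mpr hq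
    rwa [hl] at this
  let f : {q : P // q ∈ l} → {q : P // q ∈ l} := fun q => ⟨h.pt q.1, hmem q.1 q.2⟩
  have hf : ∀ x, f (f x) = x := fun x => Subtype.ext (h2 x.1)
  have hp := inv_parity f hf
  have hc : Fintype.card {q : P // q ∈ l} = ProjectivePlane.order P L + 1 := by
    rw [← ProjectivePlane.pointCount_eq P l, pointCount, Nat.card_eq_fintype_card]
  have hev : Even (Fintype.card {q : P // q ∈ l}) := by
    rw [hc]; exact hodd.add_one
  have hfx := hp.mp hev
  have huniq : Nat.card {x : {q : P // q ∈ l} // f x = x} = 1 := by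
    rw [Nat.card_eq_one_iff_unique]
    refine ⟨⟨?_⟩, ⟨⟨⟨t, ht⟩, Subtype.ext hft⟩⟩⟩
    rintro ⟨⟨a, ha⟩, ha'⟩ ⟨⟨b, hb⟩, hb'⟩
    have ha2 : h.pt a = a := congrArg Subtype.val ha'
    have hb2 : h.pt b = b := congrArg Subtype.val hb'
    have e1 : a = t := by
      by_contra hne; exact hno a ha hne ha2
    have e2 : b = t := by
      by_contra hne; exact hno b hb hne hb2
    subst e1; subst e2; rfl
  rw [huniq] at hfx
  exact absurd hfx (by decide)

/-- A fixed point exists. -/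
theorem exists_fixed (h : Coll P L) (h2 : ∀ p, h.pt (h.pt p) = p)
    (hodd : Odd (ProjectivePlane.order P L)) : ∃ t : P, h.pt t = t := by
  classical
  by_contra hno
  push Not at hno
  have hp := inv_parity h.pt h2
  have hc := ProjectivePlane.card_points P L
  have h0 : Nat.card {x : P // h.pt x = x} = 0 := by
    have : IsEmpty {x : P // h.pt x = x} := ⟨fun x => hno x.1 x.2⟩
    exact Nat.card_of_isEmpty
  have : Even (Fintype.card P) := hp.mpr (by rw [h0]; exact Even.zero)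
  rw [hc] at this
  obtain ⟨k, hk⟩ := hodd
  obtain ⟨j, hj⟩ := this
  have : (2 * k + 1) ^ 2 + (2 * k + 1) + 1 = j + j := by
    rw [← hj, hk]
  have h5 : (2 * k + 1) ^ 2 + (2 * k + 1) + 1 = 2 * (2 * k ^ 2 + 3 * k + 1) + 1 := by ring
  omega

/-- A non-fixed point lies on a fixed line. -/
theorem fixed_line_through (h : Coll P L) (h2 : ∀ p, h.pt (h.pt p) = p) {p : P}
    (hp : h.pt p ≠ p) : ∃ l : L, p ∈ l ∧ h.ln l = l := by
  have hne : p ≠ h.pt p := fun e => hp e.symm
  obtain ⟨h1, h3⟩ := mkLine_ax (L := L) hne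
  refine ⟨mkLine hne, h1, ?_⟩
  have h4 : h.pt p ∈ h.ln (mkLine hne) := (h.inc p _).mpr h1
  have h5 : p ∈ h.ln (mkLine hne) := by
    have := (h.inc (h.pt p) _).mpr h3
    rwa [h2] at this
  exact (eq_or_eq h5 h4 h1 h3).resolve_left hne

/-- A non-fixed line has a fixed point. -/
theorem fixed_point_on (h : Coll P L) (h2 : ∀ l, h.ln (h.ln l) = l) (m : L) (hm : h.ln m ≠ m) :
    ∃ t : P, t ∈ m ∧ h.pt t = t := by
  have hne : h.ln m ≠ m := hm
  obtain ⟨h1, h3⟩ := mkPoint_ax (P := P) hne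
  refine ⟨mkPoint hne, h3, ?_⟩
  have h4 : h.pt (mkPoint hne) ∈ h.ln m := (h.inc _ _).mpr h3
  have h5 : h.pt (mkPoint hne) ∈ m := by
    have := (h.inc _ _).mpr h1
    rwa [h2] at this
  exact (eq_or_eq h4 h1 h5 h3).resolve_right hne

/-- A line through a point avoiding a given point and a given line. -/
theorem exists_line_avoid (p x : P) (hpx : p ≠ x) (l₀ : L) :
    ∃ m : L, p ∈ m ∧ x ∉ m ∧ m ≠ l₀ := by
  classical
  obtain ⟨n, hn⟩ := exists_line (P := P) (L := L) p
  obtain ⟨h1, h3⟩ := mkLine_ax (L := L) hpx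
  have hne : (mkLine hpx : L) ≠ n := fun e => hn (e ▸ h1)
  obtain ⟨h4, h5⟩ := mkPoint_ax (P := P) hne
  by_cases hl : l₀ = n
  · obtain ⟨q, hq, hq1, _⟩ := exists_third (P := P) n (mkPoint hne) (mkPoint hne)
    have hpq : p ≠ q := fun e => hn (e ▸ hq)
    obtain ⟨h6, h7⟩ := mkLine_ax (L := L) hpq
    refine ⟨mkLine hpq, h6, fun hx => ?_, fun e => hn (by rw [← hl, ← e]; exact h6)⟩
    have e1 : (mkLine hpq : L) = mkLine hpx := (eq_or_eq h6 hx h1 h3).resolve_left hpx
    rw [e1] at h7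
    exact hq1 ((eq_or_eq h7 h4 hq h5).resolve_right hne)
  · obtain ⟨h8, h9⟩ := mkPoint_ax (P := P) hl
    obtain ⟨q, hq, hq1, hq2⟩ := exists_third (P := P) n (mkPoint hne) (mkPoint hl)
    have hpq : p ≠ q := fun e => hn (e ▸ hq)
    obtain ⟨h6, h7⟩ := mkLine_ax (L := L) hpq
    refine ⟨mkLine hpq, h6, fun hx => ?_, fun e => ?_⟩
    · have e1 : (mkLine hpq : L) = mkLine hpx := (eq_or_eq h6 hx h1 h3).resolve_left hpx
      rw [e1] at h7
      exact hq1 ((eq_or_eq h7 h4 hq h5).resolve_right hne)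
    · rw [e] at h7
      exact hq2 ((eq_or_eq h7 h8 hq h9).resolve_right hl)

/-- A quadrangle hypothesis. -/
def NoQuad (h : Coll P L) : Prop :=
  ∀ a b c d : P, h.pt a = a → h.pt b = b → h.pt c = c → h.pt d = d →
    a ≠ b → a ≠ c → a ≠ d → b ≠ c → b ≠ d → c ≠ d →
    NC a b c L → NC a b d L → NC a c d L → NC b c d L → False

/-- Core: a fixed triangle with an extra fixed point on a side. -/
theorem core (h : Coll P L) (h1 : h ≠ 1) (h2 : ∀ p, h.pt (h.pt p) = p)
    (hodd : Odd (ProjectivePlane.order P L)) (hq : NoQuad h) {x y z w : P} {A : L}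
    (hxA : x ∈ A) (hyA : y ∈ A) (hwA : w ∈ A) (hzA : z ∉ A) (hxy : x ≠ y) (hwx : w ≠ x) (hwy : w ≠ y)
    (fx : h.pt x = x) (fy : h.pt y = y) (fz : h.pt z = z) (fw : h.pt w = w) : IsHomology h z A := by
  have hxz : x ≠ z := fun e => hzA (e ▸ hxA)
  have hyz : y ≠ z := fun e => hzA (e ▸ hyA)
  have hwz : w ≠ z := fun e => hzA (e ▸ hwA)
  obtain ⟨hxB, hzB⟩ := mkLine_ax (L := L) hxz
  obtain ⟨hyC, hzC⟩ := mkLine_ax (L := L) hyz
  set B : L := mkLine hxz with hB
  set C : L := mkLine hyz with hC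
  have hAB : A ≠ B := fun e => hzA (e ▸ hzB)
  have hAC : A ≠ C := fun e => hzA (e ▸ hzC)
  have hBC : B ≠ C := fun e => by
    have : A = B := (eq_or_eq hxA hyA hxB (e ▸ hyC)).resolve_left hxy
    exact hAB this
  have hAf : h.ln A = A := ln_fix h hxy hxA hyA fx fy
  have F5 : ∀ f : P, h.pt f = f → f ∈ A ∨ f = z := by
    intro f ff
    by_contra hcon
    push Not at hcon
    obtain ⟨hfA, hfz⟩ := hcon
    have hfx : x ≠ f := fun e => hfA (e ▸ hxA)
    have hfy : y ≠ f := fun e => hfA (e ▸ hyA)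
    have hfw : w ≠ f := fun e => hfA (e ▸ hwA)
    by_cases hfB : f ∈ B
    · refine hq y z w f fy fz fw ff hyz hwy.symm hfy hwz.symm hfz.symm hfw ?_ ?_ ?_ ?_
      · rintro l ⟨a1, a2, a3⟩
        have : l = A := (eq_or_eq a1 a3 hyA hwA).resolve_left hwy.symm
        exact hzA (this ▸ a2)
      · rintro l ⟨a1, a2, a3⟩
        have e1 : l = C := (eq_or_eq a1 a2 hyC hzC).resolve_left hyz
        exact hBC ((eq_or_eq hfB hzB (e1 ▸ a3) hzC).resolve_left hfz)
      · rintro l ⟨a1, a2, a3⟩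
        have : l = A := (eq_or_eq a1 a2 hyA hwA).resolve_left hwy.symm
        exact hfA (this ▸ a3)
      · rintro l ⟨a1, a2, a3⟩
        have e1 : l = B := (eq_or_eq a1 a3 hzB hfB).resolve_left hfz.symm
        exact hAB ((eq_or_eq hwA hxA (e1 ▸ a2) hxB).resolve_left hwx)
    by_cases hfC : f ∈ C
    · refine hq x z w f fx fz fw ff hxz hwx.symm hfx hwz.symm hfz.symm hfw ?_ ?_ ?_ ?_
      · rintro l ⟨a1, a2, a3⟩
        have : l = A := (eq_or_eq a1 a3 hxA hwA).resolve_left hwx.symm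
        exact hzA (this ▸ a2)
      · rintro l ⟨a1, a2, a3⟩
        have e1 : l = B := (eq_or_eq a1 a2 hxB hzB).resolve_left hxz
        exact hfB (e1 ▸ a3)
      · rintro l ⟨a1, a2, a3⟩
        have : l = A := (eq_or_eq a1 a2 hxA hwA).resolve_left hwx.symm
        exact hfA (this ▸ a3)
      · rintro l ⟨a1, a2, a3⟩
        have e1 : l = C := (eq_or_eq a1 a3 hzC hfC).resolve_left hfz.symm
        exact hAC ((eq_or_eq hwA hyA (e1 ▸ a2) hyC).resolve_left hwy)
    · refine hq x y z f fx fy fz ff hxy hxz hfx hyz hfy hfz.symm ?_ ?_ ?_ ?_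
      · rintro l ⟨a1, a2, a3⟩
        have : l = A := (eq_or_eq a1 a2 hxA hyA).resolve_left hxy
        exact hzA (this ▸ a3)
      · rintro l ⟨a1, a2, a3⟩
        have : l = A := (eq_or_eq a1 a2 hxA hyA).resolve_left hxy
        exact hfA (this ▸ a3)
      · rintro l ⟨a1, a2, a3⟩
        have : l = B := (eq_or_eq a1 a2 hxB hzB).resolve_left hxz
        exact hfB (this ▸ a3)
      · rintro l ⟨a1, a2, a3⟩
        have : l = C := (eq_or_eq a1 a2 hyC hzC).resolve_left hyz
        exact hfC (this ▸ a3)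
  have F6 : ∀ p : P, p ∈ A → h.pt p = p := by
    intro p hpA
    have hzp : z ≠ p := fun e => hzA (e ▸ hpA)
    obtain ⟨hzm, hpm⟩ := mkLine_ax (L := L) hzp
    set m : L := mkLine hzp with hm
    have hmA : m ≠ A := fun e => hzA (e ▸ hzm)
    obtain ⟨q, hqm, hqz, hqp⟩ := exists_third (P := P) m z p
    have hqA : q ∉ A := fun hqA => hmA ((eq_or_eq hqm hpm hqA hpA).resolve_left hqp)
    have hqf : h.pt q ≠ q := fun e => by
      rcases F5 q e with h3 | h3
      · exact hqA h3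
      · exact hqz h3
    obtain ⟨lq, hq1, hq2⟩ := fixed_line_through h h2 hqf
    have hlA : lq ≠ A := fun e => hqA (e ▸ hq1)
    obtain ⟨ht1, ht2⟩ := mkPoint_ax (P := P) hlA
    set t : P := mkPoint hlA with ht
    have ftt : h.pt t = t := pt_fix h hlA ht1 ht2 hq2 hAf
    obtain ⟨t', ht'1, ht'2, ht'3⟩ := second_fixed h h2 hodd hq2 ht1 ftt
    have hzl : z ∈ lq := by
      rcases F5 t' ht'3 with h3 | h3
      · exact absurd ((eq_or_eq ht'1 ht1 h3 ht2).resolve_left ht'2) hlA
      · exact h3 ▸ ht'1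
    have e1 : lq = m := (eq_or_eq hzl hq1 hzm hqm).resolve_left hqz.symm
    have e2 : t = p := (eq_or_eq ht1 (e1.symm ▸ hpm) ht2 hpA).resolve_right hlA
    rw [← e2]; exact ftt
  refine ⟨h1, hzA, F6, ?_⟩
  intro l hzl
  have hlA : l ≠ A := fun e => hzA (e ▸ hzl)
  obtain ⟨hu1, hu2⟩ := mkPoint_ax (P := P) hlA
  have huz : (mkPoint hlA : P) ≠ z := fun e => hzA (e ▸ hu2)
  exact ln_fix h huz hu1 hzl (F6 _ hu2) fz

/-- THE DICHOTOMY. -/
theorem inv_homology (h : Coll P L) (hh : orderOf h = 2)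
    (hodd : Odd (ProjectivePlane.order P L)) (hq : NoQuad h) : ∃ (c : P) (A : L), IsHomology h c A := by
  have h1 : h ≠ 1 := by
    rintro rfl; simp at hh
  have h2 : ∀ p, h.pt (h.pt p) = p := by
    intro p
    have h3 : h * h = 1 := by
      rw [← pow_two, ← hh, pow_orderOf_eq_one]
    have := congrArg (fun g : Coll P L => g.pt p) h3
    simpa using this
  have h2' : ∀ l, h.ln (h.ln l) = l := by
    intro l
    have h3 : h * h = 1 := by
      rw [← pow_two, ← hh, pow_orderOf_eq_one]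
    have := congrArg (fun g : Coll P L => g.ln l) h3
    simpa using this
  obtain ⟨x, fx⟩ := exists_fixed h h2 hodd
  -- a second fixed point
  have hS2 : ∃ y : P, y ≠ x ∧ h.pt y = y := by
    by_contra hno
    push Not at hno
    obtain ⟨l₀, _⟩ := exists_line (P := P) (L := L) x
    obtain ⟨p, _, hpx, _⟩ := exists_third (P := P) l₀ x x
    have hpf : h.pt p ≠ p := hno p hpx
    obtain ⟨lp, hp1, hp2⟩ := fixed_line_through h h2 hpf
    obtain ⟨m, hm1, hm2, hm3⟩ := exists_line_avoid p x hpx lp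
    have hmf : h.ln m = m := by
      by_contra hcon
      obtain ⟨t, ht1, ht2⟩ := fixed_point_on h h2' m hcon
      by_cases htx : t = x
      · exact hm2 (htx ▸ ht1)
      · exact hno t htx ht2
    exact hpf (pt_fix h hm3 hm1 hp1 hmf hp2)
  obtain ⟨y, hyx, fy⟩ := hS2
  have hxy : x ≠ y := hyx.symm
  obtain ⟨hxA, hyA⟩ := mkLine_ax (L := L) hxy
  set A : L := mkLine hxy with hA
  have hAf : h.ln A = A := ln_fix h hxy hxA hyA fx fy
  -- a fixed point off `A`
  have hS3 : ∃ z : P, z ∉ A ∧ h.pt z = z := by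
    by_contra hno
    push Not at hno
    obtain ⟨p, hp⟩ := exists_point (P := P) A
    have hpf : h.pt p ≠ p := hno p hp
    obtain ⟨lp, hp1, hp2⟩ := fixed_line_through h h2 hpf
    have hlA : lp ≠ A := fun e => hp (e ▸ hp1)
    obtain ⟨ht1, ht2⟩ := mkPoint_ax (P := P) hlA
    have ftt := pt_fix h hlA ht1 ht2 hp2 hAf
    obtain ⟨t', ht'1, ht'2, ht'3⟩ := second_fixed h h2 hodd hp2 ht1 ftt
    have ht'A : t' ∈ A := by
      by_contra hcon
      exact hno t' hcon ht'3
    exact hlA ((eq_or_eq ht'1 ht1 ht'A ht2).resolve_left ht'2)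
  obtain ⟨z, hzA, fz⟩ := hS3
  have hxz : x ≠ z := fun e => hzA (e ▸ hxA)
  have hyz : y ≠ z := fun e => hzA (e ▸ hyA)
  obtain ⟨hxB, hzB⟩ := mkLine_ax (L := L) hxz
  obtain ⟨hyC, hzC⟩ := mkLine_ax (L := L) hyz
  set B : L := mkLine hxz with hB
  set C : L := mkLine hyz with hC
  have hAB : A ≠ B := fun e => hzA (e ▸ hzB)
  have hAC : A ≠ C := fun e => hzA (e ▸ hzC)
  have hBC : B ≠ C := fun e => by
    have : A = B := (eq_or_eq hxA hyA hxB (e ▸ hyC)).resolve_left hxy
    exact hAB this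
  -- every fixed point is on a side
  have hside : ∀ f : P, h.pt f = f → f ∈ A ∨ f ∈ B ∨ f ∈ C := by
    intro f ff
    by_contra hcon
    push Not at hcon
    obtain ⟨hfA, hfB, hfC⟩ := hcon
    refine hq x y z f fx fy fz ff hxy hxz (fun e => hfA (e ▸ hxA)) hyz (fun e => hfA (e ▸ hyA))
      (fun e => hfB (e ▸ hzB)) ?_ ?_ ?_ ?_
    · rintro l ⟨a1, a2, a3⟩
      have : l = A := (eq_or_eq a1 a2 hxA hyA).resolve_left hxy
      exact hzA (this ▸ a3)
    · rintro l ⟨a1, a2, a3⟩
      have : l = A := (eq_or_eq a1 a2 hxA hyA).resolve_left hxy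
      exact hfA (this ▸ a3)
    · rintro l ⟨a1, a2, a3⟩
      have : l = B := (eq_or_eq a1 a2 hxB hzB).resolve_left hxz
      exact hfB (this ▸ a3)
    · rintro l ⟨a1, a2, a3⟩
      have : l = C := (eq_or_eq a1 a2 hyC hzC).resolve_left hyz
      exact hfC (this ▸ a3)
  -- a point off the sides
  obtain ⟨u, huA, hux, huy⟩ := exists_third (P := P) A x y
  have hzu : z ≠ u := fun e => hzA (e ▸ huA)
  obtain ⟨hzm, hum⟩ := mkLine_ax (L := L) hzu
  set m : L := mkLine hzu with hm
  have hmA : m ≠ A := fun e => hzA (e ▸ hzm)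
  obtain ⟨p, hpm, hpu, hpz⟩ := exists_third (P := P) m u z
  have hpA : p ∉ A := fun hh' => hmA ((eq_or_eq hpm hum hh' huA).resolve_left hpu)
  have hpB : p ∉ B := fun hh' => by
    have e1 : m = B := (eq_or_eq hpm hzm hh' hzB).resolve_left hpz
    exact hAB ((eq_or_eq huA hxA (e1 ▸ hum) hxB).resolve_left hux)
  have hpC : p ∉ C := fun hh' => by
    have e1 : m = C := (eq_or_eq hpm hzm hh' hzC).resolve_left hpz
    exact hAC ((eq_or_eq huA hyA (e1 ▸ hum) hyC).resolve_left huy)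
  have hpf : h.pt p ≠ p := fun e => by
    rcases hside p e with h3 | h3 | h3
    · exact hpA h3
    · exact hpB h3
    · exact hpC h3
  obtain ⟨lp, hp1, hp2⟩ := fixed_line_through h h2 hpf
  have hlA : lp ≠ A := fun e => hpA (e ▸ hp1)
  have hlB : lp ≠ B := fun e => hpB (e ▸ hp1)
  have hlC : lp ≠ C := fun e => hpC (e ▸ hp1)
  obtain ⟨ht1, ht2⟩ := mkPoint_ax (P := P) hlA
  set t : P := mkPoint hlA with ht
  have ftt : h.pt t = t := pt_fix h hlA ht1 ht2 hp2 hAf
  obtain ⟨t', ht'1, ht'2, ft'⟩ := second_fixed h h2 hodd hp2 ht1 ftt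
  have ht'A : t' ∉ A := fun h3 => hlA ((eq_or_eq ht'1 ht1 h3 ht2).resolve_left ht'2)
  by_cases htx : t = x
  · -- `t = x`: `t'` lies on `C`
    have ht'B : t' ∉ B := fun h3 => by
      rw [htx] at ht1 ht'2
      exact hlB ((eq_or_eq ht'1 ht1 h3 hxB).resolve_left ht'2)
    have ht'C : t' ∈ C := by
      rcases hside t' ft' with h3 | h3 | h3
      · exact absurd h3 ht'A
      · exact absurd h3 ht'B
      · exact h3
    have hne1 : t' ≠ y := fun e => ht'A (e ▸ hyA)
    have hne2 : t' ≠ z := fun e => ht'B (e ▸ hzB)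
    have hxC : x ∉ C := fun h3 => hAC ((eq_or_eq hxA hyA h3 hyC).resolve_left hxy)
    exact ⟨x, C, core h h1 h2 hodd hq hyC hzC ht'C hxC hyz hne1 hne2 fy fz fx ft'⟩
  by_cases hty : t = y
  · have ht'C : t' ∉ C := fun h3 => by
      rw [hty] at ht1 ht'2
      exact hlC ((eq_or_eq ht'1 ht1 h3 hyC).resolve_left ht'2)
    have ht'B : t' ∈ B := by
      rcases hside t' ft' with h3 | h3 | h3
      · exact absurd h3 ht'A
      · exact h3
      · exact absurd h3 ht'C
    have hne1 : t' ≠ x := fun e => ht'A (e ▸ hxA)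
    have hne2 : t' ≠ z := fun e => ht'C (e ▸ hzC)
    have hyB : y ∉ B := fun h3 => hAB ((eq_or_eq hxA hyA hxB h3).resolve_left hxy)
    exact ⟨y, B, core h h1 h2 hodd hq hxB hzB ht'B hyB hxz hne1 hne2 fx fz fy ft'⟩
  · exact ⟨z, A, core h h1 h2 hodd hq hxA hyA ht2 hzA hxy htx hty fx fy fz ftt⟩

end InvDich

end Cfsg.Agent.Lib.OW
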