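import Cfsg.Agent.Lib.OW.Sub
import Cfsg.Agent.Lib.OW.InvDich

/-! [O2c] Involutions of the induced group on a maximal planar fixed plane are homologies. -/

set_option autoImplicit false
set_option linter.unusedSectionVars false

namespace Cfsg.Agent.Lib.OW

open Configuration

universe u v

variable {P : Type u} {L : Type v} [Membership P L] [Fintype P] [Fintype L] [ProjectivePlane P L]

namespace OddNPPInv

open Nondegenerate HasPoints HasLines BasicsAux

/-- Point stabilizer. -/
def stabPt (p : P) : Subgroup (Coll P L) where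
  carrier := {g | g.pt p = p}
  one_mem' := rfl
  mul_mem' := by
    intro a b ha hb
    show a.pt (b.pt p) = p
    rw [show b.pt p = p from hb]; exact ha
  inv_mem' := by
    intro a ha
    show a.pt⁻¹ p = p
    rw [Equiv.Perm.inv_eq_iff_eq]; exact (show a.pt p = p from ha).symm

/-- A line through two points fixed by `W`, is fixed by `W`. -/
theorem line_fixed {W : Subgroup (Coll P L)} {a b : P} (hab : a ≠ b) {l : L} (ha : a ∈ l) (hb : b ∈ l)
    (fa : ∀ w ∈ W, w.pt a = a) (fb : ∀ w ∈ W, w.pt b = b) : ∀ w ∈ W, w.ln l = l :=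
  fun w hw => ln_fix w hab ha hb (fa w hw) (fb w hw)

theorem induced_inv_aux {G D : Subgroup (Coll P L)}
    (hDG : D ≤ G) (hD2 : IsPGroup 2 D) (hQ : HasQuad D)
    (hmax : ∀ D' : Subgroup (Coll P L), D < D' → D' ≤ G → IsPGroup 2 D' → ¬ HasQuad D')
    (hodd : letI := fixPlane D hQ; Odd (ProjectivePlane.order (FixP D) (FixL D))) :
    letI := fixPlane D hQ
    letI := Fintype.ofFinite (FixP D)
    letI := Fintype.ofFinite (FixL D)
    ∀ h ∈ ((G.subgroupOf (Subgroup.normalizer (D : Set (Coll P L))))).map (restr D), orderOf h = 2 →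
      ∃ (c : FixP D) (A : FixL D), IsHomology h c A := by
  classical
  letI := fixPlane D hQ
  letI := Fintype.ofFinite (FixP D)
  letI := Fintype.ofFinite (FixL D)
  intro h hh hord
  rw [Subgroup.mem_map] at hh
  obtain ⟨x, hxG, hxh⟩ := hh
  have hxG' : x.1 ∈ G := Subgroup.mem_subgroupOf.mp hxG
  have hx0 : orderOf x ≠ 0 := (orderOf_pos x).ne'
  obtain ⟨s, r, hr, hsr⟩ := Nat.exists_eq_two_pow_mul_odd hx0
  -- the 2-element lift
  have hhr : h ^ r = h := by
    obtain ⟨k, hk⟩ := hr
    have h2 : h ^ 2 = 1 := by rw [← hord]; exact pow_orderOf_eq_one h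
    rw [hk, pow_add, pow_mul, h2, one_pow, one_mul, pow_one]
  set y : (Subgroup.normalizer (D : Set (Coll P L))) := x ^ r with hy
  have hyh : restr D y = h := by
    rw [hy, map_pow, hxh, hhr]
  have hyG : y.1 ∈ G := by
    rw [hy]; simpa using G.pow_mem hxG' r
  have hy2 : y.1 ^ (2 ^ s) = 1 := by
    have : y ^ (2 ^ s) = 1 := by
      rw [hy, ← pow_mul, mul_comm, ← hsr, pow_orderOf_eq_one]
    simpa using congrArg Subtype.val this
  -- the larger group
  set D' : Subgroup (Coll P L) := D ⊔ Subgroup.zpowers y.1 with hD'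
  have hz2 : IsPGroup 2 (Subgroup.zpowers y.1) := by
    rintro ⟨g, k, rfl⟩
    refine ⟨s, ?_⟩
    apply Subtype.ext
    show ((y.1 ^ k) ^ (2 ^ s) : Coll P L) = 1
    rw [← zpow_natCast, ← zpow_mul, mul_comm, zpow_mul, zpow_natCast, hy2, one_zpow]
  have hD'2 : IsPGroup 2 D' := by
    exact IsPGroup.to_sup_of_normal_left' hD2 hz2 ((Subgroup.zpowers_le).2 y.2)
  have hD'G : D' ≤ G := sup_le hDG ((Subgroup.zpowers_le).2 hyG)
  have hyfix : ∀ p : FixP D, h.pt p = p → y.1.pt p.1 = p.1 := by
    intro p hp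
    have := restr_pt D y p
    rw [hyh, hp] at this
    exact this.symm
  have hlt : D < D' := by
    refine lt_of_le_of_ne le_sup_left ?_
    intro e
    have hyD : y.1 ∈ D := e.ge ((le_sup_right : Subgroup.zpowers y.1 ≤ D') (Subgroup.mem_zpowers y.1))
    have : h = 1 := by
      ext1
      · ext p
        have := restr_pt D y p
        rw [hyh] at this
        rw [this]
        exact p.2 _ hyD
      · ext l
        have := restr_ln D y l
        rw [hyh] at this
        rw [this]
        exact l.2 _ hyD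
    rw [this] at hord
    simp at hord
  have hnoq := hmax D' hlt hD'G hD'2
  refine InvDich.inv_homology h hord hodd ?_
  intro a b c d fa fb fc fd hab hac had hbc hbd hcd n1 n2 n3 n4
  apply hnoq
  -- points in `FixP D'`
  have lift : ∀ p : FixP D, h.pt p = p → ∀ w ∈ D', w.pt p.1 = p.1 := by
    intro p hp w hw
    have hle : D' ≤ stabPt p.1 := sup_le (fun u hu => p.2 u hu)
      ((Subgroup.zpowers_le).2 (hyfix p hp))
    exact hle hw
  have sub : ∀ {p q : FixP D}, p ≠ q → p.1 ≠ q.1 := fun hpq e => hpq (Subtype.ext e)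
  have nc : ∀ p q r' : FixP D, p ≠ q → InvDich.NC p q r' (FixL D) →
      ∀ l : L, ¬ (p.1 ∈ l ∧ q.1 ∈ l ∧ r'.1 ∈ l) := by
    rintro p q r' hpq hn l ⟨h1, h2, h3⟩
    have hlf : ∀ w ∈ D, w.ln l = l := line_fixed (sub hpq) h1 h2 p.2 q.2
    exact hn ⟨l, hlf⟩ ⟨h1, h2, h3⟩
  refine ⟨⟨a.1, lift a fa⟩, ⟨b.1, lift b fb⟩, ⟨c.1, lift c fc⟩, ⟨d.1, lift d fd⟩,
    fun e => hab (Subtype.ext (congrArg (fun t : FixP D' => t.1) e)),
    fun e => hac (Subtype.ext (congrArg (fun t : FixP D' => t.1) e)),
    fun e => had (Subtype.ext (congrArg (fun t : FixP D' => t.1) e)),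
    fun e => hbc (Subtype.ext (congrArg (fun t : FixP D' => t.1) e)),
    fun e => hbd (Subtype.ext (congrArg (fun t : FixP D' => t.1) e)),
    fun e => hcd (Subtype.ext (congrArg (fun t : FixP D' => t.1) e)), ?_⟩
  intro l
  exact ⟨nc a b c hab n1 l, nc a b d hab n2 l, nc a c d hac n3 l, nc b c d hbc n4 l⟩

end OddNPPInv

end Cfsg.Agent.Lib.OW
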