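import Cfsg.Agent.Lib.OW.HDefs
import Cfsg.Agent.Lib.OW.LemmaM
import Cfsg.Agent.Lib.OW.H5

/-! Theorem H. See forum 'S3732 notes'. -/

set_option autoImplicit false
set_option linter.unusedSectionVars false

namespace Cfsg.Agent.Lib.OW

open Configuration

variable {B BL : Type*} [Membership B BL] [Fintype B] [Fintype BL] [ProjectivePlane B BL]

namespace NoNonadj

open Nondegenerate HasPoints HasLines BasicsAux

variable {H : Subgroup (Coll B BL)}

theorem mul_self_of_order {X : Type*} [Group X] {h : X} (hord : orderOf h = 2) : h * h = 1 := by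
  rw [← sq, ← hord]
  exact pow_orderOf_eq_one h

theorem mem_TT' {τ : Coll B BL} {A : BL} :
    τ ∈ TT H A ↔ τ ∈ H ∧ (τ = 1 ∨ ∃ c : B, IsElation τ c A) := Iff.rfl

theorem mem_EE' {τ : Coll B BL} {a : B} :
    τ ∈ EE H a ↔ τ ∈ H ∧ (τ = 1 ∨ ∃ A : BL, IsElation τ a A) := Iff.rfl

/-- The centre of a perspectivity is fixed. -/
theorem centre_fixed {g : Coll B BL} {c : B} {A : BL} (hg : IsPersp g c A) : g.pt c = c := by
  obtain ⟨m, hm⟩ := exists_line (P := B) (L := BL) c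
  obtain ⟨u₁, hu₁, -, -⟩ := exists_third m c c
  obtain ⟨u₂, hu₂, hu₂₁, -⟩ := exists_third m u₁ u₁
  have h1 : c ≠ u₁ := fun e => hm (e ▸ hu₁)
  have h2 : c ≠ u₂ := fun e => hm (e ▸ hu₂)
  have hl₁ := mkLine_ax (L := BL) h1
  have hl₂ := mkLine_ax (L := BL) h2
  have hne : (mkLine h1 : BL) ≠ mkLine h2 := by
    intro e
    have h3 : u₂ ∈ (mkLine h1 : BL) := by
      rw [e]
      exact hl₂.2
    have h4 : (mkLine h1 : BL) = m := (eq_or_eq hl₁.2 h3 hu₁ hu₂).resolve_left (Ne.symm hu₂₁)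
    exact hm (h4 ▸ hl₁.1)
  exact pt_fix g hne hl₁.1 hl₂.1 (hg.2 _ hl₁.1) (hg.2 _ hl₂.1)

theorem eq_centre_of_fixed {g : Coll B BL} {c x : B} {A : BL} (hg1 : g ≠ 1) (hg : IsPersp g c A)
    (hx : g.pt x = x) (hxA : x ∉ A) : x = c := by
  have h1 : IsPersp g x A := by
    refine ⟨hg.1, fun l hl => ?_⟩
    have hne : l ≠ A := by
      rintro rfl
      exact hxA hl
    have hy := mkPoint_ax (P := B) hne
    have hyx : x ≠ mkPoint hne := fun h => hxA (h ▸ hy.2)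
    exact ln_fix g hyx hl hy.1 hx (hg.1 _ hy.2)
  exact (persp_unique g hg1 h1 hg).1

theorem centre_mem {g : Coll B BL} {y x : B} {A m : BL} (hg : IsPersp g y A) (hx : g.pt x ≠ x)
    (hxm : x ∈ m) (hgm : g.pt x ∈ m) : y ∈ m := by
  have hy := centre_fixed hg
  have hxy : x ≠ y := by
    rintro rfl
    exact hx hy
  have hn := mkLine_ax (L := BL) hxy
  have hf := hg.2 _ hn.2
  have h1 : g.pt x ∈ (mkLine hxy : BL) := by
    have := (g.inc x (mkLine hxy)).mpr hn.1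
    rwa [hf] at this
  have h2 : (mkLine hxy : BL) = m := (eq_or_eq hn.1 h1 hxm hgm).resolve_left (Ne.symm hx)
  rw [← h2]
  exact hn.2

theorem conj_persp {h g : Coll B BL} {c : B} {A : BL} (hh : IsPersp h c A) :
    IsPersp (g * h * g⁻¹) (g.pt c) (g.ln A) := by
  constructor
  · intro p hp
    have h1 : g⁻¹.pt p ∈ A := by
      apply (g.inc (g⁻¹.pt p) A).mp
      simpa using hp
    change g.pt (h.pt (g⁻¹.pt p)) = p
    rw [hh.1 _ h1]
    simp
  · intro l hl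
    have h1 : c ∈ g⁻¹.ln l := by
      apply (g.inc c (g⁻¹.ln l)).mp
      simpa using hl
    change g.ln (h.ln (g⁻¹.ln l)) = l
    rw [hh.2 _ h1]
    simp

theorem tt_fix {τ : Coll B BL} {A : BL} (hτ : τ ∈ TT H A) : ∀ p : B, p ∈ A → τ.pt p = p := by
  rcases (mem_TT'.mp hτ).2 with rfl | ⟨c, hc⟩
  · intro p _
    rfl
  · exact hc.2.2.1

theorem tt_ln {τ : Coll B BL} {A : BL} (hτ : τ ∈ TT H A) : τ.ln A = A := by
  obtain ⟨x, -⟩ := exists_point (P := B) A
  obtain ⟨u₁, hu₁, -, -⟩ := exists_third (P := B) A x x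
  obtain ⟨u₂, hu₂, hu₂₁, -⟩ := exists_third (P := B) A u₁ u₁
  exact ln_fix τ (Ne.symm hu₂₁) hu₁ hu₂ (tt_fix hτ _ hu₁) (tt_fix hτ _ hu₂)

/-- Two involutory homologies with the same centre and axis agree if `TT(A) ≠ 1`. -/
theorem inv_unique (hH : HHyp H) {h h' : Coll B BL} {a : B} {A : BL} (hT : TT H A ≠ ⊥)
    (h1 : InvHom H h a A) (h2 : InvHom H h' a A) : h = h' := by
  by_contra hne
  obtain ⟨g, hg, hg1⟩ := (Subgroup.bot_or_exists_ne_one (TT H A)).resolve_left hT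
  obtain ⟨c, hc⟩ := (mem_TT'.mp hg).2.resolve_left hg1
  have i1 := (TT_inverted hH h1).1 g hg
  have i2 := (TT_inverted hH h2).1 g hg
  have hk1 : h'⁻¹ * h ≠ 1 := by
    intro e
    exact hne (inv_mul_eq_one.mp e).symm
  have hkg : g * (h'⁻¹ * h) * g⁻¹ = h'⁻¹ * h := by
    have e1 : h * g = g⁻¹ * h := mul_inv_eq_iff_eq_mul.mp i1
    have e2 : h' * g = g⁻¹ * h' := mul_inv_eq_iff_eq_mul.mp i2
    have e3 : g * h'⁻¹ = h'⁻¹ * g⁻¹ := by
      have e4 : h' * (g * h'⁻¹) = h' * (h'⁻¹ * g⁻¹) := by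
        rw [mul_inv_cancel_left, ← mul_assoc, e2, mul_assoc, mul_inv_cancel, mul_one]
      exact mul_left_cancel e4
    have e5 : g⁻¹ * h = h * g := e1.symm
    rw [mul_inv_eq_iff_eq_mul, ← mul_assoc, e3, mul_assoc, e5, mul_assoc]
  have hP : IsPersp (h'⁻¹ * h) a A := by
    constructor
    · intro p hp
      change h'⁻¹.pt (h.pt p) = p
      rw [h1.2.2.2.2.1 p hp]
      have h3 := h2.2.2.2.2.1 p hp
      simp only [inv_pt]
      rw [Equiv.Perm.inv_eq_iff_eq]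
      exact h3.symm
    · intro l hl
      change h'⁻¹.ln (h.ln l) = l
      rw [h1.2.2.2.2.2 l hl]
      have h3 := h2.2.2.2.2.2 l hl
      simp only [inv_ln]
      rw [Equiv.Perm.inv_eq_iff_eq]
      exact h3.symm
  have hP2 := conj_persp (g := g) hP
  rw [hkg, tt_ln hg] at hP2
  have hfix : g.pt a = a := (persp_unique _ hk1 hP2 hP).1
  have h4 := eq_centre_of_fixed hg1 hc.2.2 hfix h1.2.2.2.1
  exact h1.2.2.2.1 (h4 ▸ hc.2.1)

/-- (P) puts a centre of an involutory homology with axis `A` on each line through `b`. -/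
theorem centre_on_line (hH : HHyp H) {a b : B} {A : BL} (hab : a ≠ b) (ha : a ∈ A) (hb : b ∈ A)
    (h1 : ¬ Arrow H a b) (h2 : ¬ Arrow H b a) {l : BL} (hbl : b ∈ l) (hlA : l ≠ A) :
    ∃ c, c ∈ l ∧ c ≠ b ∧ ∃ h, InvHom H h c A := by
  have hal : a ∉ l := fun h => hlA ((eq_or_eq h hbl ha hb).resolve_left hab)
  obtain ⟨e, hel, heb, h, hhH, hord, hfa, hfb, hfe⟩ := hH.hP a b hab l hbl hal
  obtain ⟨c, Z, hz⟩ := hH.hinv h hhH hord
  have hinv : InvHom H h c Z := ⟨hhH, hord, hz⟩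
  have hfix : ∀ x, h.pt x = x → x ∉ Z → x = c := fun x hx hxZ =>
    eq_centre_of_fixed hz.1 hz.2.2 hx hxZ
  have haZ : a ∈ Z := by
    by_contra haZ
    have hac := hfix a hfa haZ
    have hbZ : b ∈ Z := by
      by_contra hbZ
      exact hab (hac.trans (hfix b hfb hbZ).symm)
    exact h1 ⟨h, Z, by rw [hac]; exact hinv, hbZ⟩
  have hbZ : b ∈ Z := by
    by_contra hbZ
    have hbc := hfix b hfb hbZ
    exact h2 ⟨h, Z, by rw [hbc]; exact hinv, haZ⟩
  have hZA : Z = A := (eq_or_eq haZ hbZ ha hb).resolve_left hab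
  subst hZA
  have heA : e ∉ Z := fun h' => heb ((eq_or_eq hel hbl h' hbZ).resolve_right hlA)
  have hec := hfix e hfe heA
  exact ⟨e, hel, heb, h, by rw [hec]; exact hinv⟩

/-- `TT` is transitive on the centres of the involutory homologies with axis `A`. -/
theorem exists_tt (hH : HHyp H) {h h' : Coll B BL} {c c' : B} {A : BL} (h1 : InvHom H h c A)
    (h2 : InvHom H h' c' A) : ∃ τ ∈ TT H A, τ.pt c = c' := by
  by_cases hcc : c = c'
  · exact ⟨1, (TT H A).one_mem, hcc⟩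
  obtain ⟨ht, -⟩ := mul_mem_TT h2 h1 (Ne.symm hcc)
  obtain ⟨hinvt, hodd⟩ := TT_inverted hH h1
  obtain ⟨m, hm⟩ := hodd
  have htN : (h' * h) ^ (2 * m + 1) = 1 := by
    have h3 : (⟨h' * h, ht⟩ : TT H A) ^ Nat.card (TT H A) = 1 := pow_card_eq_one'
    rw [hm] at h3
    exact congrArg Subtype.val h3
  have hτ : (h' * h) ^ (m + 1) ∈ TT H A := pow_mem ht _
  have hτ2 : (h' * h) ^ (m + 1) * (h' * h) ^ (m + 1) = h' * h := by
    rw [← pow_add, show m + 1 + (m + 1) = (2 * m + 1) + 1 by ring, pow_succ, htN, one_mul]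
  set τ := (h' * h) ^ (m + 1) with hτdef
  have hcj : τ * h * τ⁻¹ = h' := by
    have e2 : h * τ⁻¹ = τ * h := by
      have e := hinvt τ⁻¹ (inv_mem hτ)
      rw [inv_inv] at e
      exact mul_inv_eq_iff_eq_mul.mp e
    calc τ * h * τ⁻¹ = τ * (h * τ⁻¹) := mul_assoc _ _ _
      _ = τ * (τ * h) := by rw [e2]
      _ = (τ * τ) * h := (mul_assoc _ _ _).symm
      _ = h' * h * h := by rw [hτ2]
      _ = h' := by rw [mul_assoc, mul_self_of_order h1.2.1, mul_one]
  have hp := conj_persp (g := τ) h1.2.2.2.2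
  rw [hcj, tt_ln hτ] at hp
  exact ⟨τ, hτ, (persp_unique h' h2.2.2.1 hp h2.2.2.2.2).1⟩

/-- Lines through a point, other than a given one. -/
theorem two_lines (c0 : B) (A : BL) (hc0 : c0 ∈ A) :
    ∃ l₁ l₂ : BL, c0 ∈ l₁ ∧ c0 ∈ l₂ ∧ l₁ ≠ A ∧ l₂ ≠ A ∧ l₁ ≠ l₂ := by
  obtain ⟨m, hm⟩ := exists_line (P := B) (L := BL) c0
  have hmA : m ≠ A := fun e => hm (e ▸ hc0)
  have hz := mkPoint_ax (P := B) hmA
  obtain ⟨u₁, hu₁, hu₁z, -⟩ := exists_third m (mkPoint hmA : B) (mkPoint hmA : B)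
  obtain ⟨u₂, hu₂, hu₂z, hu₂₁⟩ := exists_third m (mkPoint hmA : B) u₁
  have h1 : c0 ≠ u₁ := fun e => hm (e ▸ hu₁)
  have h2 : c0 ≠ u₂ := fun e => hm (e ▸ hu₂)
  have hl₁ := mkLine_ax (L := BL) h1
  have hl₂ := mkLine_ax (L := BL) h2
  refine ⟨mkLine h1, mkLine h2, hl₁.1, hl₂.1, ?_, ?_, ?_⟩
  · intro e
    have h3 : u₁ ∈ A := e ▸ hl₁.2
    exact hu₁z ((eq_or_eq hu₁ hz.1 h3 hz.2).resolve_right hmA)
  · intro e
    have h3 : u₂ ∈ A := e ▸ hl₂.2
    exact hu₂z ((eq_or_eq hu₂ hz.1 h3 hz.2).resolve_right hmA)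
  · intro e
    have h3 : u₂ ∈ (mkLine h1 : BL) := by
      rw [e]
      exact hl₂.2
    have h4 : (mkLine h1 : BL) = m := (eq_or_eq hl₁.2 h3 hu₁ hu₂).resolve_left (Ne.symm hu₂₁)
    exact hm (h4 ▸ hl₁.1)

/-- `μ` divides `|TT(A)|` if there is no arrow between two points of `A`. -/
theorem order_dvd (hH : HHyp H) {a b : B} {A : BL} (hab : a ≠ b) (ha : a ∈ A) (hb : b ∈ A)
    (h1 : ¬ Arrow H a b) (h2 : ¬ Arrow H b a) :
    ProjectivePlane.order B BL ∣ Nat.card (TT H A) := by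
  classical
  letI := actL (P := B) (L := BL)
  obtain ⟨l₀, -, hbl₀, -, hl₀A, -, -⟩ := two_lines (BL := BL) b A hb
  obtain ⟨c₀, hc₀l, hc₀b, h₀, hh₀⟩ := centre_on_line hH hab ha hb h1 h2 hbl₀ hl₀A
  have horb : MulAction.orbit (TT H A) l₀ = {l : BL | b ∈ l ∧ l ≠ A} := by
    ext l
    constructor
    · rintro ⟨⟨τ, hτ⟩, rfl⟩
      have h3 : b ∈ τ.ln l₀ := by
        have := (τ.inc b l₀).mpr hbl₀
        rwa [tt_fix hτ b hb] at this
      refine ⟨h3, fun e => ?_⟩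
      have h4 : τ.ln l₀ = τ.ln A := by
        rw [tt_ln hτ]
        exact e
      exact hl₀A (τ.ln.injective h4)
    · rintro ⟨hbl, hlA⟩
      obtain ⟨c, hcl, hcb, h', hh'⟩ := centre_on_line hH hab ha hb h1 h2 hbl hlA
      obtain ⟨τ, hτ, hτc⟩ := exists_tt hH hh₀ hh'
      refine ⟨⟨τ, hτ⟩, ?_⟩
      have h3 : b ∈ τ.ln l₀ := by
        have := (τ.inc b l₀).mpr hbl₀
        rwa [tt_fix hτ b hb] at this
      have h4 : c ∈ τ.ln l₀ := by
        have := (τ.inc c₀ l₀).mpr hc₀l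
        rwa [hτc] at this
      exact (eq_or_eq h3 h4 hbl hcl).resolve_left (Ne.symm hcb)
  have hcount : (MulAction.orbit (TT H A) l₀).ncard = ProjectivePlane.order B BL := by
    rw [horb]
    have h3 : {l : BL | b ∈ l ∧ l ≠ A} = {l : BL | b ∈ l} \ {A} := by
      ext l
      simp
    rw [h3, Set.ncard_sdiff_singleton_of_mem (show A ∈ {l : BL | b ∈ l} from hb)]
    have h4 := ProjectivePlane.lineCount_eq (L := BL) b
    have h5 : lineCount BL b = Nat.card {l : BL // b ∈ l} := rfl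
    have h6 : Nat.card {l : BL // b ∈ l} = ({l : BL | b ∈ l}).ncard := Nat.card_coe_set_eq _
    omega
  rw [← hcount, ← MulAction.index_stabilizer]
  exact Subgroup.index_dvd_card _

theorem pgroup_contra (hμ : ¬ IsPrimePow (ProjectivePlane.order B BL)) {T : Subgroup (Coll B BL)}
    (hd : ProjectivePlane.order B BL ∣ Nat.card T) {p : ℕ} (hp : p.Prime) (hT : IsPGroup p T) :
    False := by
  haveI : Fact p.Prime := ⟨hp⟩
  obtain ⟨k, hk⟩ := IsPGroup.iff_card.mp hT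
  rw [hk] at hd
  obtain ⟨i, -, hi⟩ := (Nat.dvd_prime_pow hp).mp hd
  have h1 := ProjectivePlane.one_lt_order B BL
  apply hμ
  rw [hi] at h1 ⊢
  have hi0 : i ≠ 0 := by
    rintro rfl
    simp at h1
  exact ⟨p, i, hp.prime, Nat.pos_of_ne_zero hi0, rfl⟩

/-- A pair `(a', c0)` with `c0` the only centre of `TT(A)` has an arrow. -/
theorem arrow_or (hH : HHyp H) {a' c0 : B} {A : BL} (hne : a' ≠ c0) (ha' : a' ∈ A) (hc0 : c0 ∈ A)
    (hS : ∀ τ ∈ TT H A, ∀ l : BL, c0 ∈ l → τ.ln l = l) : Arrow H a' c0 ∨ Arrow H c0 a' := by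
  by_contra hno
  push Not at hno
  obtain ⟨h1, h2⟩ := hno
  obtain ⟨l₁, l₂, hl₁, hl₂, hl₁A, hl₂A, hl₁₂⟩ := two_lines (BL := BL) c0 A hc0
  obtain ⟨c₁, hc₁l, hc₁b, h', hh'⟩ := centre_on_line hH hne ha' hc0 h1 h2 hl₁ hl₁A
  obtain ⟨c₂, hc₂l, hc₂b, h'', hh''⟩ := centre_on_line hH hne ha' hc0 h1 h2 hl₂ hl₂A
  obtain ⟨τ, hτ, hτc⟩ := exists_tt hH hh' hh''
  have h3 : c₂ ∈ l₁ := by
    have := (τ.inc c₁ l₁).mpr hc₁l
    rwa [hτc, hS τ hτ l₁ hl₁] at this
  exact hc₂b ((eq_or_eq h3 hl₁ hc₂l hl₂).resolve_right hl₁₂)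

/-- Symmetry on an axial line. -/
theorem arrow_symm (hH : HHyp H) {a' c0 c : B} {A : BL} {h : Coll B BL} (hne : a' ≠ c0) (ha' : a' ∈ A)
    (hc0 : c0 ∈ A) (hS : ∀ τ ∈ TT H A, ∀ l : BL, c0 ∈ l → τ.ln l = l) (hh : InvHom H h c A)
    (hT : TT H A ≠ ⊥) (harr : Arrow H a' c0) : Arrow H c0 a' := by
  obtain ⟨h₁, Z, hh₁, hc0Z⟩ := harr
  have P1 : IsPersp h₁ a' Z := hh₁.2.2.2.2
  have hA1 : h₁.ln A = A := P1.2 A ha'
  have hcA : c ∉ A := hh.2.2.2.1
  have hord1 : h₁ * h₁ = 1 := mul_self_of_order hh₁.2.1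
  have hord : h * h = 1 := mul_self_of_order hh.2.1
  have hh'' : InvHom H (h₁ * h * h₁⁻¹) (h₁.pt c) A := by
    refine ⟨H.mul_mem (H.mul_mem hh₁.1 hh.1) (H.inv_mem hh₁.1), ?_, ?_, ?_, ?_⟩
    · have h2 := (MulAut.conj h₁).orderOf_eq h
      rw [MulAut.conj_apply] at h2
      rw [h2]
      exact hh.2.1
    · intro h2
      apply hh.2.2.1
      have h3 : h₁ * h = h₁ := mul_inv_eq_one.mp h2
      exact mul_eq_left.mp h3
    · intro h2
      rw [← hA1] at h2
      exact hcA ((h₁.inc c A).mp h2)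
    · have h2 := conj_persp (g := h₁) hh.2.2.2.2
      rwa [hA1] at h2
  have hfix : h₁.pt c = c := by
    by_contra hmoved
    obtain ⟨τ, hτ, hτc⟩ := exists_tt hH hh hh''
    have hcc0 : c ≠ c0 := fun e => hcA (e ▸ hc0)
    have hM := mkLine_ax (L := BL) hcc0
    have h1c : h₁.pt c ∈ (mkLine hcc0 : BL) := by
      have := (τ.inc c (mkLine hcc0)).mpr hM.1
      rwa [hτc, hS τ hτ _ hM.2] at this
    have ha'M : a' ∈ (mkLine hcc0 : BL) := centre_mem P1 hmoved hM.1 h1c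
    have h3 : (mkLine hcc0 : BL) = A := (eq_or_eq ha'M hM.2 ha' hc0).resolve_left hne
    exact hcA (h3 ▸ hM.1)
  have hcZ : c ∈ Z := by
    by_contra hcZ
    have h3 := eq_centre_of_fixed hh₁.2.2.1 P1 hfix hcZ
    exact hcA (h3 ▸ ha')
  rw [hfix] at hh''
  have hconj : h₁ * h * h₁⁻¹ = h := inv_unique hH hT hh'' hh
  have hcomm : h₁ * h = h * h₁ := mul_inv_eq_iff_eq_mul.mp hconj
  have hk2 : (h * h₁) * (h * h₁) = 1 := by
    calc (h * h₁) * (h * h₁) = h * (h₁ * h) * h₁ := by simp only [mul_assoc]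
      _ = h * (h * h₁) * h₁ := by rw [hcomm]
      _ = (h * h) * (h₁ * h₁) := by simp only [mul_assoc]
      _ = 1 := by rw [hord, hord1, one_mul]
  have hcne : c ≠ a' := fun e => hcA (e ▸ ha')
  have hk1 : h * h₁ ≠ 1 := by
    intro h3
    have h4 : h = h₁ := by
      have h5 : h = h₁⁻¹ := eq_inv_of_mul_eq_one_left h3
      rwa [inv_eq_of_mul_eq_one_left hord1] at h5
    rw [h4] at hh
    exact hcne (persp_unique h₁ hh₁.2.2.1 hh.2.2.2.2 P1).1
  have hko : orderOf (h * h₁) = 2 := orderOf_eq_prime (by rw [sq]; exact hk2) hk1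
  obtain ⟨y, W, hkh⟩ := hH.hinv _ (H.mul_mem hh.1 hh₁.1) hko
  have Pk : IsPersp (h * h₁) y W := hkh.2.2
  have hk1' := hkh.1
  have hf_a' : (h * h₁).pt a' = a' := by
    change h.pt (h₁.pt a') = a'
    rw [centre_fixed P1]
    exact hh.2.2.2.2.1 a' ha'
  have hf_c : (h * h₁).pt c = c := by
    change h.pt (h₁.pt c) = c
    rw [hfix]
    exact centre_fixed hh.2.2.2.2
  have hf_c0 : (h * h₁).pt c0 = c0 := by
    change h.pt (h₁.pt c0) = c0
    rw [P1.1 c0 hc0Z]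
    exact hh.2.2.2.2.1 c0 hc0
  have hy1 : y ≠ a' := by
    rintro rfl
    have h3 : IsPersp h y A := by
      refine ⟨hh.2.2.2.2.1, fun l hl => ?_⟩
      have h4 : (h * h₁).ln l = l := Pk.2 l hl
      have h5 : h₁.ln l = l := P1.2 l hl
      change h.ln (h₁.ln l) = l at h4
      rwa [h5] at h4
    exact hcne (persp_unique h hh.2.2.1 hh.2.2.2.2 h3).1
  have hy2 : y ≠ c := by
    rintro rfl
    have h3 : IsPersp h₁ y Z := by
      refine ⟨P1.1, fun l hl => ?_⟩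
      have h4 : (h * h₁).ln l = l := Pk.2 l hl
      have h5 : h.ln l = l := hh.2.2.2.2.2 l hl
      change h.ln (h₁.ln l) = l at h4
      apply h.ln.injective
      rw [h4, h5]
    exact hcne (persp_unique h₁ hh₁.2.2.1 h3 P1).1
  have ha'W : a' ∈ W := by
    by_contra h3
    exact hy1 (eq_centre_of_fixed hk1' Pk hf_a' h3).symm
  have hcW : c ∈ W := by
    by_contra h3
    exact hy2 (eq_centre_of_fixed hk1' Pk hf_c h3).symm
  have hc0W : c0 ∉ W := by
    intro h3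
    have h4 : W = A := (eq_or_eq ha'W h3 ha' hc0).resolve_left hne
    exact hcA (h4 ▸ hcW)
  have hy0 : c0 = y := eq_centre_of_fixed hk1' Pk hf_c0 hc0W
  exact ⟨h * h₁, W, ⟨H.mul_mem hh.1 hh₁.1, hko, by rw [hy0]; exact hkh⟩, ha'W⟩

end NoNonadj

open NoNonadj Nondegenerate HasPoints HasLines BasicsAux in
/-- [H3] No non-adjacent pairs. -/
theorem no_nonadjacent {H : Subgroup (Coll B BL)} (hH : HHyp H)
    (hμ : ¬ IsPrimePow (ProjectivePlane.order B BL)) (a b : B) (hab : a ≠ b) :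
    Arrow H a b ∨ Arrow H b a := by
  by_contra hno
  push Not at hno
  obtain ⟨h1, h2⟩ := hno
  have hl := mkLine_ax (L := BL) hab
  have hd := order_dvd hH hab hl.1 hl.2 h1 h2
  set A : BL := mkLine hab with hA
  have hμ2 := ProjectivePlane.one_lt_order B BL
  have hT : TT H A ≠ ⊥ := by
    intro h0
    rw [h0, Subgroup.card_bot] at hd
    have := Nat.le_of_dvd one_pos hd
    omega
  obtain ⟨τ₀, hτ₀, hτ₀1⟩ := (Subgroup.bot_or_exists_ne_one (TT H A)).resolve_left hT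
  obtain ⟨c0, hc0⟩ : ∃ c : B, IsElation τ₀ c A := (mem_TT'.mp hτ₀).2.resolve_left hτ₀1
  have hc0A : c0 ∈ A := hc0.2.1
  obtain ⟨l₀, -, hbl₀, -, hl₀A, -, -⟩ := two_lines (BL := BL) b A hl.2
  obtain ⟨c, -, -, h, hh⟩ := centre_on_line hH hab hl.1 hl.2 h1 h2 hbl₀ hl₀A
  by_cases hcase : ∃ τ₁ ∈ TT H A, ∃ c1 : B, c1 ≠ c0 ∧ IsElation τ₁ c1 A
  · obtain ⟨τ₁, hτ₁, c1, hc1, hel⟩ := hcase
    obtain ⟨p, hp, hpg⟩ := TT_pgroup (mem_TT'.mp hτ₀).1 (mem_TT'.mp hτ₁).1 hc0 hel (Ne.symm hc1)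
    exact pgroup_contra hμ hd hp hpg
  · push Not at hcase
    have hS : ∀ τ ∈ TT H A, ∀ l : BL, c0 ∈ l → τ.ln l = l := by
      intro τ hτ l hl'
      rcases (mem_TT'.mp hτ).2 with rfl | ⟨c1, hc1⟩
      · rfl
      · by_cases hcc : c1 = c0
        · subst hcc
          exact hc1.2.2.2 l hl'
        · exact absurd hc1 (hcase τ hτ c1 hcc)
    have harr : ∀ a' : B, a' ∈ A → a' ≠ c0 → Arrow H c0 a' := by
      intro a' ha' hne
      rcases arrow_or hH hne ha' hc0A hS with h3 | h3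
      · exact arrow_symm hH hne ha' hc0A hS hh hT h3
      · exact h3
    obtain ⟨a₁, ha₁, ha₁c, -⟩ := exists_third A c0 c0
    obtain ⟨a₂, ha₂, ha₂c, ha₂₁⟩ := exists_third A c0 a₁
    obtain ⟨k₁, W₁, hk₁, ha₁W⟩ := harr a₁ ha₁ ha₁c
    obtain ⟨k₂, W₂, hk₂, ha₂W⟩ := harr a₂ ha₂ ha₂c
    have hW1A : W₁ ≠ A := fun e => hk₁.2.2.2.1 (e ▸ hc0A)
    have hW2A : W₂ ≠ A := fun e => hk₂.2.2.2.1 (e ▸ hc0A)
    have hW : W₁ ≠ W₂ := by
      rintro rfl
      exact hW1A ((eq_or_eq ha₁W ha₂W ha₁ ha₂).resolve_left (Ne.symm ha₂₁))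
    obtain ⟨he, hne1⟩ := mul_mem_EE hk₁ hk₂ hW
    obtain ⟨A', hA'⟩ : ∃ A' : BL, IsElation (k₁ * k₂) c0 A' := (mem_EE'.mp he).2.resolve_left hne1
    have hA'A : A ≠ A' := by
      intro e
      have h4 : k₁.pt (k₂.pt a₁) = a₁ := hA'.2.2.1 a₁ (e ▸ ha₁)
      have h5 : k₁.pt a₁ = a₁ := hk₁.2.2.2.2.1 a₁ ha₁W
      have h6 : k₂.pt a₁ = a₁ := k₁.pt.injective (h4.trans h5.symm)
      have h7 : a₁ ∈ W₂ := by
        by_contra h7
        exact ha₁c (eq_centre_of_fixed hk₂.2.2.1 hk₂.2.2.2.2 h6 h7)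
      exact hW2A ((eq_or_eq h7 ha₂W ha₁ ha₂).resolve_left (Ne.symm ha₂₁))
    obtain ⟨p, hp, hpg⟩ := EE_pgroup (mem_TT'.mp hτ₀).1 (mem_EE'.mp he).1 hc0 hA' hA'A
    have hle : TT H A ≤ EE H c0 := by
      intro τ hτ
      refine mem_EE'.mpr ⟨(mem_TT'.mp hτ).1, ?_⟩
      rcases (mem_TT'.mp hτ).2 with h3 | ⟨c1, hc1⟩
      · exact Or.inl h3
      · by_cases hcc : c1 = c0
        · subst hcc
          exact Or.inr ⟨A, hc1⟩
        · exact absurd hc1 (hcase τ hτ c1 hcc)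
    exact pgroup_contra hμ hd hp (hpg.to_le hle)

/-- [H4] Tournament: every line has two full points. -/
theorem two_full {H : Subgroup (Coll B BL)} (hH : HHyp H)
    (hμ : ¬ IsPrimePow (ProjectivePlane.order B BL)) (l : BL) :
    ∃ a a' : B, a ≠ a' ∧ a ∈ l ∧ a' ∈ l ∧ (∀ x : B, x ∈ l → x ≠ a → Arrow H a x) ∧
      (∀ x : B, x ∈ l → x ≠ a' → Arrow H a' x) := by
  classical
  have hgt := ProjectivePlane.one_lt_order B BL
  have hodd := hH.hodd
  generalize hmu : ProjectivePlane.order B BL = μ at hμ hgt hodd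
  have hμ5 : 3 < μ := by
    by_contra hle
    have h3 : μ = 3 := by
      obtain ⟨k, hk⟩ := hodd
      omega
    exact hμ (h3 ▸ Nat.prime_three.isPrimePow)
  let X : Finset B := Finset.univ.filter (fun p : B => p ∈ l)
  have hX : X.card = μ + 1 := by
    have h := ProjectivePlane.pointCount_eq B l
    rw [Configuration.pointCount, hmu, Nat.card_eq_fintype_card, Fintype.card_subtype] at h
    exact h
  have hmemX : ∀ p : B, p ∈ X ↔ p ∈ l := by
    intro p; simp [X]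
  let d : B → ℕ := fun a => (X.filter (fun x => x ≠ a ∧ Arrow H a x)).card
  have herase : ∀ a ∈ X, (X.erase a).card = μ := by
    intro a ha
    rw [Finset.card_erase_of_mem ha, hX]; rfl
  have hfull : ∀ a ∈ X, d a = μ → ∀ x, x ∈ l → x ≠ a → Arrow H a x := by
    intro a ha hd x hx hxa
    have hsub : X.filter (fun x => x ≠ a ∧ Arrow H a x) ⊆ X.erase a := by
      intro y hy
      rw [Finset.mem_filter] at hy
      exact Finset.mem_erase.mpr ⟨hy.2.1, hy.1⟩
    have heq := Finset.eq_of_subset_of_card_le hsub (by rw [herase a ha]; exact hd.ge)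
    have hx' : x ∈ X.erase a := Finset.mem_erase.mpr ⟨hxa, (hmemX x).2 hx⟩
    rw [← heq, Finset.mem_filter] at hx'
    exact hx'.2.2
  have hbound : ∀ a ∈ X, d a ≠ μ → 3 * d a ≤ μ := by
    intro a ha hd
    have hal : a ∈ l := (hmemX a).1 ha
    have hcard : Nat.card {x : B // x ∈ l ∧ x ≠ a ∧ Arrow H a x} = d a := by
      rw [Nat.card_eq_fintype_card, Fintype.card_subtype]
      congr 1
      ext x
      simp [X]
    rcases outdeg_dvd hH hal with h0 | hdvd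
    · have : d a = 0 := by
        rw [← hcard, Nat.card_eq_zero]
        left
        constructor
        rintro ⟨x, hx, hxa, harr⟩
        exact h0 x hx hxa harr
      omega
    · rw [hcard, hmu] at hdvd
      obtain ⟨k, hk⟩ := hdvd
      have hk0 : k ≠ 0 := by
        rintro rfl
        omega
      have hk1 : k ≠ 1 := by
        rintro rfl
        exact hd (by omega)
      have hk2 : ¬ 2 ∣ k := by
        intro h2
        obtain ⟨c, hc⟩ := hodd
        obtain ⟨e, he⟩ := h2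
        rw [he] at hk
        have : μ = 2 * (d a * e) := by rw [hk]; ring
        omega
      have hk3 : 3 ≤ k := by omega
      calc 3 * d a ≤ k * d a := Nat.mul_le_mul_right _ hk3
        _ = μ := by rw [hk]; ring
  have hsum : (μ + 1) * μ ≤ 2 * ∑ a ∈ X, d a := by
    let f : B → B → ℕ := fun a b => if b ≠ a ∧ Arrow H a b then 1 else 0
    have hd : ∀ a, d a = ∑ b ∈ X, f a b := by
      intro a
      simp only [d, f]
      rw [Finset.card_filter]
    have h1 : ∑ a ∈ X, d a = ∑ a ∈ X, ∑ b ∈ X, f a b := by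
      exact Finset.sum_congr rfl (fun a _ => hd a)
    have h2 : ∑ a ∈ X, d a = ∑ a ∈ X, ∑ b ∈ X, f b a := by
      rw [h1, Finset.sum_comm]
    have hle : ∀ a ∈ X, μ ≤ ∑ b ∈ X, (f a b + f b a) := by
      intro a ha
      calc μ = (X.erase a).card := (herase a ha).symm
        _ = ∑ b ∈ X, (if b ≠ a then 1 else 0) := by
            rw [Finset.card_eq_sum_ones, ← Finset.sum_filter]
            congr 1
            ext y
            simp [Finset.mem_erase, and_comm]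
        _ ≤ ∑ b ∈ X, (f a b + f b a) := by
            apply Finset.sum_le_sum
            intro b hb
            by_cases hba : b = a
            · simp [hba]
            · simp only [ne_eq, hba, not_false_eq_true, if_true, f]
              have hX' : a ≠ b := fun h => hba h.symm
              have := no_nonadjacent hH (by rw [hmu]; exact hμ) a b hX'
              rcases this with h | h
              · simp [hba, h]
              · simp [hX', h]
    calc (μ + 1) * μ = ∑ a ∈ X, μ := by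
          rw [Finset.sum_const, hX]; rfl
      _ ≤ ∑ a ∈ X, ∑ b ∈ X, (f a b + f b a) := Finset.sum_le_sum hle
      _ = ∑ a ∈ X, d a + ∑ a ∈ X, d a := by
          nth_rewrite 1 [h1]
          rw [h2, ← Finset.sum_add_distrib]
          refine Finset.sum_congr rfl (fun a _ => ?_)
          rw [Finset.sum_add_distrib]
      _ = 2 * ∑ a ∈ X, d a := by ring
  let F : Finset B := X.filter (fun a => d a = μ)
  by_cases hF : 1 < F.card
  · obtain ⟨a, ha, a', ha', hne⟩ := Finset.one_lt_card.mp hF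
    rw [Finset.mem_filter] at ha ha'
    exact ⟨a, a', hne, (hmemX a).1 ha.1, (hmemX a').1 ha'.1, hfull a ha.1 ha.2, hfull a' ha'.1 ha'.2⟩
  · exfalso
    have hF1 : F.card ≤ 1 := by omega
    have hb : ∀ a ∈ X, 3 * d a ≤ μ + (if d a = μ then 2 * μ else 0) := by
      intro a ha
      by_cases h : d a = μ
      · simp only [h, if_true]; omega
      · simp only [h, if_false]; exact (hbound a ha h).trans (by omega)
    have hsum2 : 3 * ∑ a ∈ X, d a ≤ (μ + 1) * μ + F.card * (2 * μ) := by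
      calc 3 * ∑ a ∈ X, d a = ∑ a ∈ X, 3 * d a := by rw [Finset.mul_sum]
        _ ≤ ∑ a ∈ X, (μ + (if d a = μ then 2 * μ else 0)) := Finset.sum_le_sum hb
        _ = (μ + 1) * μ + F.card * (2 * μ) := by
            rw [Finset.sum_add_distrib, Finset.sum_const, hX, ← Finset.sum_filter, Finset.sum_const]
            rfl
    have h3 : F.card * (2 * μ) ≤ 1 * (2 * μ) := Nat.mul_le_mul_right _ hF1
    nlinarith

/-- [H5] All points of a line are full on it, then Lemma M. -/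
theorem final_of_two_full {H : Subgroup (Coll B BL)} (hH : HHyp H) (l : BL) (a a' : B) (haa : a ≠ a')
    (ha : a ∈ l) (ha' : a' ∈ l) (hf : ∀ x : B, x ∈ l → x ≠ a → Arrow H a x)
    (hf' : ∀ x : B, x ∈ l → x ≠ a' → Arrow H a' x) :
    IsPrimePow (ProjectivePlane.order B BL) ∨ ProjectivePlane.order B BL = 1 :=
  H5Aux.main hH l (H5Aux.full_all hH haa ha ha' hf hf')

/-- THEOREM H. -/
theorem thmH {H : Subgroup (Coll B BL)} (hH : HHyp H) : IsPrimePow (ProjectivePlane.order B BL) := by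
  by_contra hμ
  obtain ⟨_, _, _, l, _⟩ := ProjectivePlane.exists_config (P := B) (L := BL)
  obtain ⟨a, a', haa, ha, ha', hf, hf'⟩ := two_full hH hμ l
  rcases final_of_two_full hH l a a' haa ha ha' hf hf' with h | h
  · exact hμ h
  · have := ProjectivePlane.one_lt_order B BL
    omega

end Cfsg.Agent.Lib.OW
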