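import Cfsg.Agent.Lib.OW.Tri
import Cfsg.Agent.Lib.OW.ThmH
import Cfsg.Agent.Lib.OW.OddNPPInv

/-! [M9] Local maximal planar 2-subgroup; hypotheses of Theorem H. See forum 'S3732 notes'. -/

set_option autoImplicit false

namespace Cfsg.Agent.Lib.OW

open Configuration

universe u v

variable {P : Type u} {L : Type v} [Membership P L] [Fintype P] [Fintype L] [ProjectivePlane P L]

/-- the induced group on `Fix W` from `N_G(W)`. -/
def induced (G W : Subgroup (Coll P L)) : Subgroup (Coll (FixP W) (FixL W)) :=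
  ((G.subgroupOf (Subgroup.normalizer (W : Set (Coll P L))))).map (restr W)

theorem locmax_third_line (p : P) (a b : L) : ∃ c : L, p ∈ c ∧ c ≠ a ∧ c ≠ b := by
  classical
  have hc : lineCount L p = ProjectivePlane.order P L + 1 := ProjectivePlane.lineCount_eq L p
  have h1 := ProjectivePlane.one_lt_order P L
  have h2 : 2 < Fintype.card {l : L // p ∈ l} := by
    have : lineCount L p = Fintype.card {l : L // p ∈ l} := by
      simp [lineCount]
    omega
  obtain ⟨x, y, z, hxy, hxz, hyz⟩ := Fintype.two_lt_card_iff.1 h2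
  by_contra hno
  push_neg at hno
  have hx : x.1 = a ∨ x.1 = b := by
    by_cases h : x.1 = a
    · exact Or.inl h
    · exact Or.inr (hno x.1 x.2 h)
  have hy : y.1 = a ∨ y.1 = b := by
    by_cases h : y.1 = a
    · exact Or.inl h
    · exact Or.inr (hno y.1 y.2 h)
  have hz : z.1 = a ∨ z.1 = b := by
    by_cases h : z.1 = a
    · exact Or.inl h
    · exact Or.inr (hno z.1 z.2 h)
  have hxy' : x.1 ≠ y.1 := fun e => hxy (Subtype.ext e)
  have hxz' : x.1 ≠ z.1 := fun e => hxz (Subtype.ext e)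
  have hyz' : y.1 ≠ z.1 := fun e => hyz (Subtype.ext e)
  rcases hx with hx | hx <;> rcases hy with hy | hy <;> rcases hz with hz | hz <;> simp_all

/-- A projective plane has a quadrangle. -/
theorem locmax_exists_quad_pts :
    ∃ a b c d : P, a ≠ b ∧ a ≠ c ∧ a ≠ d ∧ b ≠ c ∧ b ≠ d ∧ c ≠ d ∧
      ∀ l : L, ¬ (a ∈ l ∧ b ∈ l ∧ c ∈ l) ∧ ¬ (a ∈ l ∧ b ∈ l ∧ d ∈ l) ∧
        ¬ (a ∈ l ∧ c ∈ l ∧ d ∈ l) ∧ ¬ (b ∈ l ∧ c ∈ l ∧ d ∈ l) := by
  obtain ⟨p₁, p₂, p₃, l₁, l₂, l₃, h₁₂, h₁₃, h₂₁, h₂₂, h₂₃, h₃₁, h₃₂, h₃₃⟩ :=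
    ProjectivePlane.exists_config (P := P) (L := L)
  have n12 : p₁ ≠ p₂ := fun e => h₁₂ (e ▸ h₂₂)
  have n13 : p₁ ≠ p₃ := fun e => h₁₂ (e ▸ h₃₂)
  have n23 : p₂ ≠ p₃ := fun e => h₃₃ (e ▸ h₂₃)
  obtain ⟨a12, ha12⟩ : ∃ m : L, p₁ ∈ m ∧ p₂ ∈ m := ⟨_, HasLines.mkLine_ax n12⟩
  obtain ⟨a13, ha13⟩ : ∃ m : L, p₁ ∈ m ∧ p₃ ∈ m := ⟨_, HasLines.mkLine_ax n13⟩
  -- uniqueness of the line through two points
  have uniq : ∀ {x y : P} {m m' : L}, x ≠ y → x ∈ m → y ∈ m → x ∈ m' → y ∈ m' → m = m' := by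
    intro x y m m' hxy h1 h2 h3 h4
    rcases Nondegenerate.eq_or_eq h1 h2 h3 h4 with h | h
    · exact (hxy h).elim
    · exact h
  obtain ⟨m₂, hm₂, hm₂1, hm₂2⟩ := locmax_third_line (L := L) p₂ a12 l₂
  obtain ⟨m₃, hm₃, hm₃1, hm₃2⟩ := locmax_third_line (L := L) p₃ a13 l₂
  have hmm : m₂ ≠ m₃ := fun e => hm₂2 (uniq n23 hm₂ (e ▸ hm₃) h₂₂ h₃₂)
  have hd := HasPoints.mkPoint_ax (P := P) hmm
  set d : P := HasPoints.mkPoint hmm with hd_def
  have hdm₂ : d ∈ m₂ := hd.1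
  have hdm₃ : d ∈ m₃ := hd.2
  have d2 : p₂ ≠ d := fun e => hm₃2 (uniq n23 (e ▸ hdm₃) hm₃ h₂₂ h₃₂)
  have d3 : p₃ ≠ d := fun e => hm₂2 (uniq n23 hm₂ (e ▸ hdm₂) h₂₂ h₃₂)
  have dl12 : d ∉ a12 := fun h => hm₂1 (uniq d2 hm₂ hdm₂ ha12.2 h)
  have dl2 : d ∉ l₂ := fun h => hm₂2 (uniq d2 hm₂ hdm₂ h₂₂ h)
  have dl13 : d ∉ a13 := fun h => hm₃1 (uniq d3 hm₃ hdm₃ ha13.2 h)
  have d1 : p₁ ≠ d := fun e => dl12 (e ▸ ha12.1)
  refine ⟨p₁, p₂, p₃, d, n12, n13, d1, n23, d2, d3, fun l => ⟨?_, ?_, ?_, ?_⟩⟩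
  · rintro ⟨h1, h2, h3⟩
    exact h₁₂ ((uniq n23 h2 h3 h₂₂ h₃₂) ▸ h1)
  · rintro ⟨h1, h2, h3⟩
    exact dl12 ((uniq n12 h1 h2 ha12.1 ha12.2) ▸ h3)
  · rintro ⟨h1, h2, h3⟩
    exact dl13 ((uniq n13 h1 h2 ha13.1 ha13.2) ▸ h3)
  · rintro ⟨h1, h2, h3⟩
    exact dl2 ((uniq n23 h1 h2 h₂₂ h₃₂) ▸ h3)

theorem locmax_hasQuad_bot : HasQuad (⊥ : Subgroup (Coll P L)) := by
  obtain ⟨a, b, c, d, h1, h2, h3, h4, h5, h6, h⟩ := locmax_exists_quad_pts (P := P) (L := L)
  have fx : ∀ p : P, ∀ w ∈ (⊥ : Subgroup (Coll P L)), w.pt p = p := by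
    intro p w hw
    rw [Subgroup.mem_bot] at hw
    subst hw
    rfl
  refine ⟨⟨a, fx a⟩, ⟨b, fx b⟩, ⟨c, fx c⟩, ⟨d, fx d⟩, ?_, ?_, ?_, ?_, ?_, ?_, h⟩ <;>
    simpa [Subtype.ext_iff]

/-- Local maximal planar 2-subgroup exists (`D = ⊥` is planar). -/
theorem exists_locmax (G : Subgroup (Coll P L)) : ∃ D : Subgroup (Coll P L), D ≤ G ∧ IsPGroup 2 D ∧ HasQuad D ∧
    ∀ D' : Subgroup (Coll P L), D < D' → D' ≤ G → IsPGroup 2 D' → ¬ HasQuad D' := by
  classical
  have hne : {D : Subgroup (Coll P L) | D ≤ G ∧ IsPGroup 2 D ∧ HasQuad D}.Nonempty :=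
    ⟨⊥, bot_le, IsPGroup.of_bot, locmax_hasQuad_bot⟩
  obtain ⟨D, hD⟩ := Set.Finite.exists_maximal (Set.toFinite _) hne
  refine ⟨D, hD.prop.1, hD.prop.2.1, hD.prop.2.2, fun D' hlt hG' h2 hq => ?_⟩
  exact hD.not_gt ⟨hG', h2, hq⟩ hlt

/-- Every involution of the induced group is a homology of `Fix D`. -/
theorem induced_inv {G D : Subgroup (Coll P L)} (hn : Odd (ProjectivePlane.order P L))
    (hDG : D ≤ G) (hD2 : IsPGroup 2 D) (hQ : HasQuad D)
    (hmax : ∀ D' : Subgroup (Coll P L), D < D' → D' ≤ G → IsPGroup 2 D' → ¬ HasQuad D') :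
    letI := fixPlane D hQ
    letI := Fintype.ofFinite (FixP D)
    letI := Fintype.ofFinite (FixL D)
    ∀ h ∈ induced G D, orderOf h = 2 → ∃ (c : FixP D) (A : FixL D), IsHomology h c A := by
  obtain ⟨k, hk⟩ := order_fix_pow D hD2 hQ
  letI := fixPlane D hQ
  have hodd : Odd (ProjectivePlane.order (FixP D) (FixL D)) := by
    rw [hk] at hn
    exact (Nat.odd_pow_iff (by positivity)).1 hn
  exact OddNPPInv.induced_inv_aux hDG hD2 hQ hmax hodd

/-- [T4] `D < R` 2-groups, `D` locally maximal planar: an element `g` of `N_R(D) \ D` with `g² ∈ D` gives an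
involution of the induced group fixing everything `R` fixes. -/
theorem exists_inv_of_lt {G D R : Subgroup (Coll P L)} (hQ : HasQuad D)
    (hmax : ∀ D' : Subgroup (Coll P L), D < D' → D' ≤ G → IsPGroup 2 D' → ¬ HasQuad D')
    (hDR : D < R) (hRG : R ≤ G) (hR : IsPGroup 2 R) :
    letI := fixPlane D hQ
    ∃ h ∈ induced G D, orderOf h = 2 ∧ ∀ p : FixP D, (∀ r ∈ R, r.pt p.1 = p.1) → h.pt p = p := by
  classical
  letI := fixPlane D hQ
  haveI : Fact (Nat.Prime 2) := ⟨Nat.prime_two⟩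
  obtain ⟨hDR', hne⟩ := SetLike.lt_iff_le_and_exists.mp hDR
  -- normalizer growth in the 2-group `R`
  have hNC : ∃ x ∈ R, x ∈ Subgroup.normalizer (D : Set (Coll P L)) ∧ x ∉ D := by
    haveI : Group.IsNilpotent ↥R := hR.isNilpotent
    have hlt : D.subgroupOf R < ⊤ := by
      refine lt_top_iff_ne_top.mpr ?_
      intro h
      have hle : R ≤ D := (Subgroup.subgroupOf_eq_top).mp h
      exact absurd (le_antisymm hDR' hle) hDR.ne
    have h2 := normalizerCondition_of_isNilpotent (D.subgroupOf R) hlt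
    obtain ⟨y, hy, hyn⟩ := SetLike.exists_of_lt h2
    refine ⟨y.1, y.2, ?_, ?_⟩
    · rw [Subgroup.mem_normalizer_iff]
      intro u
      have hy' := Subgroup.mem_normalizer_iff.mp hy
      constructor
      · intro hu
        have := (hy' ⟨u, hDR' hu⟩).mp (by simpa [Subgroup.mem_subgroupOf] using hu)
        simpa [Subgroup.mem_subgroupOf] using this
      · intro hu
        have hmem : u ∈ R := by
          have h3 : y.1 * u * y.1⁻¹ ∈ R := hDR' hu
          have h4 : y.1⁻¹ * (y.1 * u * y.1⁻¹) * y.1 = u := by group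
          rw [← h4]
          exact R.mul_mem (R.mul_mem (R.inv_mem y.2) h3) y.2
        have := (hy' ⟨u, hmem⟩).mpr (by simpa [Subgroup.mem_subgroupOf] using hu)
        simpa [Subgroup.mem_subgroupOf] using this
    · intro h
      exact hyn (by simpa [Subgroup.mem_subgroupOf] using h)
  obtain ⟨x, hxR, hxN, hxD⟩ := hNC
  -- an element `g` with `g ∉ D`, `g² ∈ D`
  have hg : ∃ g ∈ R, g ∈ Subgroup.normalizer (D : Set (Coll P L)) ∧ g ∉ D ∧ g * g ∈ D := by
    obtain ⟨k, hk⟩ := hR ⟨x, hxR⟩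
    have hk' : x ^ (2 ^ k) = 1 := by
      have := congrArg Subtype.val hk
      simpa using this
    have hex : ∃ i : ℕ, x ^ (2 ^ i) ∈ D := ⟨k, by rw [hk']; exact D.one_mem⟩
    have hi := Nat.find_spec hex
    have hmin := fun m => Nat.find_min (m := m) hex
    set i := Nat.find hex with hidef
    have hi0 : i ≠ 0 := by
      intro h0
      rw [h0, pow_zero, pow_one] at hi
      exact hxD hi
    obtain ⟨j, hj⟩ : ∃ j, i = j + 1 := ⟨i - 1, by omega⟩
    refine ⟨x ^ (2 ^ j), R.pow_mem hxR _, Subgroup.pow_mem _ hxN _, ?_, ?_⟩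
    · exact hmin j (by omega)
    · rw [hj] at hi
      have e : x ^ (2 ^ j) * x ^ (2 ^ j) = x ^ (2 ^ (j + 1)) := by
        rw [← pow_add]; congr 1; ring
      rw [e]; exact hi
  obtain ⟨g, hgR, hgN, hgD, hgg⟩ := hg
  refine ⟨restr D ⟨g, hgN⟩, ?_, ?_, ?_⟩
  · refine Subgroup.mem_map.mpr ⟨⟨g, hgN⟩, ?_, rfl⟩
    exact Subgroup.mem_subgroupOf.mpr (hRG hgR)
  · refine orderOf_eq_prime ?_ ?_
    · rw [sq, ← map_mul]
      apply Coll.ext
      · ext p
        have := restr_pt D (⟨g, hgN⟩ * ⟨g, hgN⟩) p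
        simp only [one_pt, Equiv.Perm.one_apply]
        rw [this]
        exact p.2 _ hgg
      · ext l
        have := restr_ln D (⟨g, hgN⟩ * ⟨g, hgN⟩) l
        simp only [one_ln, Equiv.Perm.one_apply]
        rw [this]
        exact l.2 _ hgg
    · intro h1
      -- `g` acts trivially on `Fix D`: `⟨D, g⟩` is larger, planar
      have hfixP : ∀ p : FixP D, g.pt p.1 = p.1 := by
        intro p
        have := restr_pt D ⟨g, hgN⟩ p
        rw [h1] at this
        simpa using this.symm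
      obtain ⟨D', hD'⟩ : ∃ D' : Subgroup (Coll P L), D' = D ⊔ Subgroup.zpowers g := ⟨_, rfl⟩
      have hDD' : D < D' := by
        rw [hD']
        refine lt_of_le_of_ne le_sup_left ?_
        intro h
        apply hgD
        rw [h]
        exact (le_sup_right : Subgroup.zpowers g ≤ D ⊔ Subgroup.zpowers g) (Subgroup.mem_zpowers g)
      have hD'R : D' ≤ R := by
        rw [hD']
        exact sup_le hDR' ((Subgroup.zpowers_le).mpr hgR)
      have hD'p : IsPGroup 2 D' := hR.to_le hD'R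
      have hfix' : ∀ p : FixP D, ∀ w ∈ D', w.pt p.1 = p.1 := by
        intro p w hw
        have hsub : D' ≤ Subgroup.closure ((D : Set (Coll P L)) ∪ {g}) := by
          rw [hD']
          refine sup_le ?_ ?_
          · intro u hu
            exact Subgroup.subset_closure (Or.inl hu)
          · rw [Subgroup.zpowers_le]
            exact Subgroup.subset_closure (Or.inr rfl)
        have hw' := hsub hw
        clear hw
        induction hw' using Subgroup.closure_induction with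
        | mem y hy =>
          rcases hy with hy | hy
          · exact p.2 y hy
          · rw [Set.mem_singleton_iff] at hy
            rw [hy]; exact hfixP p
        | one => rfl
        | mul y z _ _ hy hz =>
          simp only [mul_pt, Equiv.Perm.mul_apply]
          rw [hz, hy]
        | inv y _ hy =>
          simp only [inv_pt]
          rw [Equiv.Perm.inv_eq_iff_eq]
          exact hy.symm
      refine hmax D' hDD' (hD'R.trans hRG) hD'p ?_
      obtain ⟨a, b, c, d, h1', h2', h3', h4', h5', h6', hl⟩ := hQ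
      have up : ∀ p q : FixP D, p ≠ q → (⟨p.1, hfix' p⟩ : FixP D') ≠ ⟨q.1, hfix' q⟩ := by
        intro p q hpq he
        exact hpq (Subtype.ext (Subtype.mk.inj he))
      exact ⟨⟨a.1, hfix' a⟩, ⟨b.1, hfix' b⟩, ⟨c.1, hfix' c⟩, ⟨d.1, hfix' d⟩, up _ _ h1', up _ _ h2', up _ _ h3',
        up _ _ h4', up _ _ h5', up _ _ h6', hl⟩
  · intro p hp
    apply Subtype.ext
    rw [restr_pt]
    exact hp g hgR

/-- KEY LEMMA: property (P) of Theorem H. -/
theorem induced_hP (IH : IHOW.{u, v} (ProjectivePlane.order P L))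
    {G D : Subgroup (Coll P L)} (hG : TwoTrans G) (hn : Odd (ProjectivePlane.order P L))
    (hp : ¬ IsPrimePow (ProjectivePlane.order P L))
    (hDG : D ≤ G) (hD2 : IsPGroup 2 D) (hQ : HasQuad D)
    (hmax : ∀ D' : Subgroup (Coll P L), D < D' → D' ≤ G → IsPGroup 2 D' → ¬ HasQuad D') :
    letI := fixPlane D hQ
    ∀ a b : FixP D, a ≠ b → ∀ l : FixL D, b ∈ l → a ∉ l →
      ∃ e : FixP D, e ∈ l ∧ e ≠ b ∧ ∃ h ∈ induced G D, orderOf h = 2 ∧ h.pt a = a ∧ h.pt b = b ∧ h.pt e = e := by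
  letI := fixPlane D hQ
  intro a b hab l hbl hal
  have hab' : a.1 ≠ b.1 := fun e => hab (Subtype.ext e)
  obtain ⟨e, R, hel, heb, hDR, hSyl, hnc, hfix⟩ := exists_fixed_third IH hG hn hp hab' hDG hD2
    (fun d hd => ⟨a.2 d hd, b.2 d hd⟩) hbl hal (fun d hd => l.2 d hd)
  have heD : ∀ w ∈ D, w.pt e = e := fun w hw => (hfix e).mpr (Or.inr (Or.inr rfl)) w (hDR hw)
  refine ⟨⟨e, heD⟩, hel, fun h => heb (congrArg Subtype.val h), ?_⟩
  -- `D < R`: `Fix R` is a triangle, `Fix D` has a quadrangle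
  have hlt : D < R := by
    refine lt_of_le_of_ne hDR ?_
    intro hDeq
    obtain ⟨p₁, p₂, p₃, p₄, h12, h13, h14, h23, h24, h34, -⟩ := hQ
    have hmem : ∀ p : FixP D, p.1 = a.1 ∨ p.1 = b.1 ∨ p.1 = e := by
      intro p
      refine (hfix p.1).mp ?_
      intro s hs
      exact p.2 s (by rw [hDeq]; exact hs)
    have hne : ∀ {p q : FixP D}, p ≠ q → p.1 ≠ q.1 := fun h e => h (Subtype.ext e)
    rcases hmem p₁ with h1 | h1 | h1 <;> rcases hmem p₂ with h2 | h2 | h2 <;>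
      rcases hmem p₃ with h3 | h3 | h3 <;> rcases hmem p₄ with h4 | h4 | h4 <;>
      first
      | exact hne h12 (h1.trans h2.symm)
      | exact hne h13 (h1.trans h3.symm)
      | exact hne h14 (h1.trans h4.symm)
      | exact hne h23 (h2.trans h3.symm)
      | exact hne h24 (h2.trans h4.symm)
      | exact hne h34 (h3.trans h4.symm)
  obtain ⟨h, hh, ho, hf⟩ := exists_inv_of_lt hQ hmax hlt hSyl.1 hSyl.2.1
  refine ⟨h, hh, ho, hf a ?_, hf b ?_, hf ⟨e, heD⟩ ?_⟩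
  · exact (hfix a.1).mpr (Or.inl rfl)
  · exact (hfix b.1).mpr (Or.inr (Or.inl rfl))
  · exact (hfix e).mpr (Or.inr (Or.inr rfl))

/-- [M9] `n` odd, not a prime power: impossible. -/
theorem oddnpp_false (IH : IHOW.{u, v} (ProjectivePlane.order P L))
    {G : Subgroup (Coll P L)} (hG : TwoTrans G) (hn : Odd (ProjectivePlane.order P L))
    (hp : ¬ IsPrimePow (ProjectivePlane.order P L)) : False := by
  obtain ⟨D, hDG, hD2, hQ, hmax⟩ := exists_locmax G
  letI := fixPlane D hQ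
  letI := Fintype.ofFinite (FixP D)
  letI := Fintype.ofFinite (FixL D)
  obtain ⟨k, hk⟩ := order_fix_pow D hD2 hQ
  have hodd : Odd (ProjectivePlane.order (FixP D) (FixL D)) := by
    rw [hk] at hn
    exact (Nat.odd_pow_iff (by positivity)).1 hn
  have hH : HHyp (induced G D) :=
    { hodd := hodd
      hinv := induced_inv hn hDG hD2 hQ hmax
      hP := induced_hP IH hG hn hp hDG hD2 hQ hmax }
  have hpp := thmH hH
  apply hp
  rw [hk]
  exact hpp.pow (by positivity)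

end Cfsg.Agent.Lib.OW
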