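import Cfsg.Agent.Lib.OW.Defs

/-! Witt's lemma for collineation groups: plain-point form. -/

set_option autoImplicit false
set_option linter.unusedSectionVars false

namespace Cfsg.Agent.Lib.OW.WittAux

open Cfsg.Agent.Lib.OW

variable {P L : Type*} [Membership P L] [Finite P] [Finite L]

/-- the stabilizer of two points in `G`. -/
def stab2 (G : Subgroup (Coll P L)) (x y : P) : Subgroup (Coll P L) where
  carrier := {h | h ∈ G ∧ h.pt x = x ∧ h.pt y = y}
  mul_mem' := by
    rintro u v ⟨hu, hu1, hu2⟩ ⟨hv, hv1, hv2⟩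
    refine ⟨G.mul_mem hu hv, ?_, ?_⟩
    · simp [hv1, hu1]
    · simp [hv2, hu2]
  one_mem' := ⟨G.one_mem, by simp, by simp⟩
  inv_mem' := by
    rintro u ⟨hu, hu1, hu2⟩
    refine ⟨G.inv_mem hu, ?_, ?_⟩
    · simp only [inv_pt]; rw [Equiv.Perm.inv_eq_iff_eq]; exact hu1.symm
    · simp only [inv_pt]; rw [Equiv.Perm.inv_eq_iff_eq]; exact hu2.symm

/-- the `c`-conjugate of a subgroup. -/
abbrev cj (c : Coll P L) (W : Subgroup (Coll P L)) : Subgroup (Coll P L) :=
  W.map (MulAut.conj c).toMonoidHom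

theorem mem_cj {c : Coll P L} {W : Subgroup (Coll P L)} {h : Coll P L} :
    h ∈ cj c W ↔ c⁻¹ * h * c ∈ W := by
  simp only [cj, Subgroup.mem_map]
  constructor
  · rintro ⟨w, hw, rfl⟩
    simpa [mul_assoc] using hw
  · intro hh
    refine ⟨_, hh, ?_⟩
    simp [mul_assoc]

theorem card_cj (c : Coll P L) (W : Subgroup (Coll P L)) : Nat.card (cj c W) = Nat.card W := by
  have : Function.Injective (MulAut.conj c).toMonoidHom := (MulAut.conj c).injective
  exact Subgroup.card_map_of_injective this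

theorem isPGroup_cj {r : ℕ} (c : Coll P L) {W : Subgroup (Coll P L)} (h : IsPGroup r W) :
    IsPGroup r (cj c W) := h.map _

theorem fix_of_conj {g q : Coll P L} {a x : P} (hga : g.pt a = x)
    (h : (g * q * g⁻¹).pt x = x) : q.pt a = a := by
  subst hga
  simpa using h

theorem fix_conj {g q : Coll P L} {a x : P} (hga : g.pt a = x)
    (h : q.pt a = a) : (g * q * g⁻¹).pt x = x := by
  subst hga
  simpa using h

theorem witt_aux {G : Subgroup (Coll P L)} (hG : TwoTrans G) (r : ℕ) [Fact r.Prime]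
    (W : Subgroup (Coll P L)) (a b : P) (hab : a ≠ b)
    (hW : W ≤ G) (hWr : IsPGroup r W)
    (ha : ∀ w ∈ W, w.pt a = a) (hb : ∀ w ∈ W, w.pt b = b)
    (hmax : ∀ Q : Subgroup (Coll P L), Q ≤ G → IsPGroup r Q → W ≤ Q →
      (∀ q ∈ Q, q.pt a = a ∧ q.pt b = b) → Q = W)
    (x y : P) (hxy : x ≠ y) (hx : ∀ w ∈ W, w.pt x = x) (hy : ∀ w ∈ W, w.pt y = y) :
    ∃ n ∈ G, n ∈ Subgroup.normalizer (W : Set (Coll P L)) ∧ n.pt a = x ∧ n.pt b = y := by
  classical
  obtain ⟨g, hgG, hga, hgb⟩ := hG a b x y hab hxy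
  set A := stab2 G x y with hA
  -- the conjugate is a maximal `r`-subgroup of `A`
  have hmax' : ∀ Q : Subgroup (Coll P L), Q ≤ A → IsPGroup r Q → cj g W ≤ Q → Q = cj g W := by
    intro Q hQA hQr hQ
    have hR : cj g⁻¹ Q = W := by
      apply hmax
      · intro q hq
        rw [mem_cj] at hq
        simp only [inv_inv] at hq
        have h1 := (hQA hq).1
        have h2 : q = g⁻¹ * (g * q * g⁻¹) * g := by group
        rw [h2]
        exact G.mul_mem (G.mul_mem (G.inv_mem hgG) h1) hgG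
      · exact isPGroup_cj _ hQr
      · intro w hw
        rw [mem_cj]
        simp only [inv_inv]
        apply hQ
        rw [mem_cj]
        simpa [mul_assoc] using hw
      · intro q hq
        rw [mem_cj] at hq
        simp only [inv_inv] at hq
        have h1 := hQA hq
        exact ⟨fix_of_conj hga h1.2.1, fix_of_conj hgb h1.2.2⟩
    ext h
    rw [mem_cj, ← hR, mem_cj]
    simp only [inv_inv]
    have e : g * (g⁻¹ * h * g) * g⁻¹ = h := by group
    rw [e]
  have hWA : W ≤ A := fun w hw => ⟨hW hw, hx w hw, hy w hw⟩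
  have hcA : cj g W ≤ A := by
    intro h hh
    rw [mem_cj] at hh
    have hh' : h = g * (g⁻¹ * h * g) * g⁻¹ := by group
    refine ⟨?_, ?_, ?_⟩
    · rw [hh']
      exact G.mul_mem (G.mul_mem hgG (hW hh)) (G.inv_mem hgG)
    · rw [hh']; exact fix_conj hga (ha _ hh)
    · rw [hh']; exact fix_conj hgb (hb _ hh)
  -- Sylow subgroups of `A`
  have hWApg : IsPGroup r (W.subgroupOf A) := hWr.comap_of_injective A.subtype A.subtype_injective
  have hcApg : IsPGroup r ((cj g W).subgroupOf A) :=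
    (isPGroup_cj g hWr).comap_of_injective A.subtype A.subtype_injective
  obtain ⟨Q₀, hQ₀⟩ := hWApg.exists_le_sylow
  obtain ⟨Q₁, hQ₁⟩ := hcApg.exists_le_sylow
  have hQ₁' : (Q₁ : Subgroup A).map A.subtype = cj g W := by
    apply hmax'
    · rintro _ ⟨z, _, rfl⟩
      exact z.2
    · exact Q₁.isPGroup'.map _
    · intro h hh
      exact ⟨⟨h, hcA hh⟩, hQ₁ (by simpa [Subgroup.mem_subgroupOf] using hh), rfl⟩
  obtain ⟨h, hh⟩ := MulAction.exists_smul_eq A Q₁ Q₀
  set n : Coll P L := (h : Coll P L) * g with hn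
  have hnsub : ∀ w ∈ W, n⁻¹ * w * n ∈ W := by
    intro w hw
    have h1 : (⟨w, hWA hw⟩ : A) ∈ (Q₀ : Subgroup A) :=
      hQ₀ (by simpa [Subgroup.mem_subgroupOf] using hw)
    rw [← hh, Sylow.coe_subgroup_smul, Subgroup.mem_pointwise_smul_iff_inv_smul_mem] at h1
    have h2 : (((MulAut.conj h)⁻¹ • (⟨w, hWA hw⟩ : A) : A) : Coll P L) ∈
        (Q₁ : Subgroup A).map A.subtype := ⟨_, h1, rfl⟩
    rw [hQ₁', mem_cj] at h2
    have e : ((MulAut.conj h)⁻¹ • (⟨w, hWA hw⟩ : A) : A) = h⁻¹ * ⟨w, hWA hw⟩ * h := by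
      simp [MulAut.smul_def, MulAut.conj_symm_apply, MulAut.inv_def]
    rw [e] at h2
    have e2 : n⁻¹ * w * n = g⁻¹ * (((h⁻¹ * ⟨w, hWA hw⟩ * h : A)) : Coll P L) * g := by
      simp [hn, mul_assoc]
    rw [e2]; exact h2
  have hcW : cj n⁻¹ W = W := by
    apply Subgroup.eq_of_le_of_card_ge
    · intro z hz
      rw [mem_cj] at hz
      simp only [inv_inv] at hz
      have := hnsub _ hz
      have e : n⁻¹ * (n * z * n⁻¹) * n = z := by group
      rwa [e] at this
    · rw [card_cj]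
  refine ⟨n, G.mul_mem h.2.1 hgG, ?_, ?_, ?_⟩
  · rw [Subgroup.mem_normalizer_iff]
    intro z
    constructor
    · intro hz
      have : z ∈ cj n⁻¹ W := by rw [hcW]; exact hz
      rw [mem_cj] at this
      simpa using this
    · intro hz
      have := hnsub _ hz
      have e : n⁻¹ * (n * z * n⁻¹) * n = z := by group
      rwa [e] at this
  · simp only [hn, mul_pt, Equiv.Perm.mul_apply, hga]
    exact h.2.2.1
  · simp only [hn, mul_pt, Equiv.Perm.mul_apply, hgb]
    exact h.2.2.2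

end Cfsg.Agent.Lib.OW.WittAux
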