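import Cfsg.Agent.Lib.OW.Basics
import Cfsg.Agent.Lib.OW.WittAux

/-! [M3] Fixed subplanes and induced groups. -/

set_option autoImplicit false

namespace Cfsg.Agent.Lib.OW

open Configuration

variable {P L : Type*} [Membership P L]

/-- points fixed by `W`. -/
abbrev FixP (W : Subgroup (Coll P L)) : Type _ := {p : P // ∀ w ∈ W, w.pt p = p}
/-- lines fixed by `W`. -/
abbrev FixL (W : Subgroup (Coll P L)) : Type _ := {l : L // ∀ w ∈ W, w.ln l = l}

instance (W : Subgroup (Coll P L)) : Membership (FixP W) (FixL W) := ⟨fun l p => p.1 ∈ l.1⟩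

/-- `Fix(W)` contains a quadrangle. -/
def HasQuad (W : Subgroup (Coll P L)) : Prop :=
  ∃ a b c d : FixP W, a ≠ b ∧ a ≠ c ∧ a ≠ d ∧ b ≠ c ∧ b ≠ d ∧ c ≠ d ∧
    ∀ l : L, ¬ (a.1 ∈ l ∧ b.1 ∈ l ∧ c.1 ∈ l) ∧ ¬ (a.1 ∈ l ∧ b.1 ∈ l ∧ d.1 ∈ l) ∧
      ¬ (a.1 ∈ l ∧ c.1 ∈ l ∧ d.1 ∈ l) ∧ ¬ (b.1 ∈ l ∧ c.1 ∈ l ∧ d.1 ∈ l)

variable [Fintype P] [Fintype L] [ProjectivePlane P L]

/-- The line through two fixed points. -/
noncomputable def fixLine (W : Subgroup (Coll P L)) {p q : FixP W} (h : p ≠ q) : FixL W :=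
  ⟨HasLines.mkLine (fun e => h (Subtype.ext e)), by
    intro w hw
    have hne : p.1 ≠ q.1 := fun e => h (Subtype.ext e)
    have ax := HasLines.mkLine_ax (L := L) hne
    have h1 : p.1 ∈ w.ln (HasLines.mkLine hne) := by
      have := (w.inc p.1 (HasLines.mkLine hne)).2 ax.1
      rwa [p.2 w hw] at this
    have h2 : q.1 ∈ w.ln (HasLines.mkLine hne) := by
      have := (w.inc q.1 (HasLines.mkLine hne)).2 ax.2
      rwa [q.2 w hw] at this
    rcases Nondegenerate.eq_or_eq h1 h2 ax.1 ax.2 with e | e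
    · exact absurd e hne
    · exact e⟩

theorem fixLine_ax (W : Subgroup (Coll P L)) {p q : FixP W} (h : p ≠ q) :
    p ∈ fixLine W h ∧ q ∈ fixLine W h :=
  HasLines.mkLine_ax (L := L) (fun e => h (Subtype.ext e))

/-- The point on two fixed lines. -/
noncomputable def fixPoint (W : Subgroup (Coll P L)) {l m : FixL W} (h : l ≠ m) : FixP W :=
  ⟨HasPoints.mkPoint (fun e => h (Subtype.ext e)), by
    intro w hw
    have hne : l.1 ≠ m.1 := fun e => h (Subtype.ext e)
    have ax := HasPoints.mkPoint_ax (P := P) hne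
    have h1 : w.pt (HasPoints.mkPoint hne) ∈ l.1 := by
      have := (w.inc (HasPoints.mkPoint hne) l.1).2 ax.1
      rwa [l.2 w hw] at this
    have h2 : w.pt (HasPoints.mkPoint hne) ∈ m.1 := by
      have := (w.inc (HasPoints.mkPoint hne) m.1).2 ax.2
      rwa [m.2 w hw] at this
    rcases Nondegenerate.eq_or_eq h1 ax.1 h2 ax.2 with e | e
    · exact e
    · exact absurd e hne⟩

theorem fixPoint_ax (W : Subgroup (Coll P L)) {l m : FixL W} (h : l ≠ m) :
    fixPoint W h ∈ l ∧ fixPoint W h ∈ m :=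
  HasPoints.mkPoint_ax (P := P) (fun e => h (Subtype.ext e))

/-- the subplane. -/
noncomputable def fixPlane (W : Subgroup (Coll P L)) (h : HasQuad W) :
    ProjectivePlane (FixP W) (FixL W) := by
  have hEq : ∀ {p₁ p₂ : FixP W} {l₁ l₂ : FixL W}, p₁ ∈ l₁ → p₂ ∈ l₁ → p₁ ∈ l₂ → p₂ ∈ l₂ →
      p₁ = p₂ ∨ l₁ = l₂ := by
    intro p₁ p₂ l₁ l₂ h1 h2 h3 h4
    rcases Nondegenerate.eq_or_eq (P := P) (L := L) h1 h2 h3 h4 with e | e
    · exact Or.inl (Subtype.ext e)
    · exact Or.inr (Subtype.ext e)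
  have hPt : ∀ l : FixL W, ∃ p : FixP W, p ∉ l := by
    obtain ⟨a, b, c, d, hab, hac, had, hbc, hbd, hcd, hq'⟩ := h
    intro l
    by_contra hcon
    push Not at hcon
    exact (hq' l.1).1 ⟨hcon a, hcon b, hcon c⟩
  have hLn : ∀ p : FixP W, ∃ l : FixL W, p ∉ l := by
    obtain ⟨a, b, c, d, hab, hac, had, hbc, hbd, hcd, hq'⟩ := h
    intro p
    by_contra hcon
    push Not at hcon
    have hab' := fixLine_ax W hab
    have hac' := fixLine_ax W hac
    have hbc' := fixLine_ax W hbc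
    have hne : fixLine W hab ≠ fixLine W hac := by
      intro e
      have h1 := hab'.1
      have h2 := hab'.2
      have h3 := hac'.2
      rw [← e] at h3
      exact (hq' (fixLine W hab).1).1 ⟨h1, h2, h3⟩
    have hpa : p = a := by
      rcases hEq (hcon (fixLine W hab)) hab'.1 (hcon (fixLine W hac)) hac'.1 with e | e
      · exact e
      · exact absurd e hne
    have h1 := hcon (fixLine W hbc)
    rw [hpa] at h1
    exact (hq' (fixLine W hbc).1).1 ⟨h1, hbc'.1, hbc'.2⟩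
  have nd : Nondegenerate (FixP W) (FixL W) :=
    { exists_point := hPt, exists_line := hLn, eq_or_eq := hEq }
  exact
    { toHasPoints := { toNondegenerate := nd, mkPoint := fun h => fixPoint W h, mkPoint_ax := fun h => fixPoint_ax W h }
      mkLine := fun h => fixLine W h
      mkLine_ax := fun h => fixLine_ax W h
      exists_config := by
        obtain ⟨a, b, c, d, hab, hac, had, hbc, hbd, hcd, hq'⟩ := h
        have hab' := fixLine_ax W hab
        have hac' := fixLine_ax W hac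
        have hcd' := fixLine_ax W hcd
        refine ⟨d, a, b, fixLine W hcd, fixLine W hab, fixLine W hac, ?_, ?_, ?_, hab'.1, hac'.1, ?_, hab'.2, ?_⟩
        · intro e
          exact (hq' (fixLine W hab).1).2.1 ⟨hab'.1, hab'.2, e⟩
        · intro e
          exact (hq' (fixLine W hac).1).2.2.1 ⟨hac'.1, hac'.2, e⟩
        · intro e
          exact (hq' (fixLine W hcd).1).2.2.1 ⟨e, hcd'.1, hcd'.2⟩
        · intro e
          exact (hq' (fixLine W hcd).1).2.2.2 ⟨e, hcd'.1, hcd'.2⟩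
        · intro e
          exact (hq' (fixLine W hac).1).1 ⟨hac'.1, e, hac'.2⟩ }

omit [Fintype P] [Fintype L] [ProjectivePlane P L] in
theorem conj_mem_aux {W : Subgroup (Coll P L)} (g : Subgroup.normalizer (W : Set (Coll P L)))
    {w : Coll P L} (hw : w ∈ W) : g.1⁻¹ * w * g.1 ∈ W := by
  have h := (Subgroup.mem_normalizer_iff.1 g.2 (g.1⁻¹ * w * g.1)).2
  apply h
  have e : g.1 * (g.1⁻¹ * w * g.1) * g.1⁻¹ = w := by group
  rw [e]; exact hw

/-- Action of the normalizer on fixed points. -/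
def mapP (W : Subgroup (Coll P L)) (g : Subgroup.normalizer (W : Set (Coll P L))) (p : FixP W) : FixP W :=
  ⟨g.1.pt p.1, by
    intro w hw
    have h := p.2 _ (conj_mem_aux g hw)
    simp only [mul_pt, inv_pt, Equiv.Perm.mul_apply] at h
    rw [Equiv.Perm.inv_eq_iff_eq] at h
    exact h⟩

/-- Action of the normalizer on fixed lines. -/
def mapL (W : Subgroup (Coll P L)) (g : Subgroup.normalizer (W : Set (Coll P L))) (l : FixL W) : FixL W :=
  ⟨g.1.ln l.1, by
    intro w hw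
    have h := l.2 _ (conj_mem_aux g hw)
    simp only [mul_ln, inv_ln, Equiv.Perm.mul_apply] at h
    rw [Equiv.Perm.inv_eq_iff_eq] at h
    exact h⟩

/-- restriction of an element of the normalizer. -/
def restr (W : Subgroup (Coll P L)) : (Subgroup.normalizer (W : Set (Coll P L))) →* Coll (FixP W) (FixL W) where
  toFun g :=
    { pt := ⟨mapP W g, mapP W g⁻¹,
        fun p => Subtype.ext (by simp [mapP]),
        fun p => Subtype.ext (by simp [mapP])⟩
      ln := ⟨mapL W g, mapL W g⁻¹,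
        fun l => Subtype.ext (by simp [mapL]),
        fun l => Subtype.ext (by simp [mapL])⟩
      inc := fun p l => g.1.inc p.1 l.1 }
  map_one' := by
    apply Coll.ext <;> apply Equiv.ext <;> intro x <;> apply Subtype.ext <;> rfl
  map_mul' a b := by
    apply Coll.ext <;> apply Equiv.ext <;> intro x <;> apply Subtype.ext <;> rfl

@[simp] theorem restr_pt (W : Subgroup (Coll P L)) (g : Subgroup.normalizer (W : Set (Coll P L))) (p : FixP W) :
    ((restr W g).pt p).1 = g.1.pt p.1 := by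
  rfl

@[simp] theorem restr_ln (W : Subgroup (Coll P L)) (g : Subgroup.normalizer (W : Set (Coll P L))) (l : FixL W) :
    ((restr W g).ln l).1 = g.1.ln l.1 := by
  rfl

/-- Witt: `W` Sylow in `G_{a,b}` (some prime) ⟹ `N_G(W)` 2-transitive on `Fix W`. -/
theorem witt {G : Subgroup (Coll P L)} (hG : TwoTrans G) (r : ℕ) [Fact r.Prime]
    (W : Subgroup (Coll P L)) (a b : FixP W) (hab : a ≠ b)
    (hW : W ≤ G) (hWr : IsPGroup r W)
    (hmax : ∀ Q : Subgroup (Coll P L), Q ≤ G → IsPGroup r Q → W ≤ Q →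
      (∀ q ∈ Q, q.pt a.1 = a.1 ∧ q.pt b.1 = b.1) → Q = W) :
    ∀ p₁ p₂ q₁ q₂ : FixP W, p₁ ≠ p₂ → q₁ ≠ q₂ →
      ∃ g : Subgroup.normalizer (W : Set (Coll P L)), g.1 ∈ G ∧ g.1.pt p₁.1 = q₁.1 ∧ g.1.pt p₂.1 = q₂.1 := by
  intro p₁ p₂ q₁ q₂ hp hq
  have hab' : a.1 ≠ b.1 := fun e => hab (Subtype.ext e)
  have key : ∀ x y : FixP W, x ≠ y → ∃ n ∈ G, n ∈ Subgroup.normalizer (W : Set (Coll P L)) ∧
      n.pt a.1 = x.1 ∧ n.pt b.1 = y.1 := fun x y hxy =>
    WittAux.witt_aux hG r W a.1 b.1 hab' hW hWr a.2 b.2 hmax x.1 y.1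
      (fun e => hxy (Subtype.ext e)) x.2 y.2
  obtain ⟨n₁, hn₁G, hn₁N, h11, h12⟩ := key p₁ p₂ hp
  obtain ⟨n₂, hn₂G, hn₂N, h21, h22⟩ := key q₁ q₂ hq
  refine ⟨⟨n₂ * n₁⁻¹, Subgroup.mul_mem _ hn₂N (Subgroup.inv_mem _ hn₁N)⟩,
    G.mul_mem hn₂G (G.inv_mem hn₁G), ?_, ?_⟩
  · simp only [mul_pt, inv_pt, Equiv.Perm.mul_apply]
    rw [← h11, ← h21]; simp
  · simp only [mul_pt, inv_pt, Equiv.Perm.mul_apply]
    rw [← h12, ← h22]; simp

end Cfsg.Agent.Lib.OW
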