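import Cfsg.Agent.Lib.OW.Basics

/-! [Th3] Coordinates (helper78). `Coord`: the plane in ternary-ring coordinates with mult `mu`.
Plan: `exists_coord` (T3Pair) + `hR_core`, `hL_core` (T3HR) + `field_transport` (T3Field) + `desarg_of_coord` (T3Iso).
Points `(x,y) = pA x y`, `(m) = pI m`, `(∞) = pY`; lines `y = x m + b = lA m b`, `x = c = lV c`, `l∞ = lI`. -/

set_option autoImplicit false

namespace Cfsg.Agent.Lib.OW

open Configuration

/-- Coordinates of a plane. -/
structure Coord (P L D : Type*) [Membership P L] [AddCommGroup D] (mu : D → D → D) where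
  pA : D → D → P
  pI : D → P
  pY : P
  lA : D → D → L
  lV : D → L
  lI : L
  inc_AA : ∀ x y m b, pA x y ∈ lA m b ↔ y = mu x m + b
  inc_AV : ∀ x y c, pA x y ∈ lV c ↔ x = c
  inc_AI : ∀ x y, pA x y ∉ lI
  inc_IA : ∀ n m b, pI n ∈ lA m b ↔ n = m
  inc_IV : ∀ n c, pI n ∉ lV c
  inc_II : ∀ n, pI n ∈ lI
  inc_YA : ∀ m b, pY ∉ lA m b
  inc_YV : ∀ c, pY ∈ lV c
  inc_YI : pY ∈ lI
  pt_cases : ∀ p : P, (∃ x y, p = pA x y) ∨ (∃ n, p = pI n) ∨ p = pY
  ln_cases : ∀ l : L, (∃ m b, l = lA m b) ∨ (∃ c, l = lV c) ∨ l = lI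

/-- The ring laws (no associativity). -/
structure RLaws {D : Type*} [AddCommGroup D] (mu : D → D → D) (e : D) : Prop where
  add_left : ∀ x x' m, mu (x + x') m = mu x m + mu x' m
  add_right : ∀ x m m', mu x (m + m') = mu x m + mu x m'
  one_left : ∀ m, mu e m = m
  one_right : ∀ x, mu x e = x
  ne : e ≠ 0

namespace RLaws
variable {D : Type*} [AddCommGroup D] {mu : D → D → D} {e : D} (R : RLaws mu e)
include R

theorem zero_left (m : D) : mu 0 m = 0 := by
  have := R.add_left 0 0 m
  simpa using this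

theorem zero_right (x : D) : mu x 0 = 0 := by
  have := R.add_right x 0 0
  simpa using this

theorem neg_left (x m : D) : mu (-x) m = - mu x m := by
  have := R.add_left x (-x) m
  rw [add_neg_cancel, R.zero_left] at this
  exact (neg_eq_of_add_eq_zero_right this.symm).symm

theorem neg_right (x m : D) : mu x (-m) = - mu x m := by
  have := R.add_right x m (-m)
  rw [add_neg_cancel, R.zero_right] at this
  exact (neg_eq_of_add_eq_zero_right this.symm).symm

/-- swapped laws. -/
theorem swap : RLaws (fun m n => mu n m) e :=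
  ⟨fun x x' m => R.add_right m x x', fun x m m' => R.add_left m m' x, R.one_right, R.one_left, R.ne⟩

end RLaws

namespace Coord
variable {P L D : Type*} [Membership P L] [AddCommGroup D] {mu : D → D → D} (C : Coord P L D mu)

/-- The dual coordinates, ring with swapped multiplication. -/
def dual {e : D} (R : RLaws mu e) : Coord (Dual L) (Dual P) D (fun m n => mu n m) where
  pA := C.lA
  pI := fun n => C.lV (-n)
  pY := C.lI
  lA := fun n y => C.pA (-n) y
  lV := C.pI
  lI := C.pY
  inc_AA := fun u v n w => by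
    change C.pA (-n) w ∈ C.lA u v ↔ v = mu n u + w
    rw [C.inc_AA, R.neg_left]
    constructor
    · intro h; rw [h]; abel
    · intro h; rw [h]; abel
  inc_AV := fun u v c => by
    change C.pI c ∈ C.lA u v ↔ u = c
    rw [C.inc_IA]; exact eq_comm
  inc_AI := fun u v => C.inc_YA u v
  inc_IA := fun n' n w => by
    change C.pA (-n) w ∈ C.lV (-n') ↔ n' = n
    rw [C.inc_AV, neg_inj]; exact eq_comm
  inc_IV := fun n c => C.inc_IV c (-n)
  inc_II := fun n => C.inc_YV (-n)
  inc_YA := fun n w => C.inc_AI (-n) w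
  inc_YV := fun c => C.inc_II c
  inc_YI := C.inc_YI
  pt_cases := fun l => by
    rcases C.ln_cases l with ⟨m, b, h⟩ | ⟨c, h⟩ | h
    · exact Or.inl ⟨m, b, h⟩
    · refine Or.inr (Or.inl ⟨-c, ?_⟩)
      change l = C.lV (- -c)
      rw [neg_neg]; exact h
    · exact Or.inr (Or.inr h)
  ln_cases := fun p => by
    rcases C.pt_cases p with ⟨x, y, h⟩ | ⟨n, h⟩ | h
    · refine Or.inl ⟨-x, y, ?_⟩
      change p = C.pA (- -x) y
      rw [neg_neg]; exact h
    · exact Or.inr (Or.inl ⟨n, h⟩)
    · exact Or.inr (Or.inr h)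

end Coord

/-- The dual collineation. -/
def Coll.dual {P L : Type*} [Membership P L] (g : Coll P L) : Coll (Dual L) (Dual P) where
  pt := g.ln
  ln := g.pt
  inc := fun l p => g.inc p l

end Cfsg.Agent.Lib.OW
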