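import Cfsg.Agent.Lib.OW.T3Base
import Cfsg.Agent.Lib.OW.AltAlg

/-! [T3Field] Ring laws + inverses give a field; transport to a type in `Type`; transport of coordinates. -/

set_option autoImplicit false

namespace Cfsg.Agent.Lib.OW

open Configuration

variable {D : Type*} [AddCommGroup D] [Finite D] {mu : D → D → D} {e : D}

/-- A finite field is a field on a `Fin`. -/
theorem t3field_transport_fin {E : Type*} [Field E] [Finite E] :
    ∃ (F : Type) (_ : Field F) (_ : Fintype F) (t : E ≃ F),
      (∀ x y, t (x + y) = t x + t y) ∧ (∀ x y, t (x * y) = t x * t y) := by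
  classical
  let t₀ := Finite.equivFin E
  letI iF : Field (Fin (Nat.card E)) := Equiv.field t₀.symm
  refine ⟨Fin (Nat.card E), iF, inferInstance, t₀, ?_, ?_⟩
  · intro x y
    show t₀ (x + y) = t₀ (t₀.symm (t₀ x) + t₀.symm (t₀ y))
    simp
  · intro x y
    show t₀ (x * y) = t₀ (t₀.symm (t₀ x) * t₀.symm (t₀ y))
    simp

/-- `NonAssocRing` from `RLaws`, `alt_of_maps`, `assoc_comm_of_alt`, `Fintype.fieldOfDomain`; `F := Fin (Nat.card D)` by `Equiv.field`. -/
theorem field_transport (R : RLaws mu e) (hNZ : ∀ x m, mu x m = 0 → x = 0 ∨ m = 0)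
    (hR : ∀ φ, φ ≠ 0 → ∃ φ', ∀ x, mu (mu x φ) φ' = x)
    (hL : ∀ φ, φ ≠ 0 → ∃ φ', ∀ x, mu φ' (mu φ x) = x) :
    ∃ (F : Type) (_ : Field F) (_ : Fintype F) (t : D ≃ F),
      (∀ x y, t (x + y) = t x + t y) ∧ (∀ x y, t (mu x y) = t x * t y) := by
  classical
  letI inst0 : NonAssocRing D :=
    { (inferInstance : AddCommGroup D) with
      mul := mu
      one := e
      left_distrib := R.add_right
      right_distrib := R.add_left
      zero_mul := R.zero_left
      mul_zero := R.zero_right
      one_mul := R.one_left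
      mul_one := R.one_right }
  haveI : Nontrivial D := ⟨⟨e, 0, R.ne⟩⟩
  haveI : NoZeroDivisors D := ⟨fun {a b} h => hNZ a b h⟩
  obtain ⟨h1, h2⟩ := alt_of_maps (D := D) hR hL
  obtain ⟨hA, hC⟩ := assoc_comm_of_alt (D := D) h1 h2
  letI inst1 : CommRing D :=
    { inst0 with
      mul_assoc := hA
      mul_comm := hC }
  haveI : IsDomain D := NoZeroDivisors.to_isDomain D
  letI : Fintype D := Fintype.ofFinite D
  letI iF : Field D := Fintype.fieldOfDomain D
  exact t3field_transport_fin (E := D)

/-- Transport of coordinates along an additive and multiplicative bijection. -/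
def Coord.transport {P L F : Type*} [Membership P L] [Field F] (C : Coord P L D mu) (t : D ≃ F)
    (hadd : ∀ x y, t (x + y) = t x + t y) (hmul : ∀ x y, t (mu x y) = t x * t y) :
    Coord P L F (fun a b => a * b) where
  pA := fun x y => C.pA (t.symm x) (t.symm y)
  pI := fun n => C.pI (t.symm n)
  pY := C.pY
  lA := fun m b => C.lA (t.symm m) (t.symm b)
  lV := fun c => C.lV (t.symm c)
  lI := C.lI
  inc_AA := fun x y m b => by
    rw [C.inc_AA]
    constructor
    · intro h
      have := congrArg t h
      rw [hadd, hmul] at this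
      simpa using this
    · intro h
      apply t.injective
      rw [hadd, hmul]
      simpa using h
  inc_AV := fun x y c => by
    rw [C.inc_AV]; exact t.symm.injective.eq_iff
  inc_AI := fun x y => C.inc_AI _ _
  inc_IA := fun n m b => by
    rw [C.inc_IA]; exact t.symm.injective.eq_iff
  inc_IV := fun n c => C.inc_IV _ _
  inc_II := fun n => C.inc_II _
  inc_YA := fun m b => C.inc_YA _ _
  inc_YV := fun c => C.inc_YV _
  inc_YI := C.inc_YI
  pt_cases := fun p => by
    rcases C.pt_cases p with ⟨x, y, h⟩ | ⟨n, h⟩ | h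
    · exact Or.inl ⟨t x, t y, by simpa using h⟩
    · exact Or.inr (Or.inl ⟨t n, by simpa using h⟩)
    · exact Or.inr (Or.inr h)
  ln_cases := fun l => by
    rcases C.ln_cases l with ⟨m, b, h⟩ | ⟨c, h⟩ | h
    · exact Or.inl ⟨t m, t b, by simpa using h⟩
    · exact Or.inr (Or.inl ⟨t c, by simpa using h⟩)
    · exact Or.inr (Or.inr h)

end Cfsg.Agent.Lib.OW
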