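import Cfsg.Agent.Lib.OW.T3Base

/-! [T3HR] `hR`, `hL` in coordinates. Paper proof of `hR_core`:
(1) `s` with `IsPersp s Y (x=0)`, `s(e,0) = (e,m)`: `s(x,y) = (x, y + x m)`. Indeed `s (y=0) ∋ (0,0), (e,m)` so `= [m,0]`; `lI` fixed, so `s (pI 0) = pI m`; `s [0,b] ∋ (0,b), pI m` so `= [m,b]`; `s` fixes `lV x`.
(2) `r` with `IsPersp r (pI 0) (y=0)`, `r(0,e) = (e,e)`: `r(x,y) = (x+y,y)`. `r (x=0) ∋ (0,0), (e,e)` so `= [e,0]`; `lI` fixed, `r pY = pI e`; `r (lV c) ∋ (c,0), pI e`, so `= [e,-c]`; `r` fixes `[0,y]`.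
(3) `w = r * s₋ₑ * r`: `w(x,y) = (y,-x)`. `v = w * s_φ * w⁻¹`: `v(x,y) = (x - y φ, y)` (`w⁻¹(x,y) = (-y,x)`).
(4) `φ ≠ 0`: `v.ln (lV 0)` contains `(0,0)` and `(-φ,e)`, so it is not `lI` or `lV c`: `= [m',b']`, `b' = 0`; `(-yφ, y) ∈ [m',0]`: `y = (-(yφ)) m'`. Take `φ' = -m'`. -/

set_option autoImplicit false

namespace Cfsg.Agent.Lib.OW

open Configuration

variable {P L D : Type*} [Membership P L] [ProjectivePlane P L] [AddCommGroup D] {mu : D → D → D} {e : D}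

namespace T3HRAux

variable {P L D : Type*} [Membership P L] [ProjectivePlane P L] [AddCommGroup D] {mu : D → D → D} {e : D}

omit [AddCommGroup D] in
lemma pt_uniq {p q : P} {l l' : L} (hl : l ≠ l') (hp : p ∈ l) (hp' : p ∈ l') (hq : q ∈ l) (hq' : q ∈ l') : p = q :=
  (Nondegenerate.eq_or_eq hp hq hp' hq').resolve_right hl

lemma ln_uniq {p q : P} {l l' : L} (hpq : p ≠ q) (hp : p ∈ l) (hq : q ∈ l) (hp' : p ∈ l') (hq' : q ∈ l') : l = l' :=
  (Nondegenerate.eq_or_eq hp hq hp' hq').resolve_left hpq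

lemma mem_image (g : Coll P L) {p : P} {l : L} (h : p ∈ l) : g.pt p ∈ g.ln l := (g.inc p l).2 h

variable (C : Coord P L D mu) (R : RLaws mu e)

include C in
lemma pA_ne_pI (x y n : D) : C.pA x y ≠ C.pI n := fun h => C.inc_AI x y (h ▸ C.inc_II n)

lemma lA_ne_lV (m b c : D) : C.lA m b ≠ C.lV c := fun h => C.inc_YA m b (h ▸ C.inc_YV c)

lemma lI_ne_lA (m b : D) : C.lI ≠ C.lA m b := fun h => C.inc_YA m b (h ▸ C.inc_YI)

lemma lA_ne_lA {m m' : D} (b b' : D) (h : m ≠ m') : C.lA m b ≠ C.lA m' b' := fun h' =>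
  h ((C.inc_IA m m' b').1 (h' ▸ (C.inc_IA m m b).2 rfl))

lemma pA_mem_V (x y : D) : C.pA x y ∈ C.lV x := (C.inc_AV x y x).2 rfl

include R in
lemma pA_mem_A0 (x y : D) : C.pA x y ∈ C.lA 0 y :=
  (C.inc_AA x y 0 y).2 (by rw [R.zero_right, zero_add])

lemma pI_mem_A (m b : D) : C.pI m ∈ C.lA m b := (C.inc_IA m m b).2 rfl

include R in
lemma ne_pA (m : D) : C.pA 0 0 ≠ C.pA e m := fun h =>
  R.ne ((C.inc_AV e m 0).1 (h ▸ pA_mem_V C 0 0))

include R in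
/-- (1) the shears. -/
lemma s_formula {m : D} {g : Coll P L} (hg : IsPersp g C.pY (C.lV 0)) (hs : g.pt (C.pA e 0) = C.pA e m) (x y : D) :
    g.pt (C.pA x y) = C.pA x (mu x m + y) := by
  have h0 : ∀ b, g.pt (C.pA 0 b) = C.pA 0 b := fun b => hg.1 _ (pA_mem_V C 0 b)
  have hV : ∀ c, g.ln (C.lV c) = C.lV c := fun c => hg.2 _ (C.inc_YV c)
  have hI : g.ln C.lI = C.lI := hg.2 _ C.inc_YI
  have hl00 : g.ln (C.lA 0 0) = C.lA m 0 := by
    refine ln_uniq (ne_pA C R m) ?_ ?_ ?_ ?_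
    · have := mem_image g (pA_mem_A0 C R 0 0)
      rwa [h0] at this
    · have := mem_image g (pA_mem_A0 C R e 0)
      rwa [hs] at this
    · exact (C.inc_AA 0 0 m 0).2 (by rw [R.zero_left, zero_add])
    · exact (C.inc_AA e m m 0).2 (by rw [R.one_left, add_zero])
  have hpI : g.pt (C.pI 0) = C.pI m := by
    refine pt_uniq (lI_ne_lA C m 0) ?_ ?_ (C.inc_II m) (pI_mem_A C m 0)
    · have := mem_image g (C.inc_II 0)
      rwa [hI] at this
    · have := mem_image g (pI_mem_A C 0 0)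
      rwa [hl00] at this
  have hlb : ∀ b, g.ln (C.lA 0 b) = C.lA m b := by
    intro b
    refine ln_uniq (pA_ne_pI C 0 b m) ?_ ?_ ?_ ?_
    · have := mem_image g (pA_mem_A0 C R 0 b)
      rwa [h0] at this
    · have := mem_image g (pI_mem_A C 0 b)
      rwa [hpI] at this
    · exact (C.inc_AA 0 b m b).2 (by rw [R.zero_left, zero_add])
    · exact pI_mem_A C m b
  refine pt_uniq (lA_ne_lV C m y x) ?_ ?_ ((C.inc_AA _ _ _ _).2 rfl) (pA_mem_V C x _)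
  · have := mem_image g (pA_mem_A0 C R x y)
    rwa [hlb] at this
  · have := mem_image g (pA_mem_V C x y)
    rwa [hV] at this

include R in
/-- (2) the translations. -/
lemma r_formula {g : Coll P L} (hg : IsPersp g (C.pI 0) (C.lA 0 0)) (hs : g.pt (C.pA 0 e) = C.pA e e) (x y : D) :
    g.pt (C.pA x y) = C.pA (x + y) y := by
  have h0 : ∀ b, g.pt (C.pA b 0) = C.pA b 0 := fun b => hg.1 _ (pA_mem_A0 C R b 0)
  have hA : ∀ b, g.ln (C.lA 0 b) = C.lA 0 b := fun b => hg.2 _ (pI_mem_A C 0 b)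
  have hI : g.ln C.lI = C.lI := hg.2 _ (C.inc_II 0)
  have hV0 : g.ln (C.lV 0) = C.lA e 0 := by
    refine ln_uniq (ne_pA C R e) ?_ ?_ ?_ ?_
    · have := mem_image g (pA_mem_V C 0 0)
      rwa [h0] at this
    · have := mem_image g (pA_mem_V C 0 e)
      rwa [hs] at this
    · exact (C.inc_AA 0 0 e 0).2 (by rw [R.zero_left, zero_add])
    · exact (C.inc_AA e e e 0).2 (by rw [R.one_left, add_zero])
  have hY : g.pt C.pY = C.pI e := by
    refine pt_uniq (lI_ne_lA C e 0) ?_ ?_ (C.inc_II e) (pI_mem_A C e 0)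
    · have := mem_image g C.inc_YI
      rwa [hI] at this
    · have := mem_image g (C.inc_YV 0)
      rwa [hV0] at this
  have hVc : ∀ c, g.ln (C.lV c) = C.lA e (-c) := by
    intro c
    refine ln_uniq (pA_ne_pI C c 0 e) ?_ ?_ ?_ ?_
    · have := mem_image g (pA_mem_V C c 0)
      rwa [h0] at this
    · have := mem_image g (C.inc_YV c)
      rwa [hY] at this
    · exact (C.inc_AA c 0 e (-c)).2 (by rw [R.one_right, add_neg_cancel])
    · exact pI_mem_A C e (-c)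
  have hne : C.lA e (-x) ≠ C.lA 0 y := lA_ne_lA C _ _ R.ne
  refine pt_uniq hne ?_ ?_ ((C.inc_AA _ _ _ _).2 ?_) (pA_mem_A0 C R _ _)
  · have := mem_image g (pA_mem_V C x y)
    rwa [hVc] at this
  · have := mem_image g (pA_mem_A0 C R x y)
    rwa [hA] at this
  · rw [R.one_right]
    abel

end T3HRAux

open T3HRAux in
theorem hR_core (C : Coord P L D mu) (R : RLaws mu e)
    (hS : ∀ m, ∃ g : Coll P L, IsPersp g C.pY (C.lV 0) ∧ g.pt (C.pA e 0) = C.pA e m)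
    (hRr : ∃ g : Coll P L, IsPersp g (C.pI 0) (C.lA 0 0) ∧ g.pt (C.pA 0 e) = C.pA e e) :
    ∀ φ, φ ≠ 0 → ∃ φ', ∀ x, mu (mu x φ) φ' = x := by
  intro φ hφ
  obtain ⟨r, hr, hr'⟩ := hRr
  obtain ⟨s₁, hs₁, hs₁'⟩ := hS (-e)
  obtain ⟨s, hs, hs'⟩ := hS φ
  have fr := r_formula C R hr hr'
  have fs₁ := s_formula C R hs₁ hs₁'
  have fs := s_formula C R hs hs'
  -- `w = r s₁ r`
  have hw : ∀ x y, (r * s₁ * r).pt (C.pA x y) = C.pA y (-x) := by
    intro x y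
    change r.pt (s₁.pt (r.pt (C.pA x y))) = _
    rw [fr, fs₁, fr, R.neg_right, R.one_right]
    congr 1 <;> abel
  set w := r * s₁ * r with hwdef
  have hwi : ∀ x y, (w⁻¹).pt (C.pA x y) = C.pA (-y) x := by
    intro x y
    change w.pt⁻¹ _ = _
    rw [Equiv.Perm.inv_eq_iff_eq, hw, neg_neg]
  -- `v = w s w⁻¹`
  have hv : ∀ x y, (w * s * w⁻¹).pt (C.pA x y) = C.pA (mu (-y) φ + x) y := by
    intro x y
    change w.pt (s.pt ((w⁻¹).pt (C.pA x y))) = _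
    rw [hwi, fs, hw, neg_neg]
  set v := w * s * w⁻¹ with hvdef
  have hmem : ∀ y, C.pA (mu (-y) φ) y ∈ v.ln (C.lV 0) := by
    intro y
    have := mem_image v (pA_mem_V C 0 y)
    rwa [hv, add_zero] at this
  rcases C.ln_cases (v.ln (C.lV 0)) with ⟨m', b, h⟩ | ⟨c, h⟩ | h
  · -- the slope
    rw [h] at hmem
    have h0 := hmem 0
    have hb : b = 0 := by
      have := (C.inc_AA _ _ _ _).1 h0
      rw [neg_zero, R.zero_left, R.zero_left, zero_add] at this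
      exact this.symm
    subst hb
    refine ⟨-m', fun x => ?_⟩
    have := (C.inc_AA _ _ _ _).1 (hmem x)
    rw [add_zero, R.neg_left, R.neg_left] at this
    rw [R.neg_right]
    exact this.symm
  · exfalso
    rw [h] at hmem
    have h0 := (C.inc_AV _ _ _).1 (hmem 0)
    have h1 := (C.inc_AV _ _ _).1 (hmem e)
    rw [neg_zero, R.zero_left] at h0
    rw [← h0, R.neg_left, R.one_left] at h1
    exact hφ (neg_eq_zero.1 h1)
  · exfalso
    rw [h] at hmem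
    exact C.inc_AI _ _ (hmem 0)

/-- Dual form: apply `hR_core` to `C.dual R` and `Coll.dual`. -/
theorem hL_core (C : Coord P L D mu) (R : RLaws mu e)
    (hT : ∀ m, ∃ g : Coll P L, IsPersp g (C.pI 0) C.lI ∧ g.ln (C.lA e 0) = C.lA e m)
    (hO : ∃ g : Coll P L, IsPersp g (C.pA 0 0) (C.lV 0) ∧ g.ln (C.lA 0 e) = C.lA e e) :
    ∀ φ, φ ≠ 0 → ∃ φ', ∀ x, mu φ' (mu φ x) = x := by
  have h1 := hR_core (C.dual R) R.swap
    (fun m => by
      obtain ⟨g, hg, hg'⟩ := hT m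
      refine ⟨g.dual, ⟨?_, ?_⟩, hg'⟩
      · intro p hp
        exact hg.2 p hp
      · intro l hl
        exact hg.1 l hl)
    (by
      obtain ⟨g, hg, hg'⟩ := hO
      refine ⟨g.dual, ⟨?_, ?_⟩, ?_⟩
      · intro p hp
        have h0 : C.pA (-0) 0 = C.pA 0 0 := by rw [neg_zero]
        refine hg.2 p ?_
        rw [← h0]
        exact hp
      · intro l hl
        have h0 : C.lV (-0) = C.lV 0 := by rw [neg_zero]
        refine hg.1 l ?_
        rw [← h0]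
        exact hl
      · exact hg')
  intro φ hφ
  obtain ⟨φ', h⟩ := h1 φ hφ
  exact ⟨φ', h⟩

/-- The four families of collineations from `Moufang`. -/
theorem colls_of_moufang {G : Subgroup (Coll P L)} (hM : Moufang G) (C : Coord P L D mu) (R : RLaws mu e) :
    (∀ m, ∃ g : Coll P L, IsPersp g C.pY (C.lV 0) ∧ g.pt (C.pA e 0) = C.pA e m) ∧
    (∃ g : Coll P L, IsPersp g (C.pI 0) (C.lA 0 0) ∧ g.pt (C.pA 0 e) = C.pA e e) ∧
    (∀ m, ∃ g : Coll P L, IsPersp g (C.pI 0) C.lI ∧ g.ln (C.lA e 0) = C.lA e m) ∧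
    (∃ g : Coll P L, IsPersp g (C.pA 0 0) (C.lV 0) ∧ g.ln (C.lA 0 e) = C.lA e e) := by
  have hzz : mu 0 0 = 0 := R.zero_left 0
  refine ⟨?_, ?_, ?_, ?_⟩
  · intro m
    obtain ⟨g, -, h1, h2⟩ := hM C.pY (C.lV 0) (C.inc_YV 0) (C.pA e 0) (C.pA e m) (C.lV e) (C.inc_YV e)
      ((C.inc_AV _ _ _).mpr rfl) ((C.inc_AV _ _ _).mpr rfl)
      (fun h => R.ne ((C.inc_AV _ _ _).mp h)) (fun h => R.ne ((C.inc_AV _ _ _).mp h))
    exact ⟨g, h1, h2⟩
  · obtain ⟨g, -, h1, h2⟩ := hM (C.pI 0) (C.lA 0 0) ((C.inc_IA _ _ _).mpr rfl) (C.pA 0 e) (C.pA e e) (C.lA 0 e)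
      ((C.inc_IA _ _ _).mpr rfl) ((C.inc_AA _ _ _ _).mpr (by rw [hzz, zero_add]))
      ((C.inc_AA _ _ _ _).mpr (by rw [R.zero_right, zero_add]))
      (fun h => by
        have := (C.inc_AA _ _ _ _).mp h
        rw [hzz, add_zero] at this
        exact R.ne this)
      (fun h => by
        have := (C.inc_AA _ _ _ _).mp h
        rw [R.zero_right, add_zero] at this
        exact R.ne this)
    exact ⟨g, h1, h2⟩
  · intro m
    obtain ⟨g, -, h1, h2⟩ := hM (C.pI 0) C.lI (C.inc_II 0) (C.pA 0 0) (C.pA (-m) 0) (C.lA 0 0)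
      ((C.inc_IA _ _ _).mpr rfl) ((C.inc_AA _ _ _ _).mpr (by rw [hzz, zero_add]))
      ((C.inc_AA _ _ _ _).mpr (by rw [R.zero_right, zero_add])) (C.inc_AI _ _) (C.inc_AI _ _)
    refine ⟨g, h1, ?_⟩
    have ha : C.pI e ∈ g.ln (C.lA e 0) := by
      have h3 := (g.inc (C.pI e) (C.lA e 0)).mpr ((C.inc_IA _ _ _).mpr rfl)
      rwa [h1.1 _ (C.inc_II e)] at h3
    have hb : C.pA (-m) 0 ∈ g.ln (C.lA e 0) := by
      have h3 := (g.inc (C.pA 0 0) (C.lA e 0)).mpr ((C.inc_AA _ _ _ _).mpr (by rw [R.zero_left, zero_add]))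
      rwa [h2] at h3
    have hc : C.pI e ∈ C.lA e m := (C.inc_IA _ _ _).mpr rfl
    have hd : C.pA (-m) 0 ∈ C.lA e m := (C.inc_AA _ _ _ _).mpr (by rw [R.one_right]; abel)
    rcases Nondegenerate.eq_or_eq ha hb hc hd with h5 | h5
    · exact absurd (h5 ▸ C.inc_II e) (C.inc_AI _ _)
    · exact h5
  · obtain ⟨g, -, h1, h2⟩ := hM (C.pA 0 0) (C.lV 0) ((C.inc_AV _ _ _).mpr rfl) (C.pI 0) (C.pA (-e) 0) (C.lA 0 0)
      ((C.inc_AA _ _ _ _).mpr (by rw [hzz, zero_add])) ((C.inc_IA _ _ _).mpr rfl)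
      ((C.inc_AA _ _ _ _).mpr (by rw [R.zero_right, zero_add])) (C.inc_IV _ _)
      (fun h => R.ne (neg_eq_zero.mp ((C.inc_AV _ _ _).mp h)))
    refine ⟨g, h1, ?_⟩
    have ha : C.pA (-e) 0 ∈ g.ln (C.lA 0 e) := by
      have h3 := (g.inc (C.pI 0) (C.lA 0 e)).mpr ((C.inc_IA _ _ _).mpr rfl)
      rwa [h2] at h3
    have hb : C.pA 0 e ∈ g.ln (C.lA 0 e) := by
      have h3 := (g.inc (C.pA 0 e) (C.lA 0 e)).mpr ((C.inc_AA _ _ _ _).mpr (by rw [hzz, zero_add]))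
      rwa [h1.1 _ ((C.inc_AV _ _ _).mpr rfl)] at h3
    have hc : C.pA (-e) 0 ∈ C.lA e e := (C.inc_AA _ _ _ _).mpr (by rw [R.one_right]; abel)
    have hd : C.pA 0 e ∈ C.lA e e := (C.inc_AA _ _ _ _).mpr (by rw [R.zero_left, zero_add])
    rcases Nondegenerate.eq_or_eq ha hb hc hd with h5 | h5
    · exfalso
      have h6 : C.pA 0 e ∈ C.lV (-e) := by
        rw [← h5]
        exact (C.inc_AV _ _ _).mpr rfl
      have h7 := (C.inc_AV _ _ _).mp h6
      exact R.ne (neg_eq_zero.mp h7.symm)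
    · exact h5

/-- No zero divisors. -/
theorem no_zero_div (C : Coord P L D mu) (R : RLaws mu e) (x m : D) (h : mu x m = 0) : x = 0 ∨ m = 0 := by
  by_cases hx : x = 0
  · exact Or.inl hx
  right
  have h1 : C.pA x 0 ∈ C.lA m 0 := (C.inc_AA _ _ _ _).mpr (by rw [h, zero_add])
  have h2 : C.pA 0 0 ∈ C.lA m 0 := (C.inc_AA _ _ _ _).mpr (by rw [R.zero_left, zero_add])
  have h3 : C.pA x 0 ∈ C.lA 0 0 := (C.inc_AA _ _ _ _).mpr (by rw [R.zero_right, zero_add])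
  have h4 : C.pA 0 0 ∈ C.lA 0 0 := (C.inc_AA _ _ _ _).mpr (by rw [R.zero_left, zero_add])
  rcases Nondegenerate.eq_or_eq h1 h2 h3 h4 with h5 | h5
  · exfalso
    apply hx
    have h6 : C.pA 0 0 ∈ C.lV x := by
      rw [← h5]
      exact (C.inc_AV _ _ _).mpr rfl
    exact ((C.inc_AV _ _ _).mp h6).symm
  · have h6 : C.pI m ∈ C.lA 0 0 := by
      rw [← h5]
      exact (C.inc_IA _ _ _).mpr rfl
    exact (C.inc_IA _ _ _).mp h6

end Cfsg.Agent.Lib.OW
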