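import Cfsg.Agent.Lib.OW.T3Base
import Cfsg.Agent.Lib.OW.CoIso

/-! [T3Iso] Coordinates over a field give `Desarguesian`.
`φ : P ≃ ℙ`: `(x,y) ↦ [x:y:1]`, `(m) ↦ [1:m:0]`, `(∞) ↦ [0:1:0]`, bijective via `pt_cases` + injectivity from incidences.
Lines: `[m,b] ↦ ker (v ↦ v 1 - v 0 * m - v 2 * b)`, `[c] ↦ ker (v ↦ v 0 - v 2 * c)`, `lI ↦ ker (v ↦ v 2)`.
A 2-dim `W`: `W ≤ ker f`, `f ≠ 0` (`Submodule.exists_le_ker_of_lt_top`), equality by finrank (`Submodule.eq_of_le_of_finrank_eq`), `f v = α v 0 + β v 1 + γ v 2`;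
`β ≠ 0`: `[-α/β, -γ/β]`; `β = 0, α ≠ 0`: `[-γ/α]`; else `lI`. -/

set_option autoImplicit false

namespace Cfsg.Agent.Lib.OW

open Configuration

variable {P L : Type*} [Membership P L] [Fintype P] [Fintype L] [ProjectivePlane P L]

theorem desarg_of_coord {F : Type} [Field F] [Fintype F] (C : Coord P L F (fun a b => a * b)) :
    Desarguesian P L :=
  desarguesian_of_coords
    { aff := C.pA
      slope := C.pI
      vert := C.pY
      line := C.lA
      vline := C.lV
      linf := C.lI
      pt_cases := C.pt_cases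
      ln_cases := C.ln_cases
      aff_line := C.inc_AA
      aff_vline := C.inc_AV
      aff_linf := C.inc_AI
      slope_line := C.inc_IA
      slope_vline := C.inc_IV
      slope_linf := C.inc_II
      vert_line := C.inc_YA
      vert_vline := C.inc_YV
      vert_linf := C.inc_YI }

end Cfsg.Agent.Lib.OW
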