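import Cfsg.Agent.Lib.OW.T3Pers

/-! [T3Pair] `exists_coord`. Frame `X ≠ Y ∈ l`, `o ∉ l`, `a = oX`, `b = oY`; `A = E(X,l)`, `C = E(Y,l)`, `B = E(Y,b)`. `κ(τ,s) = τ⁻¹ s τ s⁻¹ ∈ C`.
`A, C` abelian (`comm_same`), `[A,C] = 1` (`comm_of_ne`), `[B,C] = 1` (`comm_BC`). So `κ(ττ',s) = κ(τ,s) κ(τ',s)`, `κ(τ,ss') = κ(τ,s) κ(τ,s')`.
`τ₁ ∈ A`, `s₁ ∈ B` non-trivial. `α = κ(·,s₁) : A ≃* C`, `β = κ(τ₁,·) : B ≃* C` (injective by `kappa_eq_one`, equal cards by `card_EEG`).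
`D = Additive A`. `s(m) = β⁻¹(α m)`. `mu x m = α⁻¹ κ(x, s m)`. `e = τ₁`.
Coordinates: `pA x y = (α y) (x o)`, `pI m = (s m) X`, `pY = Y`, `lA m b = (α b) ((s m) a)`, `lV c = c b`, `lI = l`. -/

set_option autoImplicit false

namespace Cfsg.Agent.Lib.OW

open Configuration

universe u v

variable {P : Type u} {L : Type v} [Membership P L] [Fintype P] [Fintype L] [ProjectivePlane P L]

namespace T3PairAux

/-- The frame. -/
structure Frame (P : Type u) (L : Type v) [Membership P L] where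
  X : P
  Y : P
  o : P
  l : L
  a : L
  b : L
  hXl : X ∈ l
  hYl : Y ∈ l
  hXY : X ≠ Y
  hol : o ∉ l
  hoa : o ∈ a
  hXa : X ∈ a
  hob : o ∈ b
  hYb : Y ∈ b

theorem exists_frame : Nonempty (Frame P L) := by
  obtain ⟨p₁, p₂, p₃, l₁, l₂, l₃, h1, h2, h3, h4, h5, h6, h7, h8⟩ :=
    ProjectivePlane.exists_config (P := P) (L := L)
  have hX : p₁ ≠ p₂ := fun h => h1 (h ▸ h4)
  have hY : p₁ ≠ p₃ := fun h => h1 (h ▸ h7)
  have hXY : p₂ ≠ p₃ := fun h => h8 (h ▸ h5)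
  exact ⟨⟨p₂, p₃, p₁, l₂, HasLines.mkLine hX, HasLines.mkLine hY, h4, h7, hXY, h1,
    (HasLines.mkLine_ax hX).1, (HasLines.mkLine_ax hX).2, (HasLines.mkLine_ax hY).1, (HasLines.mkLine_ax hY).2⟩⟩

namespace Frame
variable (F : Frame P L)

theorem hab_o {p : P} (ha : p ∈ F.a) (hb : p ∈ F.b) : p = F.o := by
  rcases Nondegenerate.eq_or_eq ha F.hoa hb F.hob with h | h
  · exact h
  · exfalso
    rw [h] at ha
    -- `a = b` contains `X, Y`, so `= l`
    have hX : F.X ∈ F.b := h ▸ F.hXa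
    rcases Nondegenerate.eq_or_eq hX F.hYb F.hXl F.hYl with h' | h'
    · exact F.hXY h'
    · exact F.hol (h' ▸ F.hob)

theorem hXb : F.X ∉ F.b := fun hX => by
  rcases Nondegenerate.eq_or_eq hX F.hYb F.hXl F.hYl with h' | h'
  · exact F.hXY h'
  · exact F.hol (h' ▸ F.hob)

theorem hYa : F.Y ∉ F.a := fun hY => by
  rcases Nondegenerate.eq_or_eq hY F.hXa F.hYl F.hXl with h' | h'
  · exact F.hXY h'.symm
  · exact F.hol (h' ▸ F.hoa)

theorem hal_X {p : P} (ha : p ∈ F.a) (hl : p ∈ F.l) : p = F.X := by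
  rcases Nondegenerate.eq_or_eq ha F.hXa hl F.hXl with h | h
  · exact h
  · exact absurd (h ▸ F.hoa) F.hol

theorem hbl_Y {p : P} (hb : p ∈ F.b) (hl : p ∈ F.l) : p = F.Y := by
  rcases Nondegenerate.eq_or_eq hb F.hYb hl F.hYl with h | h
  · exact h
  · exact absurd (h ▸ F.hob) F.hol

end Frame

/-- Abstract root data with coordinates in `D`. -/
structure RootData (F : Frame P L) (D : Type*) [AddCommGroup D] (mu : D → D → D) where
  aD : D → Coll P L
  cD : D → Coll P L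
  sD : D → Coll P L
  a_mem : ∀ x, aD x ∈ EEG F.X F.l
  c_mem : ∀ x, cD x ∈ EEG F.Y F.l
  s_mem : ∀ x, sD x ∈ EEG F.Y F.b
  a_add : ∀ x y, aD (x + y) = aD x * aD y
  c_add : ∀ x y, cD (x + y) = cD x * cD y
  s_add : ∀ x y, sD (x + y) = sD x * sD y
  a_surj : ∀ g ∈ EEG F.X F.l, ∃ x, aD x = g
  c_surj : ∀ g ∈ EEG F.Y F.l, ∃ x, cD x = g
  s_surj : ∀ g ∈ EEG F.Y F.b, ∃ x, sD x = g
  a_inj : Function.Injective aD
  c_inj : Function.Injective cD
  s_inj : Function.Injective sD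
  kap : ∀ x m, (aD x)⁻¹ * sD m * aD x * (sD m)⁻¹ = cD (mu x m)
  comm_AC : ∀ x y, aD x * cD y = cD y * aD x
  comm_BC : ∀ m y, sD m * cD y = cD y * sD m

namespace RootData
variable {F : Frame P L} {D : Type*} [AddCommGroup D] {mu : D → D → D} (Rt : RootData F D mu)
include Rt

theorem a_zero : Rt.aD 0 = 1 := by
  have := Rt.a_add 0 0
  rw [add_zero] at this
  exact (left_eq_mul.mp this)

theorem c_zero : Rt.cD 0 = 1 := by
  have := Rt.c_add 0 0
  rw [add_zero] at this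
  exact (left_eq_mul.mp this)

theorem s_zero : Rt.sD 0 = 1 := by
  have := Rt.s_add 0 0
  rw [add_zero] at this
  exact (left_eq_mul.mp this)

theorem c_eq_one_iff (z : D) : Rt.cD z = 1 ↔ z = 0 :=
  ⟨fun h => Rt.c_inj (h.trans Rt.c_zero.symm), fun h => by rw [h, Rt.c_zero]⟩

theorem a_eq_one_iff (z : D) : Rt.aD z = 1 ↔ z = 0 :=
  ⟨fun h => Rt.a_inj (h.trans Rt.a_zero.symm), fun h => by rw [h, Rt.a_zero]⟩

theorem s_eq_one_iff (z : D) : Rt.sD z = 1 ↔ z = 0 :=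
  ⟨fun h => Rt.s_inj (h.trans Rt.s_zero.symm), fun h => by rw [h, Rt.s_zero]⟩

/-- `z ∈ C`, `z o ∈ a` forces `z = 1`. -/
theorem cD_pt_a (z : D) : (Rt.cD z).pt F.o ∈ F.a ↔ z = 0 := by
  rw [← Rt.c_eq_one_iff]
  constructor
  · intro h
    have hb : (Rt.cD z).pt F.o ∈ F.b := by
      have h1 := (Rt.cD z).inc F.o F.b
      rw [(Rt.c_mem z).2 F.b F.hYb] at h1
      exact h1.mpr F.hob
    have h2 := F.hab_o h hb
    exact eq_one_of_fix F.hYl (Rt.c_mem z) F.hol h2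
  · intro h
    rw [h]
    exact F.hoa

/-- `t ∈ A`, `t o ∈ b` forces `t = 1`. -/
theorem aD_pt_b (z : D) : (Rt.aD z).pt F.o ∈ F.b ↔ z = 0 := by
  rw [← Rt.a_eq_one_iff]
  constructor
  · intro h
    have ha : (Rt.aD z).pt F.o ∈ F.a := by
      have h1 := (Rt.aD z).inc F.o F.a
      rw [(Rt.a_mem z).2 F.a F.hXa] at h1
      exact h1.mpr F.hoa
    have h2 := F.hab_o ha h
    exact eq_one_of_fix F.hXl (Rt.a_mem z) F.hol h2
  · intro h
    rw [h]
    exact F.hob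

/-- `u ∈ B`, `u X ∈ a` forces `u = 1`. -/
theorem sD_pt_a (z : D) : (Rt.sD z).pt F.X ∈ F.a ↔ z = 0 := by
  rw [← Rt.s_eq_one_iff]
  constructor
  · intro h
    have hl : (Rt.sD z).pt F.X ∈ F.l := by
      have h1 := (Rt.sD z).inc F.X F.l
      rw [(Rt.s_mem z).2 F.l F.hYl] at h1
      exact h1.mpr F.hXl
    have h2 := F.hal_X h hl
    exact eq_one_of_fix F.hYb (Rt.s_mem z) F.hXb h2
  · intro h
    rw [h]
    exact F.hXa

theorem s_mem_l (z : D) {p : P} (hp : p ∈ F.l) : (Rt.sD z).pt p ∈ F.l := by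
  have h1 := (Rt.sD z).inc p F.l
  rw [(Rt.s_mem z).2 F.l F.hYl] at h1
  exact h1.mpr hp

/-- The key identity of `inc_AA`. -/
theorem key_AA (x y m b' : D) :
    Rt.cD y * Rt.aD x * Rt.sD m = Rt.cD b' * Rt.sD m * (Rt.aD x * Rt.cD (y - mu x m - b')) := by
  have h1 : Rt.sD m * Rt.aD x = Rt.aD x * Rt.cD (mu x m) * Rt.sD m := by
    rw [← Rt.kap x m]; group
  have h2 : Rt.sD m * Rt.cD (y - mu x m - b') = Rt.cD (y - mu x m - b') * Rt.sD m := Rt.comm_BC _ _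
  have h3 : Rt.cD y = Rt.cD b' * Rt.cD (mu x m) * Rt.cD (y - mu x m - b') := by
    rw [← Rt.c_add, ← Rt.c_add]
    congr 1
    abel
  have h4 : Rt.aD x * Rt.cD b' = Rt.cD b' * Rt.aD x := Rt.comm_AC _ _
  have h5 : Rt.aD x * Rt.cD (mu x m) * Rt.cD (y - mu x m - b')
      = Rt.cD (mu x m) * Rt.cD (y - mu x m - b') * Rt.aD x := by
    rw [mul_assoc, ← Rt.c_add, Rt.comm_AC, Rt.c_add]
  calc Rt.cD y * Rt.aD x * Rt.sD m
      = Rt.cD b' * (Rt.cD (mu x m) * Rt.cD (y - mu x m - b') * Rt.aD x) * Rt.sD m := by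
        rw [h3]; simp only [mul_assoc]
    _ = Rt.cD b' * (Rt.aD x * Rt.cD (mu x m) * Rt.cD (y - mu x m - b')) * Rt.sD m := by rw [h5]
    _ = Rt.cD b' * (Rt.aD x * Rt.cD (mu x m)) * (Rt.cD (y - mu x m - b') * Rt.sD m) := by
        simp only [mul_assoc]
    _ = Rt.cD b' * (Rt.aD x * Rt.cD (mu x m)) * (Rt.sD m * Rt.cD (y - mu x m - b')) := by rw [h2]
    _ = Rt.cD b' * (Rt.aD x * Rt.cD (mu x m) * Rt.sD m) * Rt.cD (y - mu x m - b') := by
        simp only [mul_assoc]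
    _ = Rt.cD b' * (Rt.sD m * Rt.aD x) * Rt.cD (y - mu x m - b') := by rw [h1]
    _ = _ := by simp only [mul_assoc]

end RootData

/-- Coordinates from root data. -/
noncomputable def coord_of_rootData {F : Frame P L} {D : Type*} [AddCommGroup D] {mu : D → D → D}
    (Rt : RootData F D mu)
    (hApt : ∀ q, q ∉ F.l → ∃ x y, q = (Rt.cD y * Rt.aD x).pt F.o)
    (hIpt : ∀ q, q ∈ F.l → q ≠ F.Y → ∃ n, q = (Rt.sD n).pt F.X)
    (hVln : ∀ m : L, F.Y ∈ m → m ≠ F.l → ∃ c, m = (Rt.aD c).ln F.b)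
    (hAln : ∀ m : L, F.Y ∉ m → ∃ m' b', m = (Rt.cD b' * Rt.sD m').ln F.a) :
    Coord P L D mu where
  pA := fun x y => (Rt.cD y * Rt.aD x).pt F.o
  pI := fun n => (Rt.sD n).pt F.X
  pY := F.Y
  lA := fun m b' => (Rt.cD b' * Rt.sD m).ln F.a
  lV := fun c => (Rt.aD c).ln F.b
  lI := F.l
  inc_AA := fun x y m b' => by
    have hso : (Rt.sD m).pt F.o = F.o := (Rt.s_mem m).1 _ F.hob
    have h1 : (Rt.cD y * Rt.aD x).pt F.o
        = (Rt.cD b' * Rt.sD m).pt ((Rt.aD x * Rt.cD (y - mu x m - b')).pt F.o) := by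
      have h2 := congrArg (fun g : Coll P L => g.pt F.o) (Rt.key_AA x y m b')
      have h3 : (Rt.cD y * Rt.aD x * Rt.sD m).pt F.o = (Rt.cD y * Rt.aD x).pt ((Rt.sD m).pt F.o) := rfl
      simp only [h3, hso] at h2
      exact h2
    rw [h1, (Rt.cD b' * Rt.sD m).inc]
    have h4 : (Rt.aD x * Rt.cD (y - mu x m - b')).pt F.o = (Rt.aD x).pt ((Rt.cD (y - mu x m - b')).pt F.o) := rfl
    rw [h4]
    have h5 := (Rt.aD x).inc ((Rt.cD (y - mu x m - b')).pt F.o) F.a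
    rw [(Rt.a_mem x).2 F.a F.hXa] at h5
    rw [h5, Rt.cD_pt_a]
    constructor
    · intro h
      have : y = (y - mu x m - b') + (mu x m + b') := by abel
      rw [this, h, zero_add]
    · intro h
      rw [h]; abel
  inc_AV := fun x y c => by
    have h1 : (Rt.cD y * Rt.aD x).pt F.o = (Rt.aD c).pt ((Rt.cD y).pt ((Rt.aD (x - c)).pt F.o)) := by
      have h2 : Rt.aD x = Rt.aD c * Rt.aD (x - c) := by
        rw [← Rt.a_add]; congr 1; abel
      have h3 : Rt.cD y * Rt.aD x = Rt.aD c * (Rt.cD y * Rt.aD (x - c)) := by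
        rw [h2, ← mul_assoc, ← Rt.comm_AC, mul_assoc]
      rw [h3]; rfl
    rw [h1, (Rt.aD c).inc]
    have h5 := (Rt.cD y).inc ((Rt.aD (x - c)).pt F.o) F.b
    rw [(Rt.c_mem y).2 F.b F.hYb] at h5
    rw [h5, Rt.aD_pt_b, sub_eq_zero]
  inc_AI := fun x y h => by
    have h1 := (Rt.cD y * Rt.aD x).inc F.o F.l
    have h2 : (Rt.cD y * Rt.aD x).ln F.l = F.l := by
      change (Rt.cD y).ln ((Rt.aD x).ln F.l) = F.l
      rw [(Rt.a_mem x).2 F.l F.hXl, (Rt.c_mem y).2 F.l F.hYl]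
    rw [h2] at h1
    exact F.hol (h1.mp h)
  inc_IA := fun n m b' => by
    have hw : (Rt.sD n).pt F.X ∈ F.l := Rt.s_mem_l n F.hXl
    have h1 : (Rt.sD n).pt F.X = (Rt.cD b' * Rt.sD m).pt ((Rt.sD (n - m)).pt F.X) := by
      have h2 : Rt.sD n = Rt.sD m * Rt.sD (n - m) := by
        rw [← Rt.s_add]; congr 1; abel
      have h3 : (Rt.cD b' * Rt.sD m).pt ((Rt.sD (n - m)).pt F.X) = (Rt.cD b').pt ((Rt.sD n).pt F.X) := by
        rw [h2]; rfl
      rw [h3, (Rt.c_mem b').1 _ hw]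
    rw [h1, (Rt.cD b' * Rt.sD m).inc, Rt.sD_pt_a, sub_eq_zero]
  inc_IV := fun n c h => by
    have hw : (Rt.sD n).pt F.X ∈ F.l := Rt.s_mem_l n F.hXl
    have h1 := (Rt.aD c).inc ((Rt.sD n).pt F.X) F.b
    rw [(Rt.a_mem c).1 _ hw] at h1
    have h2 := h1.mp h
    have h3 := (Rt.sD n).inc F.X F.b
    rw [(Rt.s_mem n).2 F.b F.hYb] at h3
    exact F.hXb (h3.mp h2)
  inc_II := fun n => Rt.s_mem_l n F.hXl
  inc_YA := fun m b' h => by
    have h1 := (Rt.cD b' * Rt.sD m).inc F.Y F.a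
    have h2 : (Rt.cD b' * Rt.sD m).pt F.Y = F.Y := by
      change (Rt.cD b').pt ((Rt.sD m).pt F.Y) = F.Y
      rw [(Rt.s_mem m).1 _ F.hYb, (Rt.c_mem b').1 _ F.hYl]
    rw [h2] at h1
    exact F.hYa (h1.mp h)
  inc_YV := fun c => by
    have h1 := (Rt.aD c).inc F.Y F.b
    rw [(Rt.a_mem c).1 _ F.hYl] at h1
    exact h1.mpr F.hYb
  inc_YI := F.hYl
  pt_cases := fun q => by
    by_cases hq : q ∈ F.l
    · by_cases hY : q = F.Y
      · exact Or.inr (Or.inr hY)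
      · obtain ⟨n, hn⟩ := hIpt q hq hY
        exact Or.inr (Or.inl ⟨n, hn⟩)
    · obtain ⟨x, y, h⟩ := hApt q hq
      exact Or.inl ⟨x, y, h⟩
  ln_cases := fun m => by
    by_cases hY : F.Y ∈ m
    · by_cases hl : m = F.l
      · exact Or.inr (Or.inr hl)
      · obtain ⟨c, hc⟩ := hVln m hY hl
        exact Or.inr (Or.inl ⟨c, hc⟩)
    · obtain ⟨m', b', h⟩ := hAln m hY
      exact Or.inl ⟨m', b', h⟩

end T3PairAux

open T3PairAux in
theorem exists_coord {G : Subgroup (Coll P L)} (hM : Moufang G) :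
    ∃ (D : Type (max u v)) (_ : AddCommGroup D) (_ : Finite D) (mu : D → D → D) (e : D),
      RLaws mu e ∧ Nonempty (Coord P L D mu) := by
  classical
  obtain ⟨F⟩ := exists_frame (P := P) (L := L)
  -- transitivity
  have trans : ∀ {c : P} {A : L} {m : L} {p q : P}, c ∈ A → c ∈ m → p ∈ m → q ∈ m → p ∉ A → q ∉ A →
      ∃ g ∈ EEG c A, g.pt p = q := by
    intro c A m p q hc hcm hp hq hpA hqA
    obtain ⟨g, _, hg, hgp⟩ := hM c A hc p q m hcm hp hq hpA hqA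
    exact ⟨g, hg, hgp⟩
  -- non-trivial elements
  obtain ⟨u₁, hu₁a, hu₁o, hu₁X⟩ := BasicsAux.exists_third (P := P) F.a F.o F.X
  have hu₁l : u₁ ∉ F.l := fun h => hu₁X (F.hal_X hu₁a h)
  obtain ⟨τ₁, hτ₁, hτ₁p⟩ := trans F.hXl F.hXa F.hoa hu₁a F.hol hu₁l
  have hτ₁1 : τ₁ ≠ 1 := by
    rintro rfl
    exact hu₁o hτ₁p.symm
  obtain ⟨c₁, hc₁l, hc₁X, hc₁Y⟩ := BasicsAux.exists_third (P := P) F.l F.X F.Y
  have hc₁b : c₁ ∉ F.b := fun h => hc₁Y (F.hbl_Y h hc₁l)
  obtain ⟨s₁, hs₁, hs₁p⟩ := trans F.hYb F.hYl F.hXl hc₁l F.hXb hc₁b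
  have hs₁1 : s₁ ≠ 1 := by
    rintro rfl
    exact hc₁X hs₁p.symm
  obtain ⟨v₁, hv₁b, hv₁o, hv₁Y⟩ := BasicsAux.exists_third (P := P) F.b F.o F.Y
  have hv₁l : v₁ ∉ F.l := fun h => hv₁Y (F.hbl_Y hv₁b h)
  obtain ⟨k₁, hk₁, hk₁p⟩ := trans F.hYl F.hYb F.hob hv₁b F.hol hv₁l
  have hk₁1 : k₁ ≠ 1 := by
    rintro rfl
    exact hv₁o hk₁p.symm
  -- commutativity
  have cAC : ∀ {g h : Coll P L}, g ∈ EEG F.X F.l → h ∈ EEG F.Y F.l → g * h = h * g :=
    fun hg hh => comm_of_ne F.hXl F.hYl F.hXY hg hh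
  have cBC : ∀ {s y : Coll P L}, s ∈ EEG F.Y F.b → y ∈ EEG F.Y F.l → s * y = y * s :=
    fun hs hy => comm_BC F.hYl F.hYb F.hob F.hol hs hy
  have cA : ∀ {g h : Coll P L}, g ∈ EEG F.X F.l → h ∈ EEG F.X F.l → g * h = h * g :=
    fun hg hh => comm_same F.hXl F.hYl F.hXY hk₁ hk₁1 hg hh
  have cC : ∀ {g h : Coll P L}, g ∈ EEG F.Y F.l → h ∈ EEG F.Y F.l → g * h = h * g :=
    fun hg hh => comm_same F.hYl F.hXl F.hXY.symm hτ₁ hτ₁1 hg hh
  -- the groups
  let A := EEG F.X F.l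
  let C := EEG F.Y F.l
  let B := EEG F.Y F.b
  letI iA : CommGroup A :=
    { (inferInstance : Group A) with mul_comm := fun a b => Subtype.ext (cA a.2 b.2) }
  letI iC : CommGroup C :=
    { (inferInstance : Group C) with mul_comm := fun a b => Subtype.ext (cC a.2 b.2) }
  -- the pairing
  let κ : A → B → C := fun τ s =>
    ⟨(τ : Coll P L)⁻¹ * s * τ * (s : Coll P L)⁻¹, kappa_mem F.hXl F.hYl F.hYb τ.2 s.2⟩
  have κ_left : ∀ x x' s, κ (x * x') s = κ x s * κ x' s := by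
    intro x x' s
    apply Subtype.ext
    change ((x : Coll P L) * x')⁻¹ * s * ((x : Coll P L) * x') * (s : Coll P L)⁻¹ =
      ((x : Coll P L)⁻¹ * s * x * (s : Coll P L)⁻¹) * ((x' : Coll P L)⁻¹ * s * x' * (s : Coll P L)⁻¹)
    have hk : (x' : Coll P L) * ((x : Coll P L)⁻¹ * s * x * (s : Coll P L)⁻¹) =
        ((x : Coll P L)⁻¹ * s * x * (s : Coll P L)⁻¹) * x' := cAC x'.2 (κ x s).2
    have hk' : (x' : Coll P L)⁻¹ * ((x : Coll P L)⁻¹ * s * x * (s : Coll P L)⁻¹) =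
        ((x : Coll P L)⁻¹ * s * x * (s : Coll P L)⁻¹) * (x' : Coll P L)⁻¹ := by
      have hc : Commute (x' : Coll P L) ((x : Coll P L)⁻¹ * s * x * (s : Coll P L)⁻¹) := hk
      exact hc.inv_left.eq
    calc ((x : Coll P L) * x')⁻¹ * s * ((x : Coll P L) * x') * (s : Coll P L)⁻¹
        = (x' : Coll P L)⁻¹ * ((x : Coll P L)⁻¹ * s * x * (s : Coll P L)⁻¹) * (s * x' * (s : Coll P L)⁻¹) := by group
      _ = ((x : Coll P L)⁻¹ * s * x * (s : Coll P L)⁻¹) * (x' : Coll P L)⁻¹ * (s * x' * (s : Coll P L)⁻¹) := by rw [hk']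
      _ = _ := by group
  have κ_right : ∀ x s s', κ x (s * s') = κ x s * κ x s' := by
    intro x s s'
    apply Subtype.ext
    change (x : Coll P L)⁻¹ * ((s : Coll P L) * s') * x * ((s : Coll P L) * s')⁻¹ =
      ((x : Coll P L)⁻¹ * s * x * (s : Coll P L)⁻¹) * ((x : Coll P L)⁻¹ * s' * x * (s' : Coll P L)⁻¹)
    have hk : (s : Coll P L) * ((x : Coll P L)⁻¹ * s' * x * (s' : Coll P L)⁻¹) =
        ((x : Coll P L)⁻¹ * s' * x * (s' : Coll P L)⁻¹) * s := cBC s.2 (κ x s').2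
    calc (x : Coll P L)⁻¹ * ((s : Coll P L) * s') * x * ((s : Coll P L) * s')⁻¹
        = ((x : Coll P L)⁻¹ * s * x * (s : Coll P L)⁻¹) * ((s : Coll P L) * ((x : Coll P L)⁻¹ * s' * x * (s' : Coll P L)⁻¹)) * (s : Coll P L)⁻¹ := by group
      _ = ((x : Coll P L)⁻¹ * s * x * (s : Coll P L)⁻¹) * (((x : Coll P L)⁻¹ * s' * x * (s' : Coll P L)⁻¹) * s) * (s : Coll P L)⁻¹ := by rw [hk]
      _ = _ := by group
  let τA : A := ⟨τ₁, hτ₁⟩
  let sB : B := ⟨s₁, hs₁⟩
  let α0 : A →* C := MonoidHom.mk' (fun x => κ x sB) (fun x x' => κ_left x x' sB)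
  let β0 : B →* C := MonoidHom.mk' (fun s => κ τA s) (fun s s' => κ_right τA s s')
  have hαinj : Function.Injective α0 := by
    rw [injective_iff_map_eq_one]
    intro x hx
    have h1 : (x : Coll P L)⁻¹ * s₁ * x * s₁⁻¹ = 1 := congrArg Subtype.val hx
    rcases kappa_eq_one F.hXl F.hYl F.hYb F.hXb x.2 hs₁ h1 with h | h
    · exact Subtype.ext h
    · exact absurd h hs₁1
  have hβinj : Function.Injective β0 := by
    rw [injective_iff_map_eq_one]
    intro s hs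
    have h1 : τ₁⁻¹ * (s : Coll P L) * τ₁ * (s : Coll P L)⁻¹ = 1 := congrArg Subtype.val hs
    rcases kappa_eq_one F.hXl F.hYl F.hYb F.hXb hτ₁ s.2 h1 with h | h
    · exact absurd h hτ₁1
    · exact Subtype.ext h
  have cardA : Nat.card A = Nat.card C :=
    (card_EEG hM F.hXl).trans (card_EEG hM F.hYl).symm
  have cardB : Nat.card B = Nat.card C :=
    (card_EEG hM F.hYb).trans (card_EEG hM F.hYl).symm
  let α : A ≃* C := MulEquiv.ofBijective α0 ((Nat.bijective_iff_injective_and_card α0).2 ⟨hαinj, cardA⟩)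
  let β : B ≃* C := MulEquiv.ofBijective β0 ((Nat.bijective_iff_injective_and_card β0).2 ⟨hβinj, cardB⟩)
  have hα : ∀ x, α x = κ x sB := fun _ => rfl
  have hβ : ∀ s, β s = κ τA s := fun _ => rfl
  -- the ring
  let D := Additive A
  let mu : D → D → D := fun x m => Additive.ofMul (α.symm (κ x.toMul (β.symm (α m.toMul))))
  have hsB : β.symm (α τA) = sB := by
    rw [MulEquiv.symm_apply_eq, hα, hβ]
  have R : RLaws mu (Additive.ofMul τA) := by
    refine ⟨fun x x' m => ?_, fun x m m' => ?_, fun m => ?_, fun x => ?_, ?_⟩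
    · change Additive.ofMul (α.symm (κ (x.toMul * x'.toMul) _)) = _
      rw [κ_left, map_mul]
      rfl
    · change Additive.ofMul (α.symm (κ x.toMul (β.symm (α (m.toMul * m'.toMul))))) = _
      rw [map_mul, map_mul, κ_right, map_mul]
      rfl
    · change Additive.ofMul (α.symm (κ τA (β.symm (α m.toMul)))) = m
      rw [← hβ, MulEquiv.apply_symm_apply, MulEquiv.symm_apply_apply]
      rfl
    · change Additive.ofMul (α.symm (κ x.toMul (β.symm (α τA)))) = x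
      rw [hsB, ← hα, MulEquiv.symm_apply_apply]
      rfl
    · intro h
      apply hτ₁1
      have h1 : τA = 1 := Additive.ofMul.injective h
      exact congrArg Subtype.val h1
  -- root data
  let Rt : RootData F D mu :=
    { aD := fun x => ((x.toMul : A) : Coll P L)
      cD := fun y => ((α y.toMul : C) : Coll P L)
      sD := fun m => ((β.symm (α m.toMul) : B) : Coll P L)
      a_mem := fun x => (x.toMul : A).2
      c_mem := fun y => (α y.toMul : C).2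
      s_mem := fun m => (β.symm (α m.toMul) : B).2
      a_add := fun _ _ => rfl
      c_add := fun x y => by
        change ((α (x.toMul * y.toMul) : C) : Coll P L) = _
        rw [map_mul]; rfl
      s_add := fun x y => by
        change ((β.symm (α (x.toMul * y.toMul)) : B) : Coll P L) = _
        rw [map_mul, map_mul]; rfl
      a_surj := fun g hg => ⟨Additive.ofMul (⟨g, hg⟩ : A), rfl⟩
      c_surj := fun g hg => ⟨Additive.ofMul (α.symm ⟨g, hg⟩), by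
        change ((α (α.symm ⟨g, hg⟩) : C) : Coll P L) = g
        rw [MulEquiv.apply_symm_apply]⟩
      s_surj := fun g hg => ⟨Additive.ofMul (α.symm (β ⟨g, hg⟩)), by
        change ((β.symm (α (α.symm (β ⟨g, hg⟩))) : B) : Coll P L) = g
        rw [MulEquiv.apply_symm_apply, MulEquiv.symm_apply_apply]⟩
      a_inj := fun x y h => Additive.toMul.injective (Subtype.ext h)
      c_inj := fun x y h => Additive.toMul.injective (α.injective (Subtype.ext h))
      s_inj := fun x y h => Additive.toMul.injective (α.injective (β.symm.injective (Subtype.ext h)))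
      kap := fun x m => by
        change _ = ((α (α.symm (κ x.toMul (β.symm (α m.toMul)))) : C) : Coll P L)
        rw [MulEquiv.apply_symm_apply]
      comm_AC := fun x y => cAC (x.toMul : A).2 (α y.toMul : C).2
      comm_BC := fun m y => cBC (β.symm (α m.toMul) : B).2 (α y.toMul : C).2 }
  have : Finite D := Finite.of_equiv A Additive.ofMul
  refine ⟨D, inferInstance, inferInstance, mu, Additive.ofMul τA, R, ⟨coord_of_rootData Rt ?_ ?_ ?_ ?_⟩⟩
  · -- affine points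
    intro q hq
    have hqY : q ≠ F.Y := fun h => hq (h ▸ F.hYl)
    have hv := HasLines.mkLine_ax (L := L) hqY
    set v : L := HasLines.mkLine hqY
    have hva : v ≠ F.a := fun h => F.hYa (h ▸ hv.2)
    have hr := HasPoints.mkPoint_ax (P := P) hva
    set r : P := HasPoints.mkPoint hva
    have hrl : r ∉ F.l := by
      intro h
      have hrX := F.hal_X hr.2 h
      rw [hrX] at hr
      rcases Nondegenerate.eq_or_eq hr.1 hv.2 F.hXl F.hYl with h' | h'
      · exact F.hXY h'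
      · exact hq (h' ▸ hv.1)
    obtain ⟨τ, hτ, hτo⟩ := trans F.hXl F.hXa F.hoa hr.2 F.hol hrl
    obtain ⟨y, hy, hyr⟩ := trans F.hYl hv.2 hr.1 hv.1 hrl hq
    obtain ⟨y', hy'⟩ := Rt.c_surj y hy
    obtain ⟨x', hx'⟩ := Rt.a_surj τ hτ
    refine ⟨x', y', ?_⟩
    rw [hy', hx']
    change q = y.pt (τ.pt F.o)
    rw [hτo, hyr]
  · -- ideal points
    intro q hq hY
    have hqb : q ∉ F.b := fun h => hY (F.hbl_Y h hq)
    obtain ⟨s, hs, hsX⟩ := trans F.hYb F.hYl F.hXl hq F.hXb hqb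
    obtain ⟨n, hn⟩ := Rt.s_surj s hs
    exact ⟨n, by rw [hn, hsX]⟩
  · -- vertical lines
    intro m hY hl
    have hma : m ≠ F.a := fun h => F.hYa (h ▸ hY)
    have hr := HasPoints.mkPoint_ax (P := P) hma
    set r : P := HasPoints.mkPoint hma
    have hrl : r ∉ F.l := by
      intro h
      have hrX := F.hal_X hr.2 h
      rw [hrX] at hr
      rcases Nondegenerate.eq_or_eq hr.1 hY F.hXl F.hYl with h' | h'
      · exact F.hXY h'
      · exact hl h'
    obtain ⟨τ, hτ, hτo⟩ := trans F.hXl F.hXa F.hoa hr.2 F.hol hrl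
    obtain ⟨x', hx'⟩ := Rt.a_surj τ hτ
    refine ⟨x', ?_⟩
    rw [hx']
    have h1 : r ∈ τ.ln F.b := by
      rw [← hτo, τ.inc]; exact F.hob
    have h2 : F.Y ∈ τ.ln F.b := by
      have := τ.inc F.Y F.b
      rw [hτ.1 _ F.hYl] at this
      exact this.mpr F.hYb
    rcases Nondegenerate.eq_or_eq hr.1 hY h1 h2 with h' | h'
    · exact absurd (h' ▸ F.hYl) hrl
    · exact h'
  · -- other lines
    intro m hY
    have hmb : m ≠ F.b := fun h => hY (h ▸ F.hYb)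
    have hr := HasPoints.mkPoint_ax (P := P) hmb
    set r : P := HasPoints.mkPoint hmb
    have hrY : r ≠ F.Y := fun h => hY (h ▸ hr.1)
    have hrl : r ∉ F.l := fun h => hrY (F.hbl_Y hr.2 h)
    obtain ⟨y, hy, hyo⟩ := trans F.hYl F.hYb F.hob hr.2 F.hol hrl
    -- `m' = y⁻¹ m ∋ o`
    have hm'o : F.o ∈ (y⁻¹).ln m := by
      have h2 : (y⁻¹).pt r = F.o := by
        rw [← hyo]
        change y.pt⁻¹ (y.pt F.o) = F.o
        simp
      rw [← h2]
      exact (y⁻¹).inc r m |>.mpr hr.1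
    have hm'Y : F.Y ∉ (y⁻¹).ln m := by
      intro h
      have h1 := (y⁻¹).inc F.Y m
      have h2 : (y⁻¹).pt F.Y = F.Y := ((EEG F.Y F.l).inv_mem hy).1 _ F.hYl
      rw [h2] at h1
      exact hY (h1.mp h)
    have hm'l : (y⁻¹).ln m ≠ F.l := fun h => F.hol (h ▸ hm'o)
    have hw := HasPoints.mkPoint_ax (P := P) hm'l
    set w : P := HasPoints.mkPoint hm'l
    have hwY : w ≠ F.Y := fun h => hm'Y (h ▸ hw.1)
    have hwb : w ∉ F.b := fun h => hwY (F.hbl_Y h hw.2)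
    obtain ⟨s, hs, hsX⟩ := trans F.hYb F.hYl F.hXl hw.2 F.hXb hwb
    obtain ⟨n, hn⟩ := Rt.s_surj s hs
    obtain ⟨y', hy'⟩ := Rt.c_surj y hy
    refine ⟨n, y', ?_⟩
    rw [hy', hn]
    change m = y.ln (s.ln F.a)
    have h3 : s.ln F.a = (y⁻¹).ln m := by
      have h4 : w ∈ s.ln F.a := by rw [← hsX, s.inc]; exact F.hXa
      have h5 : F.o ∈ s.ln F.a := by
        have := s.inc F.o F.a
        rw [hs.1 _ F.hob] at this
        exact this.mpr F.hoa
      rcases Nondegenerate.eq_or_eq h4 h5 hw.1 hm'o with h' | h'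
      · exact absurd (h' ▸ hw.2) F.hol
      · exact h'
    rw [h3]
    change m = y.ln (y.ln⁻¹ m)
    simp

end Cfsg.Agent.Lib.OW
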