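import Cfsg.Agent.Lib.OW.T3Base
import Cfsg.Agent.Lib.OW.EETT

/-! [T3Pers] Root groups in a Moufang plane. `EEG c A` = group of collineations `g` with `IsPersp g c A`.
Frame: `X ≠ Y` on `l`, `o ∉ l`, `a = oX`, `b = oY`. `A = EEG X l`, `C = EEG Y l`, `B = EEG Y b`. -/

set_option autoImplicit false

namespace Cfsg.Agent.Lib.OW

open Configuration

universe u v

variable {P : Type u} {L : Type v} [Membership P L] [Fintype P] [Fintype L] [ProjectivePlane P L]

/-- Perspectivities with centre `c` and axis `A`. -/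
def EEG (c : P) (A : L) : Subgroup (Coll P L) where
  carrier := {g | IsPersp g c A}
  mul_mem' := by
    rintro g h ⟨hg1, hg2⟩ ⟨hh1, hh2⟩
    refine ⟨fun p hp => ?_, fun l hl => ?_⟩
    · change g.pt (h.pt p) = p
      rw [hh1 p hp, hg1 p hp]
    · change g.ln (h.ln l) = l
      rw [hh2 l hl, hg2 l hl]
  one_mem' := ⟨fun _ _ => rfl, fun _ _ => rfl⟩
  inv_mem' := by
    rintro g ⟨hg1, hg2⟩
    refine ⟨fun p hp => ?_, fun l hl => ?_⟩
    · change g.pt⁻¹ p = p
      rw [Equiv.Perm.inv_eq_iff_eq]; exact (hg1 p hp).symm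
    · change g.ln⁻¹ l = l
      rw [Equiv.Perm.inv_eq_iff_eq]; exact (hg2 l hl).symm

theorem mem_EEG {c : P} {A : L} {g : Coll P L} : g ∈ EEG c A ↔ IsPersp g c A := Iff.rfl

/-- A perspectivity (centre on the axis) fixing a point off the axis is trivial. -/
theorem eq_one_of_fix {c p : P} {A : L} {g : Coll P L} (hc : c ∈ A) (hg : g ∈ EEG c A) (hp : p ∉ A)
    (h : g.pt p = p) : g = 1 := by
  by_contra hg1
  refine hp (EETT.fix_pt_mem hg1 hg h ?_)
  rintro rfl
  exact hp hc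

/-- Regular action: same image at one point off the axis. -/
theorem eq_of_pt_eq {c p : P} {A : L} {g h : Coll P L} (hc : c ∈ A) (hg : g ∈ EEG c A) (hh : h ∈ EEG c A)
    (hp : p ∉ A) (e : g.pt p = h.pt p) : g = h := by
  have := eq_one_of_fix hc ((EEG c A).mul_mem ((EEG c A).inv_mem hh) hg) hp (by
    change (h⁻¹).pt (g.pt p) = p
    rw [e]
    change h.pt⁻¹ (h.pt p) = p
    simp)
  exact (inv_mul_eq_one.mp this).symm

/-- Conjugation by a collineation fixing `c` and `A` preserves `E(c,A)`. -/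
theorem t3p_conj_mem {c : P} {A : L} {g h : Coll P L} (hg : g ∈ EEG c A) (hc : h.pt c = c) (hA : h.ln A = A) :
    h * g * h⁻¹ ∈ EEG c A := by
  obtain ⟨g1, g2⟩ := hg
  refine ⟨fun p hp => ?_, fun m hm => ?_⟩
  · have h1 : h.pt⁻¹ p ∈ A := by
      have := h.inc (h.pt⁻¹ p) A
      rw [hA] at this
      apply this.mp
      simpa using hp
    show h.pt (g.pt (h.pt⁻¹ p)) = p
    rw [g1 _ h1]
    simp
  · have h1 : c ∈ h.ln⁻¹ m := by
      have := h.inc c (h.ln⁻¹ m)
      rw [hc] at this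
      apply this.mp
      simpa using hm
    show h.ln (g.ln (h.ln⁻¹ m)) = m
    rw [g2 _ h1]
    simp

/-- `E(c,l)`, `E(c',l)` commute (`c ≠ c'` on `l`). -/
theorem comm_of_ne {c c' : P} {l : L} (hc : c ∈ l) (hc' : c' ∈ l) (hne : c ≠ c') {g h : Coll P L}
    (hg : g ∈ EEG c l) (hh : h ∈ EEG c' l) : g * h = h * g := by
  have hgc : g.pt c' = c' := hg.1 c' hc'
  have hgl : g.ln l = l := hg.2 l hc
  have hhc : h.pt c = c := hh.1 c hc
  have hhl : h.ln l = l := hh.2 l hc'
  have k1 : h * g * h⁻¹ * g⁻¹ ∈ EEG c l := (EEG c l).mul_mem (t3p_conj_mem hg hhc hhl) ((EEG c l).inv_mem hg)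
  have k2 : h * g * h⁻¹ * g⁻¹ ∈ EEG c' l := by
    have e : h * g * h⁻¹ * g⁻¹ = h * (g * h⁻¹ * g⁻¹) := by group
    rw [e]
    exact (EEG c' l).mul_mem hh (t3p_conj_mem ((EEG c' l).inv_mem hh) hgc hgl)
  have k3 : h * g * h⁻¹ * g⁻¹ = 1 := by
    by_contra hk
    exact hne (persp_unique _ hk k1 k2).1
  have k4 : h * g = g * h := by
    have e : h * g = (h * g * h⁻¹ * g⁻¹) * (g * h) := by group
    rw [e, k3, one_mul]
  exact k4.symm

/-- `E(c,l)` is abelian, given a non-trivial element with another centre. Uses `exists_centre`: `h * k` fixes `l` pointwise so has a centre `z`;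
`z ∉ l` is impossible (`z` fixed: `k z = h⁻¹ z`, line through `z` and both centres), `z = c` forces `k = 1`. -/
theorem comm_same {c c' : P} {l : L} (hc : c ∈ l) (hc' : c' ∈ l) (hne : c ≠ c') {k : Coll P L}
    (hk : k ∈ EEG c' l) (hk1 : k ≠ 1) {g h : Coll P L}
    (hg : g ∈ EEG c l) (hh : h ∈ EEG c l) : g * h = h * g := by
  have hfix : ∀ p : P, p ∈ l → (h * k).pt p = p := by
    intro p hp
    show h.pt (k.pt p) = p
    rw [hk.1 p hp, hh.1 p hp]
  obtain ⟨z, hz⟩ := exists_centre (h * k) l hfix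
  have hpz : h * k ∈ EEG z l := ⟨hfix, hz⟩
  have hzl : z ∈ l := by
    by_contra hzl
    -- `h k` fixes `z`
    have hzz : (h * k).pt z = z := by
      have hne' : HasLines.mkLine (P := P) (L := L) (show z ≠ c from fun e => hzl (e ▸ hc)) ≠ l := by
        intro e
        have := HasLines.mkLine_ax (P := P) (L := L) (show z ≠ c from fun e => hzl (e ▸ hc))
        rw [e] at this
        exact hzl this.1
      have hzc' : z ≠ c' := fun e => hzl (e ▸ hc')
      have a1 := HasLines.mkLine_ax (P := P) (L := L) (show z ≠ c from fun e => hzl (e ▸ hc))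
      have a2 := HasLines.mkLine_ax (P := P) (L := L) hzc'
      have hne2 : HasLines.mkLine (P := P) (L := L) (show z ≠ c from fun e => hzl (e ▸ hc)) ≠ HasLines.mkLine (P := P) (L := L) hzc' := by
        intro e
        rw [← e] at a2
        rcases Nondegenerate.eq_or_eq a1.2 a2.2 hc hc' with e2 | e2
        · exact hne e2
        · exact hne' e2
      exact BasicsAux.pt_fix (h * k) hne2 a1.1 a2.1 (hz _ a1.1) (hz _ a2.1)
    set w := k.pt z with hw
    have hwh : h.pt w = z := hzz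
    have hwz : w ≠ z := by
      intro e
      exact hk1 (eq_one_of_fix hc' hk hzl e)
    -- `w` on the line `c' z`
    have hzc' : z ≠ c' := fun e => hzl (e ▸ hc')
    have hzc : z ≠ c := fun e => hzl (e ▸ hc)
    have a2 := HasLines.mkLine_ax (P := P) (L := L) hzc'
    have a1 := HasLines.mkLine_ax (P := P) (L := L) hzc
    have hw2 : w ∈ HasLines.mkLine (P := P) (L := L) hzc' := by
      have := (k.inc z (HasLines.mkLine (P := P) (L := L) hzc')).mpr a2.1
      rwa [hk.2 _ a2.2] at this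
    have hw1 : w ∈ HasLines.mkLine (P := P) (L := L) hzc := by
      have hz1 : z ∈ h.ln (HasLines.mkLine (P := P) (L := L) hzc) := by
        rw [hh.2 _ a1.2]; exact a1.1
      have := (h.inc w (HasLines.mkLine (P := P) (L := L) hzc)).mp (by rw [hwh]; exact hz1)
      exact this
    have e12 : HasLines.mkLine (P := P) (L := L) hzc' = HasLines.mkLine (P := P) (L := L) hzc := by
      rcases Nondegenerate.eq_or_eq a2.1 hw2 a1.1 hw1 with e | e
      · exact absurd e.symm hwz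
      · exact e
    rw [e12] at a2
    rcases Nondegenerate.eq_or_eq a1.2 a2.2 hc hc' with e | e
    · exact hne e
    · exact hzl (e ▸ a1.1)
  have hzc : z ≠ c := by
    rintro rfl
    have hk' : k ∈ EEG z l := by
      have e : k = h⁻¹ * (h * k) := by group
      rw [e]
      exact (EEG z l).mul_mem ((EEG z l).inv_mem hh) hpz
    exact hne (persp_unique k hk1 hk' hk).1
  have c1 : g * (h * k) = (h * k) * g := comm_of_ne hc hzl (Ne.symm hzc) hg hpz
  have c2 : g * k = k * g := comm_of_ne hc hc' hne hg hk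
  have c3 : (g * h) * k = (h * g) * k := by
    calc (g * h) * k = g * (h * k) := by group
      _ = (h * k) * g := c1
      _ = h * (k * g) := by group
      _ = h * (g * k) := by rw [c2]
      _ = (h * g) * k := by group
  exact mul_right_cancel c3

namespace T3PersAux

theorem inv_pt_apply (g : Coll P L) (p : P) : (g⁻¹).pt (g.pt p) = p := by
  change g.pt⁻¹ (g.pt p) = p
  simp

theorem pt_inv_apply (g : Coll P L) (p : P) : g.pt ((g⁻¹).pt p) = p := by
  change g.pt (g.pt⁻¹ p) = p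
  simp

theorem inv_ln_apply (g : Coll P L) (l : L) : (g⁻¹).ln (g.ln l) = l := by
  change g.ln⁻¹ (g.ln l) = l
  simp

theorem ln_inv_apply (g : Coll P L) (l : L) : g.ln ((g⁻¹).ln l) = l := by
  change g.ln (g.ln⁻¹ l) = l
  simp

theorem persp_conj (s g : Coll P L) {c : P} {A : L} (h : IsPersp g c A) :
    IsPersp (s * g * s⁻¹) (s.pt c) (s.ln A) := by
  refine ⟨fun p hp => ?_, fun l hl => ?_⟩
  · have h1 : (s⁻¹).pt p ∈ A := by
      rw [← s.inc, pt_inv_apply]; exact hp
    change s.pt (g.pt ((s⁻¹).pt p)) = p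
    rw [h.1 _ h1, pt_inv_apply]
  · have h1 : c ∈ (s⁻¹).ln l := by
      rw [← s.inc, ln_inv_apply]; exact hl
    change s.ln (g.ln ((s⁻¹).ln l)) = l
    rw [h.2 _ h1, ln_inv_apply]

end T3PersAux

open T3PersAux

/-- `E(Y,b)` commutes with `E(Y,l)` (`Y ∈ l`, `Y ∈ b`, `l ≠ b`): `s y s⁻¹ ∈ E(Y,l)` agrees with `y` at `o ∈ b \ l`. -/
theorem comm_BC {Y o : P} {l b : L} (hYl : Y ∈ l) (hYb : Y ∈ b) (hob : o ∈ b) (ho : o ∉ l) {s y : Coll P L}
    (hs : s ∈ EEG Y b) (hy : y ∈ EEG Y l) : s * y = y * s := by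
  have hs' : IsPersp s Y b := hs
  have hy' : IsPersp y Y l := hy
  have hc : s * y * s⁻¹ ∈ EEG Y l := by
    have := persp_conj s y hy'
    rw [hs'.1 Y hYb, hs'.2 l hYl] at this
    exact this
  have hyo : y.pt o ∈ b := by
    have := (y.inc o b).2 hob
    rwa [hy'.2 b hYb] at this
  have e : (s * y * s⁻¹).pt o = y.pt o := by
    have h1 : (s⁻¹).pt o = o := by
      conv_lhs => rw [← hs'.1 o hob]
      exact inv_pt_apply s o
    change s.pt (y.pt ((s⁻¹).pt o)) = y.pt o
    rw [h1, hs'.1 _ hyo]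
  have := eq_of_pt_eq hYl hc hy ho e
  calc s * y = s * y * s⁻¹ * s := by group
    _ = y * s := by rw [this]

/-- `κ(τ,s) = τ⁻¹ s τ s⁻¹ ∈ E(Y,l)` for `τ ∈ E(X,l)`, `s ∈ E(Y,b)`. -/
theorem kappa_mem {X Y : P} {l b : L} (hXl : X ∈ l) (hYl : Y ∈ l) (hYb : Y ∈ b) {τ s : Coll P L}
    (hτ : τ ∈ EEG X l) (hs : s ∈ EEG Y b) : τ⁻¹ * s * τ * s⁻¹ ∈ EEG Y l := by
  have hs' : IsPersp s Y b := hs
  have hτ' : IsPersp τ X l := hτ
  have hsl : s.ln l = l := hs'.2 l hYl
  have hsil : (s⁻¹).ln l = l := by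
    conv_lhs => rw [← hsl]
    exact inv_ln_apply s l
  refine ⟨fun p hp => ?_, fun m hm => ?_⟩
  · have h1 : (s⁻¹).pt p ∈ l := by
      have := ((s⁻¹).inc p l).2 hp
      rwa [hsil] at this
    change (τ⁻¹).pt (s.pt (τ.pt ((s⁻¹).pt p))) = p
    rw [hτ'.1 _ h1, pt_inv_apply]
    conv_lhs => rw [← hτ'.1 p hp]
    exact inv_pt_apply τ p
  · have hsim : (s⁻¹).ln m = m := by
      conv_lhs => rw [← hs'.2 m hm]
      exact inv_ln_apply s m
    have hY : Y ∈ τ.ln m := by
      have := (τ.inc Y m).2 hm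
      rwa [hτ'.1 Y hYl] at this
    change (τ⁻¹).ln (s.ln (τ.ln ((s⁻¹).ln m))) = m
    rw [hsim, hs'.2 _ hY, inv_ln_apply]

/-- Non-degeneracy: `κ(τ,s) = 1`, `τ ≠ 1` implies `s = 1`: `s τ s⁻¹ = τ` has centres `s X` and `X` (`persp_unique`), so `s X = X`, `X ∉ b`. -/
theorem kappa_eq_one {X Y : P} {l b : L} (hXl : X ∈ l) (hYl : Y ∈ l) (hYb : Y ∈ b) (hXb : X ∉ b) {τ s : Coll P L}
    (hτ : τ ∈ EEG X l) (hs : s ∈ EEG Y b) (h : τ⁻¹ * s * τ * s⁻¹ = 1) : τ = 1 ∨ s = 1 := by
  by_cases h1 : τ = 1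
  · exact Or.inl h1
  right
  have hτ' : IsPersp τ X l := hτ
  have hs' : IsPersp s Y b := hs
  have e : s * τ * s⁻¹ = τ := by
    have h2 : s * τ * s⁻¹ = τ * (τ⁻¹ * s * τ * s⁻¹) := by group
    rw [h2, h, mul_one]
  have hc := persp_conj s τ hτ'
  rw [e] at hc
  have hu := (persp_unique τ h1 hc hτ').1
  exact eq_one_of_fix hYb hs hXb hu

/-- `|E(c,A)| = order` under Moufang (`c ∈ A`): `g ↦ g p` bijects `E(c,A)` to the points `≠ c` of a line `m ∋ c`, `m ≠ A`, `p ∈ m`, `p ≠ c`. -/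
theorem card_EEG {G : Subgroup (Coll P L)} (hM : Moufang G) {c : P} {A : L} (hc : c ∈ A) :
    Nat.card (EEG c A) = ProjectivePlane.order P L := by
  classical
  obtain ⟨p, hp⟩ := Nondegenerate.exists_point (P := P) A
  have hpc : p ≠ c := fun e => hp (e ▸ hc)
  obtain ⟨m, hpm, hcm⟩ : ∃ m : L, p ∈ m ∧ c ∈ m := ⟨_, HasLines.mkLine_ax hpc⟩
  have off : ∀ q : P, q ∈ m → q ≠ c → q ∉ A := by
    intro q hq hqc hqA
    rcases Nondegenerate.eq_or_eq hq hcm hqA hc with h | h
    · exact hqc h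
    · exact hp (h ▸ hpm)
  let φ : EEG c A → {q : {q : P // q ∈ m} // q ≠ ⟨c, hcm⟩} := fun g =>
    ⟨⟨g.1.pt p, by
        have := (g.1.inc p m).2 hpm
        rwa [(show IsPersp g.1 c A from g.2).2 m hcm] at this⟩, by
      intro e
      have e' : g.1.pt p = c := congrArg Subtype.val e
      apply hpc
      apply g.1.pt.injective
      rw [e', (show IsPersp g.1 c A from g.2).1 c hc]⟩
  have hφ : Function.Bijective φ := by
    constructor
    · intro g h e
      have e' : g.1.pt p = h.1.pt p := congrArg (fun z => z.1.1) e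
      exact Subtype.ext (eq_of_pt_eq hc g.2 h.2 hp e')
    · rintro ⟨⟨q, hq⟩, hqc⟩
      have hqc' : q ≠ c := fun e => hqc (Subtype.ext e)
      obtain ⟨g, -, hg, hgp⟩ := hM c A hc p q m hcm hpm hq hp (off q hq hqc')
      exact ⟨⟨g, hg⟩, Subtype.ext (Subtype.ext hgp)⟩
  rw [Nat.card_eq_of_bijective φ hφ]
  have h1 : Nat.card {q : P // q ∈ m} = ProjectivePlane.order P L + 1 := by
    have := ProjectivePlane.pointCount_eq P m
    rwa [pointCount] at this
  have h2 : Nat.card {q : {q : P // q ∈ m} // q ≠ ⟨c, hcm⟩} = Nat.card {q : P // q ∈ m} - 1 := by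
    rw [Nat.card_eq_fintype_card, Nat.card_eq_fintype_card]
    exact Set.card_ne_eq _
  rw [h2, h1]
  simp

end Cfsg.Agent.Lib.OW
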