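import Cfsg.Agent.Lib.OW.Basics
import Cfsg.Agent.Lib.OW.AltAlg
import Cfsg.Agent.Lib.OW.T3HR
import Cfsg.Agent.Lib.OW.T3Field
import Cfsg.Agent.Lib.OW.T3Iso
import Cfsg.Agent.Lib.OW.T3Pair

/-! [Th3] Moufang ⟹ Desarguesian, by coordinates. See forum 'S3732 notes'. -/

set_option autoImplicit false

namespace Cfsg.Agent.Lib.OW

open Configuration

variable {P L : Type*} [Membership P L] [Fintype P] [Fintype L] [ProjectivePlane P L]

/-- [M10+M14] -/
theorem th3 {G : Subgroup (Coll P L)} (hM : Moufang G) : Desarguesian P L := by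
  obtain ⟨D, _, _, mu, e, R, ⟨C⟩⟩ := exists_coord hM
  obtain ⟨hS, hRr, hT, hO⟩ := colls_of_moufang hM C R
  obtain ⟨F, _, _, t, hadd, hmul⟩ := field_transport R (no_zero_div C R) (hR_core C R hS hRr) (hL_core C R hT hO)
  exact desarg_of_coord (C.transport t hadd hmul)

end Cfsg.Agent.Lib.OW
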