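import Cfsg.Agent.Lib.OW.WittAux

/-! [T2] Third vertices: the key count, abstractly (`fix_tri` and `stab2_trans_lines` as hypotheses). -/

set_option autoImplicit false
set_option linter.unusedSectionVars false

namespace Cfsg.Agent.Lib.OW.ThirdAux

open Configuration Cfsg.Agent.Lib.OW Cfsg.Agent.Lib.OW.WittAux

universe u v

variable {P : Type u} {L : Type v} [Membership P L] [Fintype P] [Fintype L]

/-- Same as `IsSylAB`. -/
def Syl (G S : Subgroup (Coll P L)) (a b : P) : Prop :=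
  S ≤ G ∧ IsPGroup 2 S ∧ (∀ s ∈ S, s.pt a = a ∧ s.pt b = b) ∧
    ∀ Q : Subgroup (Coll P L), S ≤ Q → Q ≤ G → IsPGroup 2 Q →
      (∀ q ∈ Q, q.pt a = a ∧ q.pt b = b) → Q = S

/-- `e` is the third vertex of the Sylow subgroup `S`. -/
def Third (G S : Subgroup (Coll P L)) (a b e : P) : Prop :=
  Syl G S a b ∧ (∀ l : L, ¬ (a ∈ l ∧ b ∈ l ∧ e ∈ l)) ∧
    ∀ p : P, (∀ s ∈ S, s.pt p = p) ↔ p = a ∨ p = b ∨ p = e

theorem conj_mem_of {G S : Subgroup (Coll P L)} (hSG : S ≤ G) {g h : Coll P L} (hg : g ∈ G)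
    (hh : h ∈ cj g S) : h ∈ G := by
  rw [mem_cj] at hh
  have e : h = g * (g⁻¹ * h * g) * g⁻¹ := by group
  rw [e]
  exact G.mul_mem (G.mul_mem hg (hSG hh)) (G.inv_mem hg)

theorem syl_conj {G S : Subgroup (Coll P L)} {a b : P} {g : Coll P L} (hg : g ∈ G)
    (ha : g.pt a = a) (hb : g.pt b = b) (h : Syl G S a b) : Syl G (cj g S) a b := by
  obtain ⟨h1, h2, h3, h4⟩ := h
  refine ⟨fun x hx => conj_mem_of h1 hg hx, isPGroup_cj g h2, ?_, ?_⟩
  · intro s hs
    rw [mem_cj] at hs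
    have e : s = g * (g⁻¹ * s * g) * g⁻¹ := by group
    rw [e]
    exact ⟨fix_conj ha (h3 _ hs).1, fix_conj hb (h3 _ hs).2⟩
  · intro Q hQ hQG hQ2 hQf
    have hQ' : cj g⁻¹ Q = S := by
      apply h4
      · intro s hs
        rw [mem_cj]
        simp only [inv_inv]
        apply hQ
        rw [mem_cj]
        simpa [mul_assoc] using hs
      · intro x hx
        exact conj_mem_of hQG (G.inv_mem hg) hx
      · exact isPGroup_cj _ hQ2
      · intro q hq
        rw [mem_cj] at hq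
        simp only [inv_inv] at hq
        have := hQf _ hq
        exact ⟨fix_of_conj ha this.1, fix_of_conj hb this.2⟩
    ext x
    rw [mem_cj, ← hQ', mem_cj]
    simp only [inv_inv]
    have e : g * (g⁻¹ * x * g) * g⁻¹ = x := by group
    rw [e]

theorem third_conj {G S : Subgroup (Coll P L)} {a b e : P} {g : Coll P L} (hg : g ∈ G)
    (ha : g.pt a = a) (hb : g.pt b = b) (h : Third G S a b e) : Third G (cj g S) a b (g.pt e) := by
  obtain ⟨h1, h2, h3⟩ := h
  refine ⟨syl_conj hg ha hb h1, ?_, ?_⟩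
  · rintro m ⟨hm1, hm2, hm3⟩
    apply h2 (g.ln⁻¹ m)
    have key : ∀ p : P, g.pt p ∈ m → p ∈ g.ln⁻¹ m := by
      intro p hp
      rw [← g.inc]
      simpa using hp
    refine ⟨key a (by rwa [ha]), key b (by rwa [hb]), key e hm3⟩
  · intro p
    have hconv : (∀ s ∈ cj g S, s.pt p = p) ↔ ∀ s ∈ S, s.pt (g.pt⁻¹ p) = g.pt⁻¹ p := by
      constructor
      · intro hs s hsS
        have : g * s * g⁻¹ ∈ cj g S := by
          rw [mem_cj]
          simpa [mul_assoc] using hsS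
        have h5 := hs _ this
        simp only [mul_pt, inv_pt, Equiv.Perm.mul_apply] at h5
        have h6 := congrArg (fun x => (g.pt⁻¹ : Equiv.Perm P) x) h5
        simpa using h6
      · intro hs s hsS
        rw [mem_cj] at hsS
        have h5 := hs _ hsS
        simp only [mul_pt, inv_pt, Equiv.Perm.mul_apply] at h5
        have h6 := congrArg g.pt h5
        simpa using h6
    rw [hconv, h3]
    have e1 : ∀ x : P, g.pt⁻¹ p = x ↔ p = g.pt x := by
      intro x
      constructor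
      · rintro rfl; simp
      · rintro rfl; simp
    rw [e1, e1, e1, ha, hb]

theorem card_mod_two (Q : Subgroup (Coll P L)) (hQ : IsPGroup 2 Q) (A : Finset P)
    [DecidablePred (fun x : P => ∀ q ∈ Q, q.pt x = x)]
    (hA : ∀ q ∈ Q, ∀ x ∈ A, q.pt x ∈ A) :
    A.card % 2 = (A.filter (fun x => ∀ q ∈ Q, q.pt x = x)).card % 2 := by
  classical
  letI : MulAction Q A :=
    { smul := fun q x => ⟨q.1.pt x.1, hA q.1 q.2 x.1 x.2⟩
      one_smul := fun x => by
        apply Subtype.ext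
        show ((1 : Q) : Coll P L).pt x.1 = x.1
        simp
      mul_smul := fun q r x => by
        apply Subtype.ext
        show ((q * r : Q) : Coll P L).pt x.1 = q.1.pt (r.1.pt x.1)
        simp }
  have hsm : ∀ (q : Q) (x : A), ((q • x : A) : P) = q.1.pt x.1 := fun _ _ => rfl
  have h := hQ.card_modEq_card_fixedPoints A
  have hc1 : Nat.card A = A.card := by simp
  have hc2 : Nat.card (MulAction.fixedPoints Q A) =
      (A.filter (fun x => ∀ q ∈ Q, q.pt x = x)).card := by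
    rw [← Nat.card_eq_finsetCard]
    apply Nat.card_congr
    refine
      { toFun := fun x => ⟨x.1.1, Finset.mem_filter.mpr ⟨x.1.2, fun q hq => ?_⟩⟩
        invFun := fun x => ⟨⟨x.1, (Finset.mem_filter.mp x.2).1⟩, fun q => ?_⟩
        left_inv := fun x => rfl
        right_inv := fun x => rfl }
    · have := x.2 ⟨q, hq⟩
      exact congrArg Subtype.val this
    · apply Subtype.ext
      exact (Finset.mem_filter.mp x.2).2 q.1 q.2
  rw [hc1, hc2] at h
  exact h

theorem syl_ge (K D S : Subgroup (Coll P L)) (hDK : D ≤ K) (hD : IsPGroup 2 D) (hSK : S ≤ K)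
    (hS : IsPGroup 2 S) (hmax : ∀ Q : Subgroup (Coll P L), S ≤ Q → Q ≤ K → IsPGroup 2 Q → Q = S) :
    ∃ g ∈ K, D ≤ cj g S := by
  have hDpg : IsPGroup 2 (D.subgroupOf K) := hD.comap_of_injective K.subtype K.subtype_injective
  have hSpg : IsPGroup 2 (S.subgroupOf K) := hS.comap_of_injective K.subtype K.subtype_injective
  obtain ⟨Q₀, hQ₀⟩ := hDpg.exists_le_sylow
  obtain ⟨Q₁, hQ₁⟩ := hSpg.exists_le_sylow
  have hQ₁' : (Q₁ : Subgroup K).map K.subtype = S := by
    apply hmax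
    · intro x hx
      exact ⟨⟨x, hSK hx⟩, hQ₁ (by simpa [Subgroup.mem_subgroupOf] using hx), rfl⟩
    · rintro _ ⟨z, _, rfl⟩
      exact z.2
    · exact Q₁.isPGroup'.map _
  obtain ⟨h, hh⟩ := MulAction.exists_smul_eq K Q₁ Q₀
  refine ⟨h, h.2, ?_⟩
  intro d hd
  rw [mem_cj]
  have h1 : (⟨d, hDK hd⟩ : K) ∈ (Q₀ : Subgroup K) :=
    hQ₀ (by simpa [Subgroup.mem_subgroupOf] using hd)
  rw [← hh, Sylow.coe_subgroup_smul, Subgroup.mem_pointwise_smul_iff_inv_smul_mem] at h1
  have h2 : (((MulAut.conj h)⁻¹ • (⟨d, hDK hd⟩ : K) : K) : Coll P L) ∈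
      (Q₁ : Subgroup K).map K.subtype := ⟨_, h1, rfl⟩
  rw [hQ₁'] at h2
  have e : ((MulAut.conj h)⁻¹ • (⟨d, hDK hd⟩ : K) : K) = h⁻¹ * ⟨d, hDK hd⟩ * h := by
    simp [MulAut.smul_def, MulAut.conj_symm_apply, MulAut.inv_def]
  rw [e] at h2
  simpa using h2

theorem exists_syl (G : Subgroup (Coll P L)) (a b : P) :
    ∃ S : Subgroup (Coll P L), Syl G S a b := by
  let s : Set (Subgroup (Coll P L)) :=
    {Q | Q ≤ G ∧ IsPGroup 2 Q ∧ ∀ q ∈ Q, q.pt a = a ∧ q.pt b = b}
  have hbot : (⊥ : Subgroup (Coll P L)) ∈ s := by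
    refine ⟨bot_le, IsPGroup.of_bot, ?_⟩
    intro q hq
    rw [Subgroup.mem_bot] at hq
    subst hq
    simp
  obtain ⟨m, -, hm⟩ := (Set.toFinite s).exists_le_maximal hbot
  refine ⟨m, hm.1.1, hm.1.2.1, hm.1.2.2, ?_⟩
  intro Q hQ hQG hQ2 hQf
  exact le_antisymm (hm.2 ⟨hQG, hQ2, hQf⟩ hQ) hQ

/-- the stabilizer in `G` of three points. -/
def stab3 (G : Subgroup (Coll P L)) (a b e : P) : Subgroup (Coll P L) where
  carrier := {h | h ∈ G ∧ h.pt a = a ∧ h.pt b = b ∧ h.pt e = e}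
  mul_mem' := by
    rintro u v ⟨hu, hu1, hu2, hu3⟩ ⟨hv, hv1, hv2, hv3⟩
    refine ⟨G.mul_mem hu hv, ?_, ?_, ?_⟩ <;> simp [*]
  one_mem' := ⟨G.one_mem, by simp, by simp, by simp⟩
  inv_mem' := by
    rintro u ⟨hu, hu1, hu2, hu3⟩
    refine ⟨G.inv_mem hu, ?_, ?_, ?_⟩
    · simp only [inv_pt]; rw [Equiv.Perm.inv_eq_iff_eq]; exact hu1.symm
    · simp only [inv_pt]; rw [Equiv.Perm.inv_eq_iff_eq]; exact hu2.symm
    · simp only [inv_pt]; rw [Equiv.Perm.inv_eq_iff_eq]; exact hu3.symm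

theorem third_main [ProjectivePlane P L] {G : Subgroup (Coll P L)} {a b : P} (hab : a ≠ b)
    (htri : ∀ S : Subgroup (Coll P L), Syl G S a b → ∃ e : P,
      (∀ l : L, ¬ (a ∈ l ∧ b ∈ l ∧ e ∈ l)) ∧ ∀ p : P, (∀ s ∈ S, s.pt p = p) ↔ p = a ∨ p = b ∨ p = e)
    (hline : ∀ l m : L, b ∈ l → b ∈ m → a ∉ l → a ∉ m →
      ∃ g ∈ G, g.pt a = a ∧ g.pt b = b ∧ g.ln l = m)
    {D : Subgroup (Coll P L)} (hDG : D ≤ G) (hD : IsPGroup 2 D)
    (hDf : ∀ d ∈ D, d.pt a = a ∧ d.pt b = b) {l : L} (hbl : b ∈ l) (hal : a ∉ l)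
    (hDl : ∀ d ∈ D, d.ln l = l) :
    ∃ (e : P) (R : Subgroup (Coll P L)), e ∈ l ∧ e ≠ b ∧ D ≤ R ∧ Syl G R a b ∧
      (∀ l : L, ¬ (a ∈ l ∧ b ∈ l ∧ e ∈ l)) ∧ ∀ p : P, (∀ s ∈ R, s.pt p = p) ↔ p = a ∨ p = b ∨ p = e := by
  classical
  let E : Finset P := Finset.univ.filter (fun e => ∃ S : Subgroup (Coll P L), Third G S a b e)
  have hE : ∀ e, e ∈ E ↔ ∃ S : Subgroup (Coll P L), Third G S a b e := by
    intro e; simp [E]
  have hE_inv : ∀ g ∈ G, g.pt a = a → g.pt b = b → ∀ e ∈ E, g.pt e ∈ E := by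
    intro g hg ha hb e he
    rw [hE] at he ⊢
    obtain ⟨S, hS⟩ := he
    exact ⟨_, third_conj hg ha hb hS⟩
  have hnc : ∀ e ∈ E, ∀ m : L, ¬ (a ∈ m ∧ b ∈ m ∧ e ∈ m) := by
    intro e he m
    rw [hE] at he
    obtain ⟨S, hS⟩ := he
    exact hS.2.1 m
  have hne : ∀ e ∈ E, e ≠ a ∧ e ≠ b := by
    intro e he
    have hm := HasLines.mkLine_ax (L := L) hab
    constructor
    · rintro rfl
      exact hnc _ he _ ⟨hm.1, hm.2, hm.1⟩
    · rintro rfl
      exact hnc _ he _ ⟨hm.1, hm.2, hm.2⟩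
  obtain ⟨S0, hS0⟩ := exists_syl G a b
  obtain ⟨e0, hnc0, hfix0⟩ := htri S0 hS0
  have he0 : e0 ∈ E := (hE e0).2 ⟨S0, hS0, hnc0, hfix0⟩
  have hEodd : E.card % 2 = 1 := by
    have h := card_mod_two S0 hS0.2.1 E (fun q hq x hx =>
      hE_inv q (hS0.1 hq) (hS0.2.2.1 q hq).1 (hS0.2.2.1 q hq).2 x hx)
    have hone : E.filter (fun x => ∀ q ∈ S0, q.pt x = x) = {e0} := by
      ext x
      simp only [Finset.mem_filter, Finset.mem_singleton]
      constructor
      · rintro ⟨hx, hx2⟩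
        rcases (hfix0 x).1 hx2 with h1 | h1 | h1
        · exact absurd h1 (hne x hx).1
        · exact absurd h1 (hne x hx).2
        · exact h1
      · rintro rfl
        exact ⟨he0, (hfix0 _).2 (Or.inr (Or.inr rfl))⟩
    rw [hone] at h
    simpa using h
  let El : Finset P := E.filter (· ∈ l)
  have hElodd : El.card % 2 = 1 := by
    by_contra hcon
    have hev : 2 ∣ El.card := by omega
    let f : P → L := fun e => if h : b = e then l else HasLines.mkLine h
    have hf : ∀ e, e ≠ b → b ∈ f e ∧ e ∈ f e := by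
      intro e he
      have h' : b ≠ e := fun h => he h.symm
      simp only [f, dif_neg h']
      exact HasLines.mkLine_ax h'
    have hf_eq : ∀ e (m : L), e ≠ b → b ∈ m → e ∈ m → f e = m := by
      intro e m he hbm hem
      obtain ⟨h1, h2⟩ := hf e he
      rcases Nondegenerate.eq_or_eq h1 h2 hbm hem with h3 | h3
      · exact absurd h3.symm he
      · exact h3
    have hfib : ∀ m : L, 2 ∣ (E.filter (fun e => f e = m)).card := by
      intro m
      by_cases hm : b ∈ m ∧ a ∉ m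
      · obtain ⟨g, hgG, hga, hgb, hgl⟩ := hline l m hbl hm.1 hal hm.2
        have hsets : E.filter (fun e => f e = m) = El.image g.pt := by
          ext x
          simp only [Finset.mem_filter, Finset.mem_image, El]
          constructor
          · rintro ⟨hx, hfx⟩
            have hxm : x ∈ m := by
              rw [← hfx]
              exact (hf x (hne x hx).2).2
            refine ⟨g⁻¹.pt x, ⟨?_, ?_⟩, by simp⟩
            · apply hE_inv _ (G.inv_mem hgG) _ _ x hx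
              · simp only [inv_pt]; rw [Equiv.Perm.inv_eq_iff_eq]; exact hga.symm
              · simp only [inv_pt]; rw [Equiv.Perm.inv_eq_iff_eq]; exact hgb.symm
            · rw [← g.inc, hgl]
              simpa using hxm
          · rintro ⟨y, ⟨hy, hyl⟩, rfl⟩
            have hgy := hE_inv g hgG hga hgb y hy
            refine ⟨hgy, hf_eq _ _ (hne _ hgy).2 hm.1 ?_⟩
            rw [← hgl, g.inc]
            exact hyl
        rw [hsets, Finset.card_image_of_injective _ g.pt.injective]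
        exact hev
      · have hempty : E.filter (fun e => f e = m) = ∅ := by
          rw [Finset.filter_eq_empty_iff]
          intro x hx hfx
          apply hm
          have h1 := hf x (hne x hx).2
          rw [hfx] at h1
          refine ⟨h1.1, fun ham => ?_⟩
          exact hnc x hx m ⟨ham, h1.1, h1.2⟩
        rw [hempty]
        simp
    have hsum := Finset.card_eq_sum_card_fiberwise (f := f) (s := E) (t := Finset.univ)
      (fun x _ => Finset.mem_coe.2 (Finset.mem_univ _))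
    have : 2 ∣ E.card := by
      rw [hsum]
      exact Finset.dvd_sum (fun m _ => hfib m)
    omega
  -- a `D`-fixed third vertex on `l`
  have hfixD := card_mod_two D hD El (fun q hq x hx => by
    rw [Finset.mem_filter] at hx ⊢
    refine ⟨hE_inv q (hDG hq) (hDf q hq).1 (hDf q hq).2 x hx.1, ?_⟩
    rw [← hDl q hq, q.inc]
    exact hx.2)
  have hne_filter : (El.filter (fun x => ∀ q ∈ D, q.pt x = x)).Nonempty := by
    rw [← Finset.card_pos]
    omega
  obtain ⟨e, he⟩ := hne_filter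
  rw [Finset.mem_filter, Finset.mem_filter] at he
  obtain ⟨⟨heE, hel⟩, heD⟩ := he
  obtain ⟨S, hS⟩ := (hE e).1 heE
  let K := stab3 G a b e
  have hSfix : ∀ s ∈ S, s.pt e = e := fun s hs =>
    (hS.2.2 e).2 (Or.inr (Or.inr rfl)) s hs
  obtain ⟨g, hgK, hDle⟩ := syl_ge K D S
    (fun d hd => ⟨hDG hd, (hDf d hd).1, (hDf d hd).2, heD d hd⟩) hD
    (fun s hs => ⟨hS.1.1 hs, (hS.1.2.2.1 s hs).1, (hS.1.2.2.1 s hs).2, hSfix s hs⟩)
    hS.1.2.1
    (fun Q hQ hQK hQ2 => hS.1.2.2.2 Q hQ (fun q hq => (hQK hq).1) hQ2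
      (fun q hq => ⟨(hQK hq).2.1, (hQK hq).2.2.1⟩))
  obtain ⟨hgG, hga, hgb, hge⟩ := hgK
  have hT := third_conj hgG hga hgb hS
  rw [hge] at hT
  exact ⟨e, cj g S, hel, (hne e heE).2, hDle, hT.1, hT.2.1, hT.2.2⟩

end Cfsg.Agent.Lib.OW.ThirdAux
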