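import Cfsg.Agent.Lib.OW.Sub

/-! Auxiliary facts for `Tri.fix_tri`: parity of fixed points, near-pencils. -/

set_option autoImplicit false
set_option linter.unusedSectionVars false

namespace Cfsg.Agent.Lib.OW.TriAux

open Configuration Cfsg.Agent.Lib.OW

variable {P L : Type*} [Membership P L] [Fintype P] [Fintype L] [ProjectivePlane P L]

/-- parity of the fixed points of a 2-group. -/
theorem parity_pts (S : Subgroup (Coll P L)) (hS : IsPGroup 2 S) :
    Nat.card {p : P // ∀ s ∈ S, s.pt p = p} ≡ Nat.card P [MOD 2] := by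
  classical
  letI : MulAction S P :=
    { smul := fun s p => s.1.pt p
      one_smul := fun p => rfl
      mul_smul := fun a b p => rfl }
  have h := hS.card_modEq_card_fixedPoints P
  have e : Nat.card (MulAction.fixedPoints S P) = Nat.card {p : P // ∀ s ∈ S, s.pt p = p} := by
    apply Nat.card_congr
    refine Equiv.subtypeEquivRight (fun p => ?_)
    constructor
    · intro hp s hs
      exact hp ⟨s, hs⟩
    · intro hp s
      exact hp s.1 s.2
  rw [← e]
  exact h.symm

/-- parity of the fixed points on a fixed line. -/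
theorem parity_line (S : Subgroup (Coll P L)) (hS : IsPGroup 2 S) (m : L)
    (hm : ∀ s ∈ S, s.ln m = m) :
    Nat.card {p : {p : P // p ∈ m} // ∀ s ∈ S, s.pt p.1 = p.1} ≡ Nat.card {p : P // p ∈ m} [MOD 2] := by
  classical
  have hmem : ∀ (s : S) (p : {p : P // p ∈ m}), s.1.pt p.1 ∈ m := by
    intro s p
    have := (s.1.inc p.1 m).mpr p.2
    rwa [hm s.1 s.2] at this
  letI : MulAction S {p : P // p ∈ m} :=
    { smul := fun s p => ⟨s.1.pt p.1, hmem s p⟩
      one_smul := fun p => rfl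
      mul_smul := fun a b p => rfl }
  have h := hS.card_modEq_card_fixedPoints {p : P // p ∈ m}
  have e : Nat.card (MulAction.fixedPoints S {p : P // p ∈ m}) =
      Nat.card {p : {p : P // p ∈ m} // ∀ s ∈ S, s.pt p.1 = p.1} := by
    apply Nat.card_congr
    refine Equiv.subtypeEquivRight (fun p => ?_)
    constructor
    · intro hp s hs
      have := hp ⟨s, hs⟩
      exact congrArg Subtype.val this
    · intro hp s
      exact Subtype.ext (hp s.1 s.2)
  rw [← e]
  exact h.symm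

/-- A 2-group has a fixed point off any fixed line (`n` odd). -/
theorem exists_fixed_off (S : Subgroup (Coll P L)) (hS : IsPGroup 2 S)
    (hn : Odd (ProjectivePlane.order P L)) (m : L) (hm : ∀ s ∈ S, s.ln m = m) :
    ∃ e : P, e ∉ m ∧ ∀ s ∈ S, s.pt e = e := by
  classical
  by_contra hno
  push Not at hno
  have h1 := parity_pts S hS
  have h2 := parity_line S hS m hm
  have e1 : Nat.card {p : {p : P // p ∈ m} // ∀ s ∈ S, s.pt p.1 = p.1} =
      Nat.card {p : P // ∀ s ∈ S, s.pt p = p} := by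
    apply Nat.card_congr
    refine ⟨fun p => ⟨p.1.1, p.2⟩, fun p => ⟨⟨p.1, ?_⟩, p.2⟩, fun p => rfl, fun p => rfl⟩
    by_contra hpm
    obtain ⟨s, hs, hne⟩ := hno p.1 hpm
    exact hne (p.2 s hs)
  rw [e1] at h2
  have h3 : Nat.card {p : P // p ∈ m} = ProjectivePlane.order P L + 1 :=
    ProjectivePlane.pointCount_eq P m
  have h4 : Nat.card P = ProjectivePlane.order P L ^ 2 + ProjectivePlane.order P L + 1 := by
    rw [Nat.card_eq_fintype_card]; exact ProjectivePlane.card_points P L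
  rw [h3] at h2
  rw [h4] at h1
  obtain ⟨k, hk⟩ := hn
  have h5 := h1.symm.trans h2
  rw [hk] at h5
  unfold Nat.ModEq at h5
  have : ((2 * k + 1) ^ 2 + (2 * k + 1) + 1) % 2 = 1 := by
    have e : (2 * k + 1) ^ 2 + (2 * k + 1) + 1 = 2 * (2 * k ^ 2 + 3 * k + 1) + 1 := by ring
    rw [e]; omega
  omega

/-- Fixed points off a line with three fixed points: near-pencil step. -/
theorem near_pencil (S : Subgroup (Coll P L)) (hQ : ¬ HasQuad S) {m : L} {u v p w x : P}
    (hu : u ∈ m) (hv : v ∈ m) (hp : p ∈ m) (huv : u ≠ v) (hup : u ≠ p) (hvp : v ≠ p)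
    (hw : w ∉ m) (hx : x ∉ m) (hwx : w ≠ x)
    (fu : ∀ s ∈ S, s.pt u = u) (fv : ∀ s ∈ S, s.pt v = v) (fp : ∀ s ∈ S, s.pt p = p)
    (fw : ∀ s ∈ S, s.pt w = w) (fx : ∀ s ∈ S, s.pt x = x) : False := by
  classical
  -- `r`: the line `wx` meets `m` in at most one point
  set n : L := HasLines.mkLine hwx with hn
  have hwn : w ∈ n := (HasLines.mkLine_ax hwx).1
  have hxn : x ∈ n := (HasLines.mkLine_ax hwx).2
  have hnm : n ≠ m := fun e => hw (e ▸ hwn)
  -- at most one of `u v p` lies on `n`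
  have key : ∀ y z : P, y ∈ m → z ∈ m → y ≠ z → y ∉ n → z ∉ n →
      (∀ s ∈ S, s.pt y = y) → (∀ s ∈ S, s.pt z = z) → False := by
    intro y z hy hz hyz hyn hzn fy fz
    apply hQ
    refine ⟨⟨w, fw⟩, ⟨x, fx⟩, ⟨y, fy⟩, ⟨z, fz⟩, ?_, ?_, ?_, ?_, ?_, ?_, ?_⟩
    · exact fun e => hwx (congrArg Subtype.val e)
    · intro e
      have : w = y := congrArg Subtype.val e
      exact hw (this ▸ hy)
    · intro e
      have : w = z := congrArg Subtype.val e
      exact hw (this ▸ hz)
    · intro e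
      have : x = y := congrArg Subtype.val e
      exact hx (this ▸ hy)
    · intro e
      have : x = z := congrArg Subtype.val e
      exact hx (this ▸ hz)
    · exact fun e => hyz (congrArg Subtype.val e)
    · intro l
      have hl : ∀ a b c : P, a ∈ n → b ∈ n → c ∉ n → a ≠ b → ¬ (a ∈ l ∧ b ∈ l ∧ c ∈ l) := by
        rintro a b c ha hb hc hab ⟨h1, h2, h3⟩
        have := (Nondegenerate.eq_or_eq ha hb h1 h2).resolve_left hab
        exact hc (this ▸ h3)
      have hl' : ∀ a : P, a ∉ m → ¬ (y ∈ l ∧ z ∈ l ∧ a ∈ l) := by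
        rintro a ha ⟨h1, h2, h3⟩
        have := (Nondegenerate.eq_or_eq hy hz h1 h2).resolve_left hyz
        exact ha (this ▸ h3)
      refine ⟨hl w x y hwn hxn hyn hwx, hl w x z hwn hxn hzn hwx, ?_, ?_⟩
      · rintro ⟨h1, h2, h3⟩
        exact hl' w hw ⟨h2, h3, h1⟩
      · rintro ⟨h1, h2, h3⟩
        exact hl' x hx ⟨h2, h3, h1⟩
  by_cases h1 : u ∈ n
  · by_cases h2 : v ∈ n
    · exact hnm ((Nondegenerate.eq_or_eq h1 h2 hu hv).resolve_left huv)
    · by_cases h3 : p ∈ n
      · exact hnm ((Nondegenerate.eq_or_eq h1 h3 hu hp).resolve_left hup)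
      · exact key v p hv hp hvp h2 h3 fv fp
  · by_cases h2 : v ∈ n
    · by_cases h3 : p ∈ n
      · exact hnm ((Nondegenerate.eq_or_eq h2 h3 hv hp).resolve_left hvp)
      · exact key u p hu hp hup h1 h3 fu fp
    · exact key u v hu hv huv h1 h2 fu fv

/-- normalizer elements preserve fixed points. -/
theorem fix_norm {S : Subgroup (Coll P L)} (g : Subgroup.normalizer (S : Set (Coll P L))) {x : P}
    (hx : ∀ s ∈ S, s.pt x = x) : ∀ s ∈ S, s.pt (g.1.pt x) = g.1.pt x := by
  intro s hs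
  have h1 : g.1⁻¹ * s * g.1⁻¹⁻¹ ∈ S :=
    (Subgroup.mem_normalizer_iff.mp (Subgroup.inv_mem _ g.2) s).mp hs
  have h2 := hx _ h1
  simp only [inv_inv, mul_pt, inv_pt, Equiv.Perm.mul_apply] at h2
  have h3 := congrArg g.1.pt h2
  simpa using h3

/-- The near-pencil case is not 2-transitive. -/
theorem tri_step {S : Subgroup (Coll P L)} (hQ : ¬ HasQuad S) {m : L} {u v p w : P}
    (hu : u ∈ m) (hv : v ∈ m) (hp : p ∈ m) (huv : u ≠ v) (hup : u ≠ p) (hvp : v ≠ p)
    (hw : w ∉ m)
    (fu : ∀ s ∈ S, s.pt u = u) (fv : ∀ s ∈ S, s.pt v = v) (fp : ∀ s ∈ S, s.pt p = p)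
    (fw : ∀ s ∈ S, s.pt w = w)
    (g : Subgroup.normalizer (S : Set (Coll P L))) (hgw : g.1.pt w = u) : False := by
  classical
  have off : ∀ x : P, x ∉ m → (∀ s ∈ S, s.pt x = x) → x = w := by
    intro x hx fx
    by_contra hne
    exact near_pencil S hQ hu hv hp huv hup hvp hw hx (Ne.symm hne) fu fv fp fw fx
  have hg : g.1.ln m = m := by
    by_contra hne
    have two : ∀ x y : P, x ∈ g.1.ln m → y ∈ g.1.ln m → x ≠ y → x ∈ m → y ∈ m → False := by
      intro x y hx hy hxy hxm hym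
      exact hne ((Nondegenerate.eq_or_eq hx hy hxm hym).resolve_left hxy)
    have hA : g.1.pt u ∈ g.1.ln m := (g.1.inc u m).mpr hu
    have hB : g.1.pt v ∈ g.1.ln m := (g.1.inc v m).mpr hv
    have hC : g.1.pt p ∈ g.1.ln m := (g.1.inc p m).mpr hp
    have nAB : g.1.pt u ≠ g.1.pt v := fun e => huv (g.1.pt.injective e)
    have nAC : g.1.pt u ≠ g.1.pt p := fun e => hup (g.1.pt.injective e)
    have nBC : g.1.pt v ≠ g.1.pt p := fun e => hvp (g.1.pt.injective e)
    by_cases h1 : g.1.pt u ∈ m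
    · by_cases h2 : g.1.pt v ∈ m
      · exact two _ _ hA hB nAB h1 h2
      · by_cases h3 : g.1.pt p ∈ m
        · exact two _ _ hA hC nAC h1 h3
        · exact nBC ((off _ h2 (fix_norm g fv)).trans (off _ h3 (fix_norm g fp)).symm)
    · by_cases h2 : g.1.pt v ∈ m
      · by_cases h3 : g.1.pt p ∈ m
        · exact two _ _ hB hC nBC h2 h3
        · exact nAC ((off _ h1 (fix_norm g fu)).trans (off _ h3 (fix_norm g fp)).symm)
      · exact nAB ((off _ h1 (fix_norm g fu)).trans (off _ h2 (fix_norm g fv)).symm)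
  have : g.1.pt w ∈ g.1.ln m ↔ w ∈ m := g.1.inc w m
  rw [hg, hgw] at this
  exact hw (this.mp hu)

/-- A 2-group fixing every point is trivial. -/
theorem eq_bot_of_fix_all {S : Subgroup (Coll P L)} (h : ∀ p : P, ∀ s ∈ S, s.pt p = p) : S = ⊥ := by
  classical
  rw [eq_bot_iff]
  intro s hs
  rw [Subgroup.mem_bot]
  have hpt : s.pt = 1 := by
    ext p
    exact h p s hs
  apply Coll.ext hpt
  ext l
  obtain ⟨p₀, -⟩ := ProjectivePlane.exists_config (P := P) (L := L)
  obtain ⟨u, hu, -, -⟩ := BasicsAux.exists_third (P := P) l p₀ p₀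
  obtain ⟨v, hv, hvu, -⟩ := BasicsAux.exists_third (P := P) l u u
  have := BasicsAux.ln_fix s (Ne.symm hvu) hu hv (h u s hs) (h v s hs)
  rw [this]; rfl

/-- An involution (`n` odd) fixes two points. -/
theorem inv_fix_two (t : Coll P L) (ht : t * t = 1) (hn : Odd (ProjectivePlane.order P L)) :
    ∃ u w : P, u ≠ w ∧ t.pt u = u ∧ t.pt w = w := by
  classical
  have hpt2 : ∀ x : P, t.pt (t.pt x) = x := by
    intro x
    have := congrArg (fun g : Coll P L => g.pt x) ht
    simpa using this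
  have hln : ∀ q : P, ∀ hq : q ≠ t.pt q, t.ln (HasLines.mkLine hq) = HasLines.mkLine hq := by
    intro q hq
    have h1 := HasLines.mkLine_ax (L := L) hq
    have h2 : t.pt q ∈ t.ln (HasLines.mkLine hq) := (t.inc q _).mpr h1.1
    have h3 : t.pt (t.pt q) ∈ t.ln (HasLines.mkLine hq) := (t.inc (t.pt q) _).mpr h1.2
    rw [hpt2] at h3
    exact (Nondegenerate.eq_or_eq h3 h2 h1.1 h1.2).resolve_left hq
  have hz : IsPGroup 2 (Subgroup.zpowers t) := by
    intro x
    obtain ⟨y, hy⟩ := x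
    obtain ⟨k, rfl⟩ := Subgroup.mem_zpowers_iff.mp hy
    refine ⟨1, ?_⟩
    apply Subtype.ext
    simp only [pow_one, Subgroup.coe_pow, OneMemClass.coe_one]
    rw [← zpow_natCast, ← zpow_mul, mul_comm, zpow_mul]
    have : t ^ ((2 : ℕ) : ℤ) = 1 := by
      rw [zpow_natCast, pow_two, ht]
    rw [this, one_zpow]
  have hfixoff : ∀ m : L, t.ln m = m → ∃ e : P, e ∉ m ∧ t.pt e = e := by
    intro m hm
    have hm' : ∀ s ∈ Subgroup.zpowers t, s.ln m = m := by
      intro s hs
      obtain ⟨k, rfl⟩ := Subgroup.mem_zpowers_iff.mp hs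
      induction k using Int.induction_on with
      | zero => simp
      | succ i ih =>
        rw [zpow_add_one]
        simp only [mul_ln, Equiv.Perm.mul_apply, hm]
        exact ih (by exact Subgroup.mem_zpowers_iff.mpr ⟨_, rfl⟩)
      | pred i ih =>
        rw [zpow_sub_one]
        simp only [mul_ln, inv_ln, Equiv.Perm.mul_apply]
        have : t.ln⁻¹ m = m := by
          rw [Equiv.Perm.inv_eq_iff_eq]; exact hm.symm
        rw [this]
        exact ih (by exact Subgroup.mem_zpowers_iff.mpr ⟨_, rfl⟩)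
    obtain ⟨e, he, hf⟩ := exists_fixed_off _ hz hn m hm'
    exact ⟨e, he, hf t (Subgroup.mem_zpowers t)⟩
  by_contra hno
  push Not at hno
  have huniq : ∀ x y : P, t.pt x = x → t.pt y = y → x = y := by
    intro x y hx hy
    by_contra hxy
    exact hno x y hxy hx hy
  -- a moved point
  have hmoved : ∃ q : P, q ≠ t.pt q := by
    by_contra hall
    push Not at hall
    obtain ⟨u, v, huv⟩ : ∃ u v : P, u ≠ v := by
      obtain ⟨p₀, -, -, l₀, -⟩ := ProjectivePlane.exists_config (P := P) (L := L)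
      obtain ⟨u, -, -⟩ := BasicsAux.exists_third (P := P) (L := L) l₀ p₀ p₀
      obtain ⟨v, -, hv, -⟩ := BasicsAux.exists_third (P := P) (L := L) l₀ u u
      exact ⟨u, v, Ne.symm hv⟩
    exact huv (huniq u v (hall u).symm (hall v).symm)
  obtain ⟨q₀, hq₀⟩ := hmoved
  set m₀ : L := HasLines.mkLine hq₀ with hm₀
  obtain ⟨e, hem, hef⟩ := hfixoff m₀ (hln q₀ hq₀)
  obtain ⟨u, hu, -, -⟩ := BasicsAux.exists_third (P := P) m₀ e e
  have heu : e ≠ u := fun h => hem (h ▸ hu)
  have hl := HasLines.mkLine_ax (L := L) heu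
  obtain ⟨q, hq, hqe, hqu⟩ := BasicsAux.exists_third (P := P) (HasLines.mkLine heu : L) e u
  have hqm : q ∉ m₀ := by
    intro hqm
    have := (Nondegenerate.eq_or_eq hq hl.2 hqm hu).resolve_left hqu
    exact hem (this ▸ hl.1)
  have hqmv : q ≠ t.pt q := by
    intro h
    exact hqe (huniq q e h.symm hef)
  have hq1 := HasLines.mkLine_ax (L := L) hqmv
  have hne : (HasLines.mkLine hqmv : L) ≠ m₀ := fun h => hqm (h ▸ hq1.1)
  have hr := HasPoints.mkPoint_ax (P := P) hne
  have hrf : t.pt (HasPoints.mkPoint hne : P) = HasPoints.mkPoint hne :=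
    BasicsAux.pt_fix t hne hr.1 hr.2 (hln q hqmv) (hln q₀ hq₀)
  have := huniq _ e hrf hef
  exact hem (this ▸ hr.2)

/-- In a 2-transitive group (`n` odd), `G_{a,b}` has even order. -/
theorem exists_inv_stab {G : Subgroup (Coll P L)} (hG : TwoTrans G)
    (hn : Odd (ProjectivePlane.order P L)) {a b : P} (hab : a ≠ b) :
    ∃ t ∈ G, t ≠ 1 ∧ t * t = 1 ∧ t.pt a = a ∧ t.pt b = b := by
  classical
  obtain ⟨g, hgG, h1, h2⟩ := hG a b b a hab (Ne.symm hab)
  have hodd : ¬ Odd (orderOf g) := by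
    intro hodd
    have hpow : ∀ k : ℕ, (g ^ (2 * k + 1)).pt a = b := by
      intro k
      induction k with
      | zero => simpa using h1
      | succ k ih =>
        have e : g ^ (2 * (k + 1) + 1) = g * g * g ^ (2 * k + 1) := by
          rw [show 2 * (k + 1) + 1 = 2 + (2 * k + 1) by ring, pow_add, pow_two]
        rw [e]
        simp only [mul_pt, Equiv.Perm.mul_apply, ih, h2, h1]
    obtain ⟨k, hk⟩ := hodd
    have := hpow k
    rw [← hk, pow_orderOf_eq_one] at this
    exact hab (by simpa using this)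
  have heven : 2 ∣ orderOf g := by
    rw [Nat.not_odd_iff_even] at hodd
    exact hodd.two_dvd
  have hpos : orderOf g ≠ 0 := by
    exact (orderOf_pos g).ne'
  set t₀ := g ^ (orderOf g / 2) with ht₀
  have hot : orderOf t₀ = 2 := orderOf_pow_orderOf_div hpos heven
  have ht₀2 : t₀ * t₀ = 1 := by
    rw [← pow_two, ← hot, pow_orderOf_eq_one]
  obtain ⟨u, w, huw, hu, hw⟩ := inv_fix_two t₀ ht₀2 hn
  obtain ⟨c, hcG, hc1, hc2⟩ := hG u w a b huw hab
  refine ⟨c * t₀ * c⁻¹, ?_, ?_, ?_, ?_, ?_⟩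
  · exact G.mul_mem (G.mul_mem hcG (G.pow_mem hgG _)) (G.inv_mem hcG)
  · intro h
    have : t₀ = 1 := by
      have h' : c⁻¹ * (c * t₀ * c⁻¹) * c = t₀ := by group
      rw [← h', h]; group
    rw [this, orderOf_one] at hot
    omega
  · have : c * t₀ * c⁻¹ * (c * t₀ * c⁻¹) = c * (t₀ * t₀) * c⁻¹ := by group
    rw [this, ht₀2]; group
  · subst hc1
    simp [hu]
  · subst hc2
    simp [hw]

/-- A maximal 2-subgroup of `G_{a,b}` is nontrivial (`n` odd). -/
theorem sylow_ne_bot {G S : Subgroup (Coll P L)} (hG : TwoTrans G)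
    (hn : Odd (ProjectivePlane.order P L)) {a b : P} (hab : a ≠ b)
    (hmax : ∀ Q : Subgroup (Coll P L), S ≤ Q → Q ≤ G → IsPGroup 2 Q →
      (∀ q ∈ Q, q.pt a = a ∧ q.pt b = b) → Q = S) : S ≠ ⊥ := by
  classical
  rintro rfl
  obtain ⟨t, htG, ht1, ht2, hta, htb⟩ := exists_inv_stab hG hn hab
  have hz : IsPGroup 2 (Subgroup.zpowers t) := by
    intro x
    obtain ⟨y, hy⟩ := x
    obtain ⟨k, rfl⟩ := Subgroup.mem_zpowers_iff.mp hy
    refine ⟨1, ?_⟩
    apply Subtype.ext
    simp only [pow_one, Subgroup.coe_pow, OneMemClass.coe_one]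
    rw [← zpow_natCast, ← zpow_mul, mul_comm, zpow_mul]
    have : t ^ ((2 : ℕ) : ℤ) = 1 := by
      rw [zpow_natCast, pow_two, ht2]
    rw [this, one_zpow]
  have hle : Subgroup.zpowers t ≤ G := by
    rw [Subgroup.zpowers_le]; exact htG
  have hfix : ∀ q ∈ Subgroup.zpowers t, q.pt a = a ∧ q.pt b = b := by
    intro q hq
    have hQ : q ∈ (WittAux.stab2 (⊤ : Subgroup (Coll P L)) a b) := by
      have : Subgroup.zpowers t ≤ WittAux.stab2 (⊤ : Subgroup (Coll P L)) a b := by
        rw [Subgroup.zpowers_le]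
        exact ⟨Subgroup.mem_top _, hta, htb⟩
      exact this hq
    exact hQ.2
  have := hmax _ bot_le hle hz hfix
  have h2 : t ∈ Subgroup.zpowers t := Subgroup.mem_zpowers t
  rw [this, Subgroup.mem_bot] at h2
  exact ht1 h2

end Cfsg.Agent.Lib.OW.TriAux
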