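import Cfsg.Agent.Lib.OW.Sub
import Cfsg.Agent.Lib.OW.BaerChain
import Cfsg.Agent.Lib.OW.Th2
import Cfsg.Agent.Lib.OW.ThirdAux
import Cfsg.Agent.Lib.OW.TriAux

/-! [M9] Triangle design: Sylow 2-subgroups of `G_{a,b}` fix exactly a triangle. See forum 'S3732 notes'. -/

set_option autoImplicit false

namespace Cfsg.Agent.Lib.OW

open Configuration

universe u v

/-- Induction hypothesis in universes `u v`. -/
def IHOW (n : ℕ) : Prop :=
  ∀ (P' : Type u) (L' : Type v) [Membership P' L'] [Fintype P'] [Fintype L'] [ProjectivePlane P' L'],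
    ProjectivePlane.order P' L' < n → ∀ G' : Subgroup (Coll P' L'), TwoTrans G' → HasElation G'

variable {P : Type u} {L : Type v} [Membership P L] [Fintype P] [Fintype L] [ProjectivePlane P L]

/-- Baer chain. -/
theorem order_fix_pow (W : Subgroup (Coll P L)) (hW : IsPGroup 2 W) (hQ : HasQuad W) :
    letI := fixPlane W hQ
    ∃ k : ℕ, ProjectivePlane.order P L = (ProjectivePlane.order (FixP W) (FixL W)) ^ (2 ^ k) :=
  baerChain_order_fix_pow W hW hQ

/-- [TB] `G_{x,P}` transitive on the `n` lines through `P` other than `xP`. Proof: `G_x` has 2 orbits on lines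
(fix pts = fix lines, Burnside); `gcd(n^2, n+1) = 1` so `G_{x, xP}` transitive on the `n^2` lines missing `x`; these
meet `xP` in a point `≠ x`; so `G_{x,P}` transitive on those through `P`. -/
theorem stab2_trans_lines {G : Subgroup (Coll P L)} (hG : TwoTrans G) {x p : P} (hxp : x ≠ p) (l l' : L)
    (hl : p ∈ l) (hl' : p ∈ l') (hxl : x ∉ l) (hxl' : x ∉ l') :
    ∃ g ∈ G, g.pt x = x ∧ g.pt p = p ∧ g.ln l = l' := by
  classical
  -- the line `m = xp`
  set m : L := HasLines.mkLine hxp with hm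
  have hxm : x ∈ m := (HasLines.mkLine_ax hxp).1
  have hpm : p ∈ m := (HasLines.mkLine_ax hxp).2
  -- the stabilizer of `x` in `G`
  let H : Subgroup (Coll P L) :=
    { carrier := {g | g ∈ G ∧ g.pt x = x}
      one_mem' := ⟨G.one_mem, rfl⟩
      mul_mem' := by
        rintro a b ⟨ha, hax⟩ ⟨hb, hbx⟩
        refine ⟨G.mul_mem ha hb, ?_⟩
        simp only [mul_pt, Equiv.Perm.mul_apply]
        rw [hbx, hax]
      inv_mem' := by
        rintro a ⟨ha, hax⟩
        refine ⟨G.inv_mem ha, ?_⟩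
        simp only [inv_pt]
        rw [Equiv.Perm.inv_eq_iff_eq, hax] }
  let ψ : H →* Equiv.Perm L :=
    { toFun := fun g => g.1.ln
      map_one' := rfl
      map_mul' := fun _ _ => rfl }
  let _ : MulAction H L := MulAction.compHom L ψ
  have hsmul : ∀ (g : H) (y : L), g • y = g.1.ln y := fun _ _ => rfl
  -- the two orbits
  have horb1 : MulAction.orbit H m = {y : L | x ∈ y} := by
    ext y
    constructor
    · rintro ⟨g, rfl⟩
      show x ∈ g.1.ln m
      have := (g.1.inc x m).mpr hxm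
      rwa [g.2.2] at this
    · intro hy
      obtain ⟨g, hg, h1, h2⟩ := flag_trans hG x x m y hxm hy
      exact ⟨⟨g, hg, h1⟩, h2⟩
  have horb2 : MulAction.orbit H l = {y : L | x ∈ y}ᶜ := by
    ext y
    constructor
    · rintro ⟨g, rfl⟩ hy
      apply hxl
      have h1 : x ∈ g.1.ln l := hy
      have := (g.1.inc x l)
      rw [g.2.2] at this
      exact this.mp h1
    · intro hy
      obtain ⟨g, hg, h1, h2⟩ := antiflag_trans hG x x l y hxl hy
      exact ⟨⟨g, hg, h1⟩, h2⟩
  set n := ProjectivePlane.order P L with hn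
  have hc1 : ({y : L | x ∈ y} : Set L).ncard = n + 1 := by
    rw [← Nat.card_coe_set_eq]
    exact ProjectivePlane.lineCount_eq L x
  have hc2 : ({y : L | x ∈ y}ᶜ : Set L).ncard = n ^ 2 := by
    have h1 := Set.ncard_add_ncard_compl ({y : L | x ∈ y} : Set L)
    rw [hc1, Nat.card_eq_fintype_card, ProjectivePlane.card_lines P L] at h1
    rw [← hn] at h1
    omega
  -- the indices
  let A : Subgroup H := MulAction.stabilizer H m
  let B : Subgroup H := MulAction.stabilizer H l
  have hA : A.index = n + 1 := by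
    show (MulAction.stabilizer H m).index = _
    rw [MulAction.index_stabilizer, horb1, hc1]
  have hB : B.index = n ^ 2 := by
    show (MulAction.stabilizer H l).index = _
    rw [MulAction.index_stabilizer, horb2, hc2]
  have hcop : Nat.Coprime (n ^ 2) (n + 1) := by
    apply Nat.Coprime.pow_left
    simp
  -- the relative index
  have h1 : (B ⊓ A).relIndex A * A.index = (B ⊓ A).index :=
    Subgroup.relIndex_mul_index inf_le_right
  have h2 : (B ⊓ A).relIndex B * B.index = (B ⊓ A).index :=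
    Subgroup.relIndex_mul_index inf_le_left
  have h3 : B.index ∣ (B ⊓ A).relIndex A * A.index := by
    rw [h1, ← h2]
    exact dvd_mul_left _ _
  rw [hA, hB] at h3
  have h4 : n ^ 2 ∣ (B ⊓ A).relIndex A := hcop.dvd_of_dvd_mul_right h3
  rw [Subgroup.inf_relIndex_right] at h4
  have hr0 : B.relIndex A ≠ 0 := by
    show (B.subgroupOf A).index ≠ 0
    exact Subgroup.index_ne_zero_of_finite
  have h5 : n ^ 2 ≤ B.relIndex A := Nat.le_of_dvd (Nat.pos_of_ne_zero hr0) h4
  -- the orbit of `l` under `A`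
  have hstab : MulAction.stabilizer A l = B.subgroupOf A := by
    ext a
    rfl
  have h6 : (MulAction.orbit A l).ncard = B.relIndex A := by
    rw [← MulAction.index_stabilizer, hstab]
    rfl
  have hsub : MulAction.orbit A l ⊆ {y : L | x ∈ y}ᶜ := by
    rw [← horb2]
    rintro y ⟨a, rfl⟩
    exact ⟨a.1, rfl⟩
  have heq : MulAction.orbit A l = {y : L | x ∈ y}ᶜ := by
    apply Set.eq_of_subset_of_ncard_le hsub
    · rw [hc2, h6]
      exact h5
  have hl'mem : l' ∈ MulAction.orbit A l := by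
    rw [heq]
    exact hxl'
  obtain ⟨a, ha⟩ := hl'mem
  have ha1 : a.1.1.ln l = l' := ha
  have ha2 : a.1.1.ln m = m := a.2
  refine ⟨a.1.1, a.1.2.1, a.1.2.2, ?_, ha1⟩
  have h7 : a.1.1.pt p ∈ l' := by
    have := (a.1.1.inc p l).mpr hl
    rwa [ha1] at this
  have h8 : a.1.1.pt p ∈ m := by
    have := (a.1.1.inc p m).mpr hpm
    rwa [ha2] at this
  have hne : l' ≠ m := fun e => hxl' (e ▸ hxm)
  rcases Nondegenerate.eq_or_eq h7 hl' h8 hpm with h9 | h9
  · exact h9
  · exact absurd h9 hne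

/-- `S` is Sylow 2 in `G_{a,b}`. -/
def IsSylAB (G S : Subgroup (Coll P L)) (a b : P) : Prop :=
  S ≤ G ∧ IsPGroup 2 S ∧ (∀ s ∈ S, s.pt a = a ∧ s.pt b = b) ∧
    ∀ Q : Subgroup (Coll P L), S ≤ Q → Q ≤ G → IsPGroup 2 Q → (∀ q ∈ Q, q.pt a = a ∧ q.pt b = b) → Q = S

/-- [T1] A Sylow 2-subgroup of `G_{a,b}` fixes exactly a triangle, for `n` odd not a prime power. Proof: `|Fix S|`
odd, so not collinear (lines have even size); `Fix S` closed under join/meet; quadrangle gives subplane on which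
`N(S)` is 2-transitive (Sub.witt, IH, Th2: order prime power, `order_fix_pow` [OddNPP] contradicts `hp`); non-collinear without quadrangle
= near-pencil; 2-transitive (witt) forces triangle. -/
theorem fix_tri (IH : IHOW.{u, v} (ProjectivePlane.order P L))
    {G : Subgroup (Coll P L)} (hG : TwoTrans G) (hn : Odd (ProjectivePlane.order P L))
    (hp : ¬ IsPrimePow (ProjectivePlane.order P L)) {S : Subgroup (Coll P L)} {a b : P} (hab : a ≠ b)
    (hS : IsSylAB G S a b) :
    ∃ e : P, (∀ l : L, ¬ (a ∈ l ∧ b ∈ l ∧ e ∈ l)) ∧ ∀ p : P, (∀ s ∈ S, s.pt p = p) ↔ p = a ∨ p = b ∨ p = e := by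
  classical
  obtain ⟨hSG, hS2, hSf, hSm⟩ := hS
  have fa : ∀ s ∈ S, s.pt a = a := fun s hs => (hSf s hs).1
  have fb : ∀ s ∈ S, s.pt b = b := fun s hs => (hSf s hs).2
  have hWitt := witt hG 2 S ⟨a, fa⟩ ⟨b, fb⟩ (fun e => hab (congrArg Subtype.val e)) hSG hS2
    (fun Q hQG hQ2 hSQ hQf => hSm Q hSQ hQG hQ2 hQf)
  by_cases hQ : HasQuad S
  · exfalso
    letI := fixPlane S hQ
    letI := Fintype.ofFinite (FixP S)
    letI := Fintype.ofFinite (FixL S)
    obtain ⟨k, hk⟩ := order_fix_pow S hS2 hQ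
    have hμ : 1 < ProjectivePlane.order (FixP S) (FixL S) := ProjectivePlane.one_lt_order _ _
    have hlt : ProjectivePlane.order (FixP S) (FixL S) < ProjectivePlane.order P L := by
      rcases Nat.eq_zero_or_pos k with rfl | hkpos
      · exfalso
        have hne := TriAux.sylow_ne_bot hG hn hab hSm
        apply hne
        apply TriAux.eq_bot_of_fix_all
        simp only [pow_zero, pow_one] at hk
        have hc1 : Fintype.card (FixP S) = Fintype.card P := by
          rw [ProjectivePlane.card_points (FixP S) (FixL S), ProjectivePlane.card_points P L, ← hk]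
        intro p s hs
        by_contra hne2
        have hlt := Fintype.card_subtype_lt (p := fun p : P => ∀ w ∈ S, w.pt p = p) (x := p)
          (fun h => hne2 (h s hs))
        have : Fintype.card (FixP S) = Fintype.card {p : P // ∀ w ∈ S, w.pt p = p} :=
          Fintype.card_congr (Equiv.refl _)
        omega
      · rw [hk]
        have : 1 < 2 ^ k := Nat.one_lt_two_pow (by omega)
        calc ProjectivePlane.order (FixP S) (FixL S)
            = ProjectivePlane.order (FixP S) (FixL S) ^ 1 := (pow_one _).symm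
          _ < _ := Nat.pow_lt_pow_right hμ this
    let Gb : Subgroup (Coll (FixP S) (FixL S)) :=
      (G.subgroupOf (Subgroup.normalizer (S : Set (Coll P L)))).map (restr S)
    have hT : TwoTrans Gb := by
      intro p₁ p₂ q₁ q₂ hp₁ hq₁
      obtain ⟨g, hgG, h1, h2⟩ := hWitt p₁ p₂ q₁ q₂ hp₁ hq₁
      refine ⟨restr S g, ⟨g, ?_, rfl⟩, ?_, ?_⟩
      · rw [SetLike.mem_coe, Subgroup.mem_subgroupOf]; exact hgG
      · apply Subtype.ext; rw [restr_pt]; exact h1
      · apply Subtype.ext; rw [restr_pt]; exact h2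
    have hE := IH (FixP S) (FixL S) hlt Gb hT
    have hpp := th2_primePow hT hE
    exact hp (hk ▸ hpp.pow (by positivity))
  · set m : L := HasLines.mkLine hab with hm
    have hm1 := HasLines.mkLine_ax (L := L) hab
    have hmf : ∀ s ∈ S, s.ln m = m := fun s hs =>
      BasicsAux.ln_fix s hab hm1.1 hm1.2 (fa s hs) (fb s hs)
    obtain ⟨e, hem, fe⟩ := TriAux.exists_fixed_off S hS2 hn m hmf
    have hcol : ∀ l : L, ¬ (a ∈ l ∧ b ∈ l ∧ e ∈ l) := by
      rintro l ⟨h1, h2, h3⟩
      have e1 : l = m := (Nondegenerate.eq_or_eq h1 h2 hm1.1 hm1.2).resolve_left hab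
      exact hem (e1 ▸ h3)
    have hea : a ≠ e := fun h => hem (h ▸ hm1.1)
    have heb : b ≠ e := fun h => hem (h ▸ hm1.2)
    refine ⟨e, hcol, fun p => ⟨fun fp => ?_, ?_⟩⟩
    · by_contra hne
      push Not at hne
      obtain ⟨hpa, hpb, hpe⟩ := hne
      -- three of `a b e p` are collinear
      have hex : ∃ l : L, (a ∈ l ∧ b ∈ l ∧ p ∈ l) ∨ (a ∈ l ∧ e ∈ l ∧ p ∈ l) ∨ (b ∈ l ∧ e ∈ l ∧ p ∈ l) := by
        by_contra hno
        push Not at hno
        apply hQ
        refine ⟨⟨a, fa⟩, ⟨b, fb⟩, ⟨e, fe⟩, ⟨p, fp⟩, ?_, ?_, ?_, ?_, ?_, ?_, ?_⟩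
        · exact fun h => hab (congrArg Subtype.val h)
        · exact fun h => hea (congrArg Subtype.val h)
        · exact fun h => hpa (congrArg Subtype.val h).symm
        · exact fun h => heb (congrArg Subtype.val h)
        · exact fun h => hpb (congrArg Subtype.val h).symm
        · exact fun h => hpe (congrArg Subtype.val h).symm
        · intro l
          obtain ⟨h1, h2, h3⟩ := hno l
          refine ⟨hcol l, ?_, ?_, ?_⟩
          · rintro ⟨x1, x2, x3⟩; exact h1 x1 x2 x3
          · rintro ⟨x1, x2, x3⟩; exact h2 x1 x2 x3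
          · rintro ⟨x1, x2, x3⟩; exact h3 x1 x2 x3
      obtain ⟨l, hl⟩ := hex
      rcases hl with ⟨h1, h2, h3⟩ | ⟨h1, h2, h3⟩ | ⟨h1, h2, h3⟩
      · -- `a b p` on `l`, `e` off
        have hel : e ∉ l := fun h => hcol l ⟨h1, h2, h⟩
        obtain ⟨g, -, hg1, -⟩ := hWitt ⟨e, fe⟩ ⟨a, fa⟩ ⟨a, fa⟩ ⟨b, fb⟩
          (fun h => hea (congrArg Subtype.val h).symm) (fun h => hab (congrArg Subtype.val h))
        exact TriAux.tri_step hQ h1 h2 h3 hab (Ne.symm hpa) (Ne.symm hpb) hel fa fb fp fe g hg1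
      · -- `a e p` on `l`, `b` off
        have hel : b ∉ l := fun h => hcol l ⟨h1, h, h2⟩
        obtain ⟨g, -, hg1, -⟩ := hWitt ⟨b, fb⟩ ⟨a, fa⟩ ⟨a, fa⟩ ⟨e, fe⟩
          (fun h => hab (congrArg Subtype.val h).symm) (fun h => hea (congrArg Subtype.val h))
        exact TriAux.tri_step hQ h1 h2 h3 hea (Ne.symm hpa) (Ne.symm hpe) hel fa fe fp fb g hg1
      · -- `b e p` on `l`, `a` off
        have hel : a ∉ l := fun h => hcol l ⟨h, h1, h2⟩
        obtain ⟨g, -, hg1, -⟩ := hWitt ⟨a, fa⟩ ⟨b, fb⟩ ⟨b, fb⟩ ⟨e, fe⟩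
          (fun h => hab (congrArg Subtype.val h)) (fun h => heb (congrArg Subtype.val h))
        exact TriAux.tri_step hQ h1 h2 h3 heb (Ne.symm hpb) (Ne.symm hpe) hel fb fe fp fa g hg1
    · rintro (rfl | rfl | rfl)
      · exact fa
      · exact fb
      · exact fe

/-- [T2] Key count. `𝔼(a,b) = {third vertices}`; `G_{a,b}` transitive on it (Sylow conj), so odd size
(stabilizer contains a Sylow); equidistributed on the `n` lines through `b` other than `ab` (stab2_trans_lines),
so each has an odd number `κ`; `D` (2-group fixing `a`, `b`, `l`) fixes one on `l`; a Sylow 2 `R ≥ D` of `G_{a,b,e}` is Sylow of `G_{a,b}`. -/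
theorem exists_fixed_third (IH : IHOW.{u, v} (ProjectivePlane.order P L))
    {G : Subgroup (Coll P L)} (hG : TwoTrans G) (hn : Odd (ProjectivePlane.order P L))
    (hp : ¬ IsPrimePow (ProjectivePlane.order P L)) {D : Subgroup (Coll P L)} {a b : P} (hab : a ≠ b)
    (hDG : D ≤ G) (hD : IsPGroup 2 D) (hDf : ∀ d ∈ D, d.pt a = a ∧ d.pt b = b) {l : L} (hbl : b ∈ l) (hal : a ∉ l)
    (hDl : ∀ d ∈ D, d.ln l = l) :
    ∃ (e : P) (R : Subgroup (Coll P L)), e ∈ l ∧ e ≠ b ∧ D ≤ R ∧ IsSylAB G R a b ∧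
      (∀ l : L, ¬ (a ∈ l ∧ b ∈ l ∧ e ∈ l)) ∧ ∀ p : P, (∀ s ∈ R, s.pt p = p) ↔ p = a ∨ p = b ∨ p = e := by
  exact ThirdAux.third_main hab (fun S hS => fix_tri IH hG hn hp hab hS)
    (fun l m hl hm hal ham => stab2_trans_lines hG hab l m hl hm hal ham) hDG hD hDf hbl hal hDl

end Cfsg.Agent.Lib.OW
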